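import Cfsg.Agent.Lib.Helper9.C11A

set_option autoImplicit false
open Cfsg

namespace Cfsg.Agent.Lib.Helper9.Leech

open scoped Pointwise
open Cfsg.Agent.S5393 Cfsg.Agent.S5548

/-! ### involution centralisers in the point stabiliser of a dodecad stabiliser -/

def centEquiv {A B : Type*} [Group A] [Group B] (e : A ≃* B) (x : A) :
    ↥(Subgroup.centralizer ({x} : Set A)) ≃* ↥(Subgroup.centralizer ({e x} : Set B)) where
  toFun a := ⟨e a.1, by
    have h := Subgroup.mem_centralizer_singleton_iff.1 a.2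
    rw [Subgroup.mem_centralizer_singleton_iff, ← map_mul, ← map_mul, h]⟩
  invFun b := ⟨e.symm b.1, by
    have h := Subgroup.mem_centralizer_singleton_iff.1 b.2
    rw [Subgroup.mem_centralizer_singleton_iff]
    apply e.injective
    rw [map_mul, map_mul, e.apply_symm_apply, h]⟩
  left_inv a := Subtype.ext (e.symm_apply_apply a.1)
  right_inv b := Subtype.ext (e.apply_symm_apply b.1)
  map_mul' a b := Subtype.ext (map_mul e a.1 b.1)

theorem cent_transport {A B T : Type*} [Group A] [Group B] [Group T] (e : A ≃* B)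
    (hB : ∀ y : B, orderOf y = 2 → Nonempty (↥(Subgroup.centralizer ({y} : Set B)) ≃* T))
    (x : A) (hx : orderOf x = 2) : Nonempty (↥(Subgroup.centralizer ({x} : Set A)) ≃* T) := by
  obtain ⟨ψ⟩ := hB (e x) (by rw [MulEquiv.orderOf_eq]; exact hx)
  exact ⟨(centEquiv e x).trans ψ⟩

def In11 (g : Equiv.Perm GolayPt) : Prop :=
  (∀ m ∈ [dM], g • bitsOf m = bitsOf m) ∧ ∀ p ∈ bitsOf 1, g p = p

def g11 : Subgroup ↥M24 :=
  MulAction.stabilizer ↥M24 (bitsOf dM) ⊓ MulAction.stabilizer ↥M24 (ptOf 0)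

theorem mem_g11 (x : ↥M24) : x ∈ g11 ↔ In11 (x : Equiv.Perm GolayPt) := by
  unfold g11 In11
  rw [Subgroup.mem_inf, MulAction.mem_stabilizer_iff, MulAction.mem_stabilizer_iff, bits1]
  constructor
  · rintro ⟨h1, h2⟩
    refine ⟨?_, ?_⟩
    · intro m hm
      rw [List.mem_singleton] at hm
      rw [hm]
      exact h1
    · intro p hp
      rw [Finset.mem_singleton] at hp
      rw [hp]
      exact h2
  · rintro ⟨h1, h2⟩
    exact ⟨h1 dM (List.mem_singleton_self _), h2 _ (Finset.mem_singleton_self _)⟩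

theorem g11_cfg (g : Equiv.Perm GolayPt) (hM : g ∈ M24) (h : In11 g) :
    g ∈ cfgSub [dM] (m12B.take 1) := by
  rw [mem_cfgSub]
  refine ⟨hM, h.1, ?_⟩
  intro j hj
  have hj0 : j = 0 := by
    change j ∈ [0] at hj
    rwa [List.mem_singleton] at hj
  rw [hj0]
  apply h.2
  rw [bits1]
  exact Finset.mem_singleton_self _

theorem c11Code_mul (u v : GL (Fin 2) (ZMod 3)) :
    c11T.getD (glCode (u * v)) 0 = mulN (c11T.getD (glCode u) 0) (c11T.getD (glCode v) 0) := by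
  have e := c11_mul _ _ _ _ _ _ _ _ (gl_det u) (gl_det v)
  unfold glCode
  rw [← e, Units.val_mul, Matrix.mul_apply, Matrix.mul_apply, Matrix.mul_apply, Matrix.mul_apply,
    Fin.sum_univ_two, Fin.sum_univ_two, Fin.sum_univ_two, Fin.sum_univ_two]

theorem gl_of_code (a b c d : ZMod 3) (h : a * d - b * c ≠ 0) :
    ∃ u : GL (Fin 2) (ZMod 3), glCode u = glC a b c d :=
  ⟨Matrix.GeneralLinearGroup.mkOfDetNeZero !![a, b; c, d] (by
    rw [Matrix.det_fin_two_of]
    exact h), rfl⟩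

theorem c11_base (y : ↥g11) (hy : orderOf y = 2) :
    Nonempty (↥(Subgroup.centralizer ({y} : Set ↥g11)) ≃* GL (Fin 2) (ZMod 3)) := by
  obtain ⟨z0, hz0M, hz0t⟩ := slpChk_spec M24 (shift_mem 1) projInv_mem cubeTwist_mem c11S c11N
    c11S_ok c11ZK c11Z_lt
  rw [c11Z_tbl] at hz0t
  have hθc : ∀ g t, TblP g (tblOf t) → (g * z0 = z0 * g ↔ cmZ11 t = true) :=
    fun g t hg => comm_iff_tbl g z0 t c11Z hg hz0t
  have hθi : ∀ g t, TblP g (tblOf t) → ((g ^ 2 = 1 ∧ ¬ g ^ 1 = 1) ↔ inv11 t = true) :=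
    fun g t hg => by
      unfold inv11
      rw [Bool.and_eq_true, Bool.not_eq_true', ← Bool.not_eq_true]
      exact and_congr (pow_iff_tbl g t 2 hg) (not_congr (pow_iff_tbl g t 1 hg))
  have hz := c11Z_in
  rw [Bool.and_eq_true] at hz
  have hz11 : In11 z0 :=
    ⟨(passM_iff [dM] dM_lt24 z0 _ hz0t).2 hz.1, (ptfix_iff z0 _ hz0t 1).2 hz.2⟩
  have hall : ∀ g ∈ cfgSub [dM] (m12B.take 1),
      (g * z0 = z0 * g → ∃ s ∈ c11L, TblP g (tblOf s)) ∧
      ((g ^ 2 = 1 ∧ ¬ g ^ 1 = 1) → ∃ j < 165, TblP g (tblOf (ent c11Y 120 j))) :=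
    cfg_enum m12T m12T_valid [dM] m12B m12Tr m12_chain m12_sharp 1 m11Ls rfl m11_link c11Chk _
      (fun g t ix hg hc => by
        unfold c11Chk at hc
        rw [Bool.and_eq_true, Bool.or_eq_true, Bool.or_eq_true] at hc
        constructor
        · intro hcm
          have h1 := (hθc g t hg).1 hcm
          rcases hc.1 with h2 | h2
          · rw [h1] at h2
            exact absurd h2 (by decide)
          · rw [List.any_eq_true] at h2
            obtain ⟨s, hs, hst⟩ := h2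
            refine ⟨s, hs, ?_⟩
            rw [Nat.eq_of_beq_eq_true hst]
            exact hg
        · intro hinv
          have h1 := (hθi g t hg).1 hinv
          rcases hc.2 with h2 | h2
          · rw [h1] at h2
            exact absurd h2 (by decide)
          · rw [anyBelow_iff] at h2
            obtain ⟨j, hj, hjt⟩ := h2
            refine ⟨j, hj, ?_⟩
            rw [Nat.eq_of_beq_eq_true hjt]
            exact hg) c11_run
  obtain ⟨zz, hzz⟩ : ∃ zz : ↥g11, ((zz : ↥M24) : Equiv.Perm GolayPt) = z0 :=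
    ⟨⟨⟨z0, hz0M⟩, (mem_g11 _).2 hz11⟩, rfl⟩
  have ex : ∀ u : GL (Fin 2) (ZMod 3), ∃ g : Equiv.Perm GolayPt,
      g ∈ M24 ∧ TblP g (tblOf (c11T.getD (glCode u) 0)) := fun u => by
    have h := c11_in _ _ _ _ (gl_det u)
    rw [Bool.and_eq_true, Bool.and_eq_true] at h
    have h2 : nodeTbl c11S (c11K.getD (glCode u) 0) = c11T.getD (glCode u) 0 :=
      Nat.eq_of_beq_eq_true h.1.2
    rw [← h2]
    exact slpChk_spec M24 (shift_mem 1) projInv_mem cubeTwist_mem c11S c11N c11S_ok _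
      (Nat.le_of_ble_eq_true h.1.1)
  choose F hFM hFT using ex
  have hFQ : ∀ u, In11 (F u) ∧ F u * z0 = z0 * F u := fun u => by
    have h := c11_in _ _ _ _ (gl_det u)
    rw [Bool.and_eq_true] at h
    have h2 := h.2
    rw [Bool.and_eq_true, Bool.and_eq_true] at h2
    exact ⟨⟨(passM_iff [dM] dM_lt24 (F u) _ (hFT u)).2 h2.1,
      (ptfix_iff (F u) _ (hFT u) 1).2 h2.2.1⟩, (hθc (F u) _ (hFT u)).2 h2.2.2⟩
  have hmul : ∀ u v, F (u * v) = F u * F v := by
    intro u v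
    apply tbl_unique _ _ _ (hFT (u * v))
    rw [c11Code_mul u v]
    exact mulN_spec _ _ _ _ (hFT u) (hFT v)
  let f : GL (Fin 2) (ZMod 3) →* ↥(Subgroup.centralizer ({zz} : Set ↥g11)) := MonoidHom.mk'
    (fun u => ⟨⟨⟨F u, hFM u⟩, (mem_g11 _).2 (hFQ u).1⟩,
      Subgroup.mem_centralizer_singleton_iff.2 (Subtype.ext (Subtype.ext (by
        have h := (hFQ u).2
        rw [← hzz] at h
        exact h)))⟩)
    (fun u v => Subtype.ext (Subtype.ext (Subtype.ext (hmul u v))))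
  have hinj : Function.Injective f := by
    rw [injective_iff_map_eq_one]
    intro u hu
    have h1 : F u = 1 := congrArg (fun w : ↥(Subgroup.centralizer ({zz} : Set ↥g11)) =>
      (((w : ↥g11) : ↥M24) : Equiv.Perm GolayPt)) hu
    have h2 : F u ^ 1 = 1 := by rw [pow_one, h1]
    have h3 := (pow_iff_tbl (F u) _ 1 (hFT u)).1 h2
    obtain ⟨e1, e2, e3, e4⟩ := c11_inj _ _ _ _ (gl_det u) h3
    apply Units.ext
    ext i j
    fin_cases i <;> fin_cases j
    · exact e1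
    · exact e2
    · exact e3
    · exact e4
  have hsurj : Function.Surjective f := by
    intro w
    have hw11 : In11 (((w : ↥g11) : ↥M24) : Equiv.Perm GolayPt) := (mem_g11 _).1 (w : ↥g11).2
    have hwc : (((w : ↥g11) : ↥M24) : Equiv.Perm GolayPt) * z0 =
        z0 * (((w : ↥g11) : ↥M24) : Equiv.Perm GolayPt) := by
      have h := congrArg (fun v : ↥g11 => ((v : ↥M24) : Equiv.Perm GolayPt))
        (Subgroup.mem_centralizer_singleton_iff.1 w.2)
      rw [← hzz]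
      exact h
    obtain ⟨s, hs, hst⟩ := (hall _ (g11_cfg _ ((w : ↥g11) : ↥M24).2 hw11)).1 hwc
    obtain ⟨a, b, c, d, hdet, hT⟩ := c11_valid s hs
    obtain ⟨u, hu⟩ := gl_of_code a b c d hdet
    refine ⟨u, ?_⟩
    apply Subtype.ext
    apply Subtype.ext
    apply Subtype.ext
    change F u = _
    apply tbl_unique _ _ _ (hFT u)
    rw [hu, hT]
    exact hst
  have hzGL : Nonempty (↥(Subgroup.centralizer ({zz} : Set ↥g11)) ≃* GL (Fin 2) (ZMod 3)) :=
    ⟨(MulEquiv.ofBijective f ⟨hinj, hsurj⟩).symm⟩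
  have hPy : ((y : ↥M24) : Equiv.Perm GolayPt) ^ 2 = 1 ∧
      ¬ ((y : ↥M24) : Equiv.Perm GolayPt) ^ 1 = 1 := by
    have h1 : orderOf ((y : ↥M24) : Equiv.Perm GolayPt) = 2 := by
      rw [Subgroup.orderOf_coe, Subgroup.orderOf_coe]
      exact hy
    have h2 := order_two _ h1
    refine ⟨h2.1, ?_⟩
    rw [pow_one]
    exact h2.2
  have hy11 : In11 ((y : ↥M24) : Equiv.Perm GolayPt) := (mem_g11 _).1 y.2
  obtain ⟨j, hj, hjt⟩ := (hall _ (g11_cfg _ (y : ↥M24).2 hy11)).2 hPy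
  have hcj := allBelow_spec _ 165 c11_conj j hj
  simp only [Bool.and_eq_true] at hcj
  obtain ⟨c, hcM, hct⟩ := slpChk_spec M24 (shift_mem 1) projInv_mem cubeTwist_mem c11S c11N
    c11S_ok _ (Nat.le_of_ble_eq_true hcj.1.1)
  rw [Nat.eq_of_beq_eq_true hcj.1.2] at hct
  have hc11 : In11 c := ⟨(passM_iff [dM] dM_lt24 c _ hct).2 hcj.2.1.1,
    (ptfix_iff c _ hct 1).2 hcj.2.1.2⟩
  have hconj : c * z0 = ((y : ↥M24) : Equiv.Perm GolayPt) * c := by
    apply tbl_unique _ _ _ (mulN_spec c z0 _ _ hct hz0t)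
    rw [Nat.eq_of_beq_eq_true hcj.2.2]
    exact mulN_spec _ c _ _ hjt hct
  obtain ⟨cc, hcc⟩ : ∃ cc : ↥g11, ((cc : ↥M24) : Equiv.Perm GolayPt) = c :=
    ⟨⟨⟨c, hcM⟩, (mem_g11 _).2 hc11⟩, rfl⟩
  have hc : cc * zz * cc⁻¹ = y := by
    have h1 : cc * zz = y * cc := by
      apply Subtype.ext
      apply Subtype.ext
      change ((cc : ↥M24) : Equiv.Perm GolayPt) * ((zz : ↥M24) : Equiv.Perm GolayPt) =
        ((y : ↥M24) : Equiv.Perm GolayPt) * ((cc : ↥M24) : Equiv.Perm GolayPt)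
      rw [hcc, hzz]
      exact hconj
    rw [h1, mul_inv_cancel_right]
  obtain ⟨φ⟩ := hzGL
  have e := centEquiv (MulAut.conj cc) zz
  rw [MulAut.conj_apply, hc] at e
  exact ⟨e.symm.trans φ⟩

theorem s1603 (d : Finset GolayPt) (hd : d ∈ dodecads) (p : GolayPt) (hp : p ∈ d)
    (x : ↥(MulAction.stabilizer ↥M24 d ⊓ MulAction.stabilizer ↥M24 p)) (hx : orderOf x = 2) :
    Nonempty (↥(Subgroup.centralizer
      ({x} : Set ↥(MulAction.stabilizer ↥M24 d ⊓ MulAction.stabilizer ↥M24 p))) ≃*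
        GL (Fin 2) (ZMod 3)) := by
  obtain ⟨τ, hτ, rfl, rfl⟩ := dod_flag d hd p hp
  have hinj : Function.Injective (MulAut.conj (⟨τ, hτ⟩ : ↥M24)).toMonoidHom :=
    (MulAut.conj (⟨τ, hτ⟩ : ↥M24)).injective
  have e : MulAction.stabilizer ↥M24 (τ • bitsOf dM) ⊓ MulAction.stabilizer ↥M24 (τ (ptOf 0)) =
      g11.map (MulAut.conj (⟨τ, hτ⟩ : ↥M24)).toMonoidHom := by
    unfold g11
    rw [Subgroup.map_inf _ _ _ hinj,
      ← MulAction.stabilizer_smul_eq_stabilizer_map_conj,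
      ← MulAction.stabilizer_smul_eq_stabilizer_map_conj]
    have e1 : (⟨τ, hτ⟩ : ↥M24) • bitsOf dM = τ • bitsOf dM := rfl
    have e2 : (⟨τ, hτ⟩ : ↥M24) • ptOf 0 = τ (ptOf 0) := rfl
    rw [e1, e2]
  exact cent_transport ((MulEquiv.subgroupCongr e).trans
    (g11.equivMapOfInjective _ hinj).symm) c11_base x hx

end Cfsg.Agent.Lib.Helper9.Leech
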