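import Cfsg.Agent.Lib.Helper9.S5B
import Cfsg.Agent.Lib.Helper9.M11El
import Cfsg.Agent.Lib.Helper9.C11Data

set_option autoImplicit false
open Cfsg

namespace Cfsg.Agent.Lib.Helper9.Leech

open scoped Pointwise
open Cfsg.Agent.S5393 Cfsg.Agent.S5548

/-! ### data checks for an involution centraliser in `M11` -/

def cmZ11 (t : ℕ) : Bool := all24 (fun i => Nat.beq (fld t (fld c11Z i)) (fld c11Z (fld t i)))

def inv11 (t : ℕ) : Bool :=
  all24 (fun i => Nat.beq (powFld t 2 i) i) && !(all24 (fun i => Nat.beq (powFld t 1 i) i))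

def c11L : List ℕ := c11T.filter (fun t => !(Nat.beq t 0))

def c11Chk (t _ix : ℕ) : Bool :=
  (!(cmZ11 t) || c11L.any (fun s => Nat.beq s t)) &&
    (!(inv11 t) || anyBelow (fun j => Nat.beq (ent c11Y 120 j) t) 165)

set_option maxRecDepth 100000 in
theorem c11S_ok : slpChk c11S c11N = true := by decide +kernel

set_option maxRecDepth 100000 in
theorem c11Z_tbl : nodeTbl c11S c11ZK = c11Z := by decide +kernel

theorem c11Z_lt : c11ZK < c11N := by decide

set_option maxRecDepth 100000 in
theorem c11Z_in : (passM [dM] c11Z && psPt 1 c11Z) = true := by decide +kernel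

set_option maxRecDepth 100000 in
theorem c11_mul : ∀ a b c d a' b' c' d' : ZMod 3, a * d - b * c ≠ 0 → a' * d' - b' * c' ≠ 0 →
    c11T.getD (glC (a * a' + b * c') (a * b' + b * d') (c * a' + d * c') (c * b' + d * d')) 0 =
      mulN (c11T.getD (glC a b c d) 0) (c11T.getD (glC a' b' c' d') 0) := by decide +kernel

set_option maxRecDepth 100000 in
theorem c11_in : ∀ a b c d : ZMod 3, a * d - b * c ≠ 0 →
    ((Nat.blt (c11K.getD (glC a b c d) 0) c11N &&
      Nat.beq (nodeTbl c11S (c11K.getD (glC a b c d) 0)) (c11T.getD (glC a b c d) 0)) &&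
      (passM [dM] (c11T.getD (glC a b c d) 0) && (psPt 1 (c11T.getD (glC a b c d) 0) &&
        cmZ11 (c11T.getD (glC a b c d) 0)))) = true := by decide +kernel

set_option maxRecDepth 100000 in
theorem c11_inj : ∀ a b c d : ZMod 3, a * d - b * c ≠ 0 →
    all24 (fun i => Nat.beq (powFld (c11T.getD (glC a b c d) 0) 1 i) i) = true →
      (a = 1 ∧ b = 0 ∧ c = 0 ∧ d = 1) := by
  decide +kernel

set_option maxRecDepth 100000 in
theorem c11_valid : ∀ s ∈ c11L, ∃ a b c d : ZMod 3, a * d - b * c ≠ 0 ∧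
    c11T.getD (glC a b c d) 0 = s := by decide +kernel

set_option maxRecDepth 100000 in
theorem c11_conj : allBelow (fun j =>
    (Nat.blt (ent c11CK 16 j) c11N &&
      Nat.beq (nodeTbl c11S (ent c11CK 16 j)) (ent c11CT 120 j)) &&
    ((passM [dM] (ent c11CT 120 j) && psPt 1 (ent c11CT 120 j)) &&
      Nat.beq (mulN (ent c11CT 120 j) c11Z) (mulN (ent c11Y 120 j) (ent c11CT 120 j)))) 165 =
      true := by decide +kernel

set_option maxRecDepth 100000 in
theorem c11_run : enumI c11Chk m11Ls idN 0 = true := by decide +kernel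

end Cfsg.Agent.Lib.Helper9.Leech
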