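import Cfsg.Agent.Lib.Helper9.Comm
import Cfsg.Agent.Lib.Helper9.CenData

set_option autoImplicit false
open Cfsg

namespace Cfsg.Agent.Lib.Helper9.Leech

open scoped Pointwise
open Cfsg.Agent.S5393 Cfsg.Agent.S5548

set_option maxRecDepth 100000 in
theorem ceS_ok : slpChk ceS ceN = true := by decide +kernel

theorem ceT0_node : (Nat.blt ceK0 ceN && Nat.beq (nodeTbl ceS ceK0) ceT0) = true := by
  decide +kernel

theorem ceT0_ex : ∃ τ ∈ M24, TblP τ (tblOf ceT0) := by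
  have h := ceT0_node
  rw [Bool.and_eq_true] at h
  rw [← Nat.eq_of_beq_eq_true h.2]
  exact slpChk_spec M24 (shift_mem 1) projInv_mem cubeTwist_mem ceS ceN ceS_ok _
    (Nat.le_of_ble_eq_true h.1)

def locC (d a y : ℕ) : Bool :=
  if Nat.beq d 1 then Nat.beq y (fld ceT0 (fld a 23))
  else if Nat.beq d 3 then Nat.beq y (fld ceT0 (fld a 1))
  else if Nat.beq d 5 then Nat.beq y (fld ceT0 (fld a 3))
  else true

def passC (t : ℕ) : Bool := all24 (fun i => Nat.beq (fld t (fld ceT0 i)) (fld ceT0 (fld t i)))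

set_option maxRecDepth 100000 in
theorem srchC : srch locC passC srLv 0 idN = 7680 := by decide +kernel

theorem comm_img (g τ : Equiv.Perm GolayPt) (T : ℕ) (hτ : TblP τ (tblOf T))
    (hc : g * τ = τ * g) (i j : ℕ) (hi : i < 24) (hj : j < 24) (hT : fld T i = j) :
    idx (g (ptOf j)) = fld T (idx (g (ptOf i))) := by
  have h1 : τ (ptOf i) = ptOf j := by
    apply idx_inj
    rw [TblP_idx τ T hτ, idx_ptOf i hi, idx_ptOf j hj, hT]
  have h2 : (g * τ) (ptOf i) = (τ * g) (ptOf i) := by rw [hc]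
  rw [Equiv.Perm.mul_apply, Equiv.Perm.mul_apply, h1] at h2
  rw [h2, TblP_idx τ T hτ]

theorem ceT0_img : fld ceT0 23 = 0 ∧ fld ceT0 1 = 2 ∧ fld ceT0 3 = 4 := by decide +kernel

theorem cen_count (τ : Equiv.Perm GolayPt) (hτ : TblP τ (tblOf ceT0)) :
    {c | c ∈ M24 ∧ c * τ = τ * c}.ncard = 7680 := by
  rw [← srchC]
  apply m24_count (fun g => g * τ = τ * g) locC passC
  · intro g _ t hg
    exact comm_iff_tbl g τ t ceT0 hg hτ
  · intro g _ hcomm d hd a hagree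
    obtain ⟨e1, e2, e3⟩ := ceT0_img
    interval_cases d
    · rfl
    · have h0 : idx (g (ptOf 23)) = fld a 23 := hagree 0 (by norm_num)
      change Nat.beq (idx (g (ptOf 0))) (fld ceT0 (fld a 23)) = true
      rw [beq_iff, comm_img g τ ceT0 hτ hcomm 23 0 (by norm_num) (by norm_num) e1, h0]
    · rfl
    · have h0 : idx (g (ptOf 1)) = fld a 1 := hagree 2 (by norm_num)
      change Nat.beq (idx (g (ptOf 2))) (fld ceT0 (fld a 1)) = true
      rw [beq_iff, comm_img g τ ceT0 hτ hcomm 1 2 (by norm_num) (by norm_num) e2, h0]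
    · rfl
    · have h0 : idx (g (ptOf 3)) = fld a 3 := hagree 4 (by norm_num)
      change Nat.beq (idx (g (ptOf 4))) (fld ceT0 (fld a 3)) = true
      rw [beq_iff, comm_img g τ ceT0 hτ hcomm 3 4 (by norm_num) (by norm_num) e3, h0]
    · rfl

/-! ### transitivity of the centraliser -/

set_option maxRecDepth 100000 in
theorem ceIX_ok : ∀ y < 24, (Nat.blt (ent ceIX 16 y) ceN &&
    (passC (nodeTbl ceS (ent ceIX 16 y)) &&
      Nat.beq (fld (nodeTbl ceS (ent ceIX 16 y)) 23) y)) = true := by decide +kernel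

theorem cen_reach (τ : Equiv.Perm GolayPt) (hτ : TblP τ (tblOf ceT0)) (q : GolayPt) :
    ∃ c ∈ M24, c * τ = τ * c ∧ c (ptOf 23) = q := by
  have h := ceIX_ok (idx q) (idx_lt q)
  rw [Bool.and_eq_true, Bool.and_eq_true] at h
  obtain ⟨h1, h2, h3⟩ := h
  obtain ⟨c, hc, hct⟩ := slpChk_spec M24 (shift_mem 1) projInv_mem cubeTwist_mem ceS ceN ceS_ok _
    (Nat.le_of_ble_eq_true h1)
  refine ⟨c, hc, (comm_iff_tbl c τ _ ceT0 hct hτ).2 h2, ?_⟩
  apply idx_inj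
  rw [TblP_idx c _ hct, idx_ptOf 23 (by norm_num), Nat.eq_of_beq_eq_true h3]

theorem cen_trans (τ : Equiv.Perm GolayPt) (hτ : TblP τ (tblOf ceT0)) (p q : GolayPt) :
    ∃ c ∈ M24, c * τ = τ * c ∧ c p = q := by
  obtain ⟨c1, hc1, hcomm1, hp⟩ := cen_reach τ hτ p
  obtain ⟨c2, hc2, hcomm2, hq⟩ := cen_reach τ hτ q
  refine ⟨c2 * c1⁻¹, mul_mem hc2 (inv_mem hc1), ?_, ?_⟩
  · have e1 : c1⁻¹ * τ = τ * c1⁻¹ := by
      have : c1⁻¹ * τ = c1⁻¹ * (τ * c1) * c1⁻¹ := by group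
      rw [this, ← hcomm1]
      group
    rw [mul_assoc, e1, ← mul_assoc, hcomm2, mul_assoc]
  · rw [Equiv.Perm.mul_apply, ← hp]
    have : c1⁻¹ (c1 (ptOf 23)) = ptOf 23 := by
      change c1.symm (c1 _) = _
      rw [Equiv.symm_apply_apply]
    rw [this, hq]

/-! ### the sextet of a fixed-point-free involution -/

theorem ceSx_lt : ceSx < 1771 := by decide

theorem sx0_fix : allBelow (fun j => forceN (ent (codeAt 6 sextLE ceSx) 24 j)
    (fun m => Nat.beq (pullN ceT0 m) m)) 6 = true := by decide +kernel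

set_option maxRecDepth 100000 in
theorem sx_uniq : allBelow (fun i => Nat.beq i ceSx ||
    !(allBelow (fun j => forceN (ent (codeAt 6 sextLE i) 24 j)
      (fun m => Nat.beq (pullN ceT0 m) m)) 6)) 1771 = true := by decide +kernel

theorem cen_sext_uniq (τ : Equiv.Perm GolayPt) (hτ : TblP τ (tblOf ceT0))
    (S : Finset (Finset GolayPt)) (hS : S ∈ sextets) (hfix : ∀ T ∈ S, τ • T = T) :
    S = semK 6 (codeAt 6 sextLE ceSx) := by
  obtain ⟨i, hi, rfl⟩ := (mem_sextets S).1 hS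
  have h1 := allBelow_spec _ 1771 sx_uniq i hi
  rw [Bool.or_eq_true] at h1
  rcases h1 with h1 | h1
  · rw [Nat.eq_of_beq_eq_true h1]
  · exfalso
    have h2 : allBelow (fun j => forceN (ent (codeAt 6 sextLE i) 24 j)
        (fun m => Nat.beq (pullN ceT0 m) m)) 6 = true := by
      apply allBelow_of
      intro j hj
      rw [forceN_eq, ← fix_mask_iff τ ceT0 hτ _ (ent_lt _ 24 j)]
      exact hfix _ ((mem_semK 6 _ _).2 ⟨j, hj, rfl⟩)
    rw [h2] at h1
    exact absurd h1 (by decide)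

theorem cen_sext (τ : Equiv.Perm GolayPt) (hτ : TblP τ (tblOf ceT0)) :
    ∀ c ∈ M24, c * τ = τ * c →
      c • semK 6 (codeAt 6 sextLE ceSx) = semK 6 (codeAt 6 sextLE ceSx) := by
  intro c hc hcomm
  apply cen_sext_uniq τ hτ _ (sextets_smul c hc _ ((mem_sextets _).2 ⟨ceSx, ceSx_lt, rfl⟩))
  intro T' hT'
  obtain ⟨T, hT, rfl⟩ := Finset.mem_smul_finset.1 hT'
  obtain ⟨j, hj, rfl⟩ := (mem_semK 6 _ T).1 hT
  have h1 := allBelow_spec _ 6 sx0_fix j hj
  rw [forceN_eq, ← fix_mask_iff τ ceT0 hτ _ (ent_lt _ 24 j)] at h1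
  change τ • c • bitsOf (ent (codeAt 6 sextLE ceSx) 24 j) = c • bitsOf _
  rw [← mul_smul, ← hcomm, mul_smul, h1]

/-! ### the statement, and its invariance under conjugation -/

def CenP (τ : Equiv.Perm GolayPt) : Prop :=
  Nat.card {c : Equiv.Perm GolayPt // c ∈ M24 ∧ c * τ = τ * c} = 7680 ∧
  (∀ p q : GolayPt, ∃ c ∈ M24, c * τ = τ * c ∧ c p = q) ∧
  ∃ S ∈ sextets, τ • S = S ∧ ∀ c ∈ M24, c * τ = τ * c → c • S = S

theorem cenP_base (τ : Equiv.Perm GolayPt) (hτM : τ ∈ M24) (hτ : TblP τ (tblOf ceT0)) :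
    CenP τ := by
  refine ⟨?_, cen_trans τ hτ, semK 6 (codeAt 6 sextLE ceSx),
    (mem_sextets _).2 ⟨ceSx, ceSx_lt, rfl⟩, cen_sext τ hτ τ hτM rfl, cen_sext τ hτ⟩
  rw [← cen_count τ hτ]
  exact Nat.card_coe_set_eq {c | c ∈ M24 ∧ c * τ = τ * c}

theorem comm_conj (k τ c : Equiv.Perm GolayPt) :
    c * (k⁻¹ * τ * k) = (k⁻¹ * τ * k) * c ↔ (k * c * k⁻¹) * τ = τ * (k * c * k⁻¹) := by
  constructor
  · intro h
    have e : k * c * k⁻¹ * τ = k * (c * (k⁻¹ * τ * k)) * k⁻¹ := by group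
    rw [e, h]
    group
  · intro h
    have e : c * (k⁻¹ * τ * k) = k⁻¹ * (k * c * k⁻¹ * τ) * k := by group
    rw [e, h]
    group

theorem cenP_conj (k τ : Equiv.Perm GolayPt) (hk : k ∈ M24) (h : CenP τ) :
    CenP (k⁻¹ * τ * k) := by
  obtain ⟨h1, h2, S, hS, hτS, hcS⟩ := h
  refine ⟨?_, ?_, k⁻¹ • S, sextets_smul k⁻¹ (inv_mem hk) S hS, ?_, ?_⟩
  · rw [← h1]
    apply Nat.card_congr
    refine Equiv.subtypeEquiv (MulAut.conj k).toEquiv ?_
    intro c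
    change c ∈ M24 ∧ c * (k⁻¹ * τ * k) = (k⁻¹ * τ * k) * c ↔
      k * c * k⁻¹ ∈ M24 ∧ (k * c * k⁻¹) * τ = τ * (k * c * k⁻¹)
    rw [comm_conj]
    constructor
    · rintro ⟨hc, hcomm⟩
      exact ⟨conj_mem k c hk hc, hcomm⟩
    · rintro ⟨hc, hcomm⟩
      refine ⟨?_, hcomm⟩
      have e : c = k⁻¹ * (k * c * k⁻¹) * k := by group
      rw [e]
      exact mul_mem (mul_mem (inv_mem hk) hc) hk
  · intro p q
    obtain ⟨c, hc, hcomm, hcp⟩ := h2 (k p) (k q)
    refine ⟨k⁻¹ * c * k, mul_mem (mul_mem (inv_mem hk) hc) hk, ?_, ?_⟩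
    · rw [comm_conj]
      have e : k * (k⁻¹ * c * k) * k⁻¹ = c := by group
      rw [e]
      exact hcomm
    · rw [Equiv.Perm.mul_apply, Equiv.Perm.mul_apply, hcp]
      change k.symm (k q) = q
      rw [Equiv.symm_apply_apply]
  · rw [mul_smul, mul_smul, smul_inv_smul, hτS]
  · intro c hc hcomm
    rw [comm_conj] at hcomm
    have h3 := hcS _ (conj_mem k c hk hc) hcomm
    rw [mul_smul, mul_smul] at h3
    exact eq_inv_smul_iff.2 h3

theorem s5607 (t : Equiv.Perm GolayPt) (ht : t ∈ M24) (h₂ : orderOf t = 2)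
    (h₀ : ∀ p, t p ≠ p) :
    Nat.card {c : Equiv.Perm GolayPt // c ∈ M24 ∧ c * t = t * c} = 7680 ∧
    (∀ p q : GolayPt, ∃ c ∈ M24, c * t = t * c ∧ c p = q) ∧
    ∃ S ∈ sextets, t • S = S ∧ ∀ c ∈ M24, c * t = t * c → c • S = S := by
  obtain ⟨K, hK, c, hc, hKt⟩ := inv_class t ht (order_two t h₂).1 (order_two t h₂).2
  obtain ⟨τ, hτM, hτ⟩ := ceT0_ex
  have hτ2 : τ ^ 2 = 1 := by
    rw [pow_iff_tbl τ ceT0 2 hτ]
    decide +kernel
  have hτfpf : ∀ p, τ p ≠ p := by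
    rw [fpf_iff_tbl τ ceT0 hτ]
    decide +kernel
  have hτne : τ ≠ 1 := by
    intro h1
    exact hτfpf (ptOf 0) (by rw [h1]; rfl)
  obtain ⟨K0, hK0, c0, hc0, hK0t⟩ := inv_class τ hτM hτ2 hτne
  have hc1 : c = 1 := by
    interval_cases c
    · exfalso
      obtain ⟨p, hp⟩ := invA_fp K t hK hKt
      exact h₀ p hp
    · rfl
  have hc01 : c0 = 1 := by
    interval_cases c0
    · exfalso
      obtain ⟨p, hp⟩ := invA_fp K0 τ hK0 hK0t
      exact hτfpf p hp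
    · rfl
  subst hc1 hc01
  have hconj := conj_of_same t τ K K0 _ hKt hK0t
  have hk : K0⁻¹ * K ∈ M24 := mul_mem (inv_mem hK0) hK
  have h := cenP_conj (K0⁻¹ * K) τ hk (cenP_base τ hτM hτ)
  have e : (K0⁻¹ * K)⁻¹ * τ * (K0⁻¹ * K) = t := by
    rw [← hconj]
    group
  rw [e] at h
  exact h

end Cfsg.Agent.Lib.Helper9.Leech
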