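import Cfsg.Agent.Lib.Helper9.Code3
import Cfsg.Agent.Lib.Helper9.CfgS

set_option autoImplicit false
open Cfsg

namespace Cfsg.Agent.Lib.Helper9.Leech

open scoped Pointwise
open Cfsg.Agent.S5393 Cfsg.Agent.S5548

set_option maxRecDepth 100000 in
theorem cfS_ok : slpChk cfS cfN = true := by decide +kernel

set_option maxRecDepth 100000 in
theorem cfOct_valid : validK 1 cfOctA = true := by decide +kernel

set_option maxRecDepth 100000 in
theorem cfOct_k : ((0, 0) :: cfOctKH).all (fun jp => Nat.blt jp.1 cfN &&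
    stepK 1 (nodeTbl cfS jp.1) cfOctA cfOctA jp.2) = true := by decide +kernel

set_option maxRecDepth 100000 in
theorem cfSext_valid : validK 6 cfSextA = true := by decide +kernel

set_option maxRecDepth 100000 in
theorem cfSext_k : ((0, 5517840) :: cfSextKH).all (fun jp => Nat.blt jp.1 cfN &&
    stepK 6 (nodeTbl cfS jp.1) cfSextA cfSextA jp.2) = true := by decide +kernel

set_option maxRecDepth 100000 in
theorem cfTrio_valid : validK 3 cfTrioA = true := by decide +kernel

set_option maxRecDepth 100000 in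
theorem cfTrio_k : ((0, 528) :: cfTrioKH).all (fun jp => Nat.blt jp.1 cfN &&
    stepK 3 (nodeTbl cfS jp.1) cfTrioA cfTrioA jp.2) = true := by decide +kernel

set_option maxRecDepth 100000 in
theorem cfDodp_valid : validK 2 cfDodpA = true := by decide +kernel

set_option maxRecDepth 100000 in
theorem cfDodp_k : ((0, 16) :: cfDodpKH).all (fun jp => Nat.blt jp.1 cfN &&
    stepK 2 (nodeTbl cfS jp.1) cfDodpA cfDodpA jp.2) = true := by decide +kernel

set_option maxRecDepth 100000 in
theorem cfTri_valid : validK 1 cfTriA = true := by decide +kernel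

set_option maxRecDepth 100000 in
theorem cfTri_k : ((0, 0) :: cfTriKH).all (fun jp => Nat.blt jp.1 cfN &&
    stepK 1 (nodeTbl cfS jp.1) cfTriA cfTriA jp.2) = true := by decide +kernel

def octS : Set (Finset (Finset GolayPt)) := {X | ∃ o ∈ octads, X = {o}}

theorem semK_one (n : ℕ) (h : n < 2 ^ 24) : semK 1 n = {bitsOf n} := by
  unfold semK
  rw [Finset.range_one, Finset.image_singleton]
  have h1 : ent n 24 0 = n := by
    rw [ent_eq]
    simp only [Nat.mul_zero, Nat.shiftRight_zero]
    exact Nat.mod_eq_of_lt h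
  rw [h1]

set_option maxRecDepth 100000 in
theorem oct1_cov : covGo (fun i => codeAt 1 oct1LE i) 759 0 octL = true := by decide +kernel

theorem mem_octS (X : Finset (Finset GolayPt)) :
    X ∈ octS ↔ ∃ i < 759, semK 1 (codeAt 1 oct1LE i) = X := by
  constructor
  · rintro ⟨o, ho, rfl⟩
    obtain ⟨m, hm, rfl⟩ := (mem_octads o).1 ho
    obtain ⟨j, hj, hje⟩ := covGo_spec _ 759 octL 0 oct1_cov m hm
    refine ⟨j, hj, ?_⟩
    rw [hje, semK_one m (octL_lt m hm)]
  · rintro ⟨i, hi, rfl⟩
    have h1 := covGo_mem _ 759 octL 0 oct1_cov i (Nat.zero_le _) hi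
    refine ⟨bitsOf (codeAt 1 oct1LE i), (mem_octads _).2 ⟨_, h1, rfl⟩, ?_⟩
    exact semK_one _ (octL_lt _ h1)

theorem octS_smul : ∀ g ∈ M24, ∀ X ∈ octS, g • X ∈ octS := by
  rintro g hg X ⟨o, ho, rfl⟩
  exact ⟨g • o, octads_smul g hg o ho, Finset.smul_finset_singleton o⟩

theorem sextets_cl : ∀ g ∈ M24, ∀ X ∈ sextets, g • X ∈ sextets :=
  fun g hg X hX => sextets_smul g hg X hX

theorem trios_cl : ∀ g ∈ M24, ∀ X ∈ trios, g • X ∈ trios :=
  fun g hg X hX => trios_smul g hg X hX

def nzN (c : ℕ) : ℕ := cond (Nat.beq c 0) 0 1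

end Cfsg.Agent.Lib.Helper9.Leech
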