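import Cfsg.Agent.Lib.Helper9.Cfg
import Cfsg.Agent.Lib.Helper9.CfgDDodpSext

set_option autoImplicit false
open Cfsg

namespace Cfsg.Agent.Lib.Helper9.Leech

open scoped Pointwise
open Cfsg.Agent.S5393 Cfsg.Agent.S5548

def cfDodpSextRoots : List (ℕ × ℕ) := [(10, 48), (12, 64), (0, 60)]

set_option maxRecDepth 100000 in
theorem cfDodpSext_tree : treeOKN (stepKO 6) (fun gi => nodeTbl cfS (cfDodpKH.getD gi (0, 16)).1)
    (decK 6) (ent cfDodpSextE 216) 1771 = true := by decide +kernel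

set_option maxRecDepth 100000 in
theorem cfDodpSext_codes : treeCodes 6 cfDodpSextE 216 1771 sextLE = true := by decide +kernel

set_option maxRecDepth 100000 in
theorem cfDodpSext_roots : allBelow (fun i => cfDodpSextRoots.any (fun rv =>
    Nat.beq (rootAt 6 cfDodpSextE 216 i) rv.1)) 1771 = true := by decide +kernel

set_option maxRecDepth 100000 in
theorem cfDodpSext_val : cfDodpSextRoots.all (fun rv => Nat.blt rv.1 1771 &&
    Nat.beq (pinvN sqN 2 6 cfDodpA (codeAt 6 sextLE rv.1)) rv.2) = true := by decide +kernel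

set_option maxRecDepth 100000 in
theorem cfDodpSext_cnt : cfDodpSextRoots.map (fun rv => cntRoot 6 cfDodpSextE 216 1771 rv.1) = [396, 495, 880] := by
  decide +kernel

theorem cfDodpSext_all : OrbSpec (semK 2 cfDodpA) sextets [396, 495, 880] ∧
    (∀ rv ∈ cfDodpSextRoots, {X | X ∈ sextets ∧ pinv sqN (semK 2 cfDodpA) X = rv.2}.ncard =
      cntRoot 6 cfDodpSextE 216 1771 rv.1) ∧
    (∀ X ∈ sextets, ∀ Y ∈ sextets, pinv sqN (semK 2 cfDodpA) X = pinv sqN (semK 2 cfDodpA) Y →
      SR (semK 2 cfDodpA) X Y) := by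
  rw [← cfDodpSext_cnt]
  exact orbit_cfg sqN 2 cfDodpA cfDodp_valid sextets 6 sextLE 1771 mem_sextets sextets_cl sext_fam cfS cfN cfS_ok
    (0, 16) cfDodpKH cfDodp_k cfDodpSextE 216 cfDodpSext_tree cfDodpSext_codes cfDodpSextRoots cfDodpSext_roots cfDodpSext_val
    (by decide) (by decide)

theorem cfDodpSext_spec : OrbSpec (semK 2 cfDodpA) sextets [396, 495, 880] := cfDodpSext_all.1

end Cfsg.Agent.Lib.Helper9.Leech
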