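import Cfsg.Agent.Lib.Helper9.Cfg
import Cfsg.Agent.Lib.Helper9.CfgDOctSext

set_option autoImplicit false
open Cfsg

namespace Cfsg.Agent.Lib.Helper9.Leech

open scoped Pointwise
open Cfsg.Agent.S5393 Cfsg.Agent.S5548

def cfOctSextRoots : List (ℕ × ℕ) := [(0, 32), (26, 16), (4, 14)]

set_option maxRecDepth 100000 in
theorem cfOctSext_tree : treeOKN (stepKO 6) (fun gi => nodeTbl cfS (cfOctKH.getD gi (0, 0)).1)
    (decK 6) (ent cfOctSextE 216) 1771 = true := by decide +kernel

set_option maxRecDepth 100000 in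
theorem cfOctSext_codes : treeCodes 6 cfOctSextE 216 1771 sextLE = true := by decide +kernel

set_option maxRecDepth 100000 in
theorem cfOctSext_roots : allBelow (fun i => cfOctSextRoots.any (fun rv =>
    Nat.beq (rootAt 6 cfOctSextE 216 i) rv.1)) 1771 = true := by decide +kernel

set_option maxRecDepth 100000 in
theorem cfOctSext_val : cfOctSextRoots.all (fun rv => Nat.blt rv.1 1771 &&
    Nat.beq (pinvN sqN 1 6 cfOctA (codeAt 6 sextLE rv.1)) rv.2) = true := by decide +kernel

set_option maxRecDepth 100000 in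
theorem cfOctSext_cnt : cfOctSextRoots.map (fun rv => cntRoot 6 cfOctSextE 216 1771 rv.1) = [35, 840, 896] := by
  decide +kernel

theorem cfOctSext_all : OrbSpec (semK 1 cfOctA) sextets [35, 840, 896] ∧
    (∀ rv ∈ cfOctSextRoots, {X | X ∈ sextets ∧ pinv sqN (semK 1 cfOctA) X = rv.2}.ncard =
      cntRoot 6 cfOctSextE 216 1771 rv.1) ∧
    (∀ X ∈ sextets, ∀ Y ∈ sextets, pinv sqN (semK 1 cfOctA) X = pinv sqN (semK 1 cfOctA) Y →
      SR (semK 1 cfOctA) X Y) := by
  rw [← cfOctSext_cnt]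
  exact orbit_cfg sqN 1 cfOctA cfOct_valid sextets 6 sextLE 1771 mem_sextets sextets_cl sext_fam cfS cfN cfS_ok
    (0, 0) cfOctKH cfOct_k cfOctSextE 216 cfOctSext_tree cfOctSext_codes cfOctSextRoots cfOctSext_roots cfOctSext_val
    (by decide) (by decide)

theorem cfOctSext_spec : OrbSpec (semK 1 cfOctA) sextets [35, 840, 896] := cfOctSext_all.1

end Cfsg.Agent.Lib.Helper9.Leech
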