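import Cfsg.Agent.Lib.Helper9.Cfg
import Cfsg.Agent.Lib.Helper9.CfgDSextOct

set_option autoImplicit false
open Cfsg

namespace Cfsg.Agent.Lib.Helper9.Leech

open scoped Pointwise
open Cfsg.Agent.S5393 Cfsg.Agent.S5548

def cfSextOctRoots : List (ℕ × ℕ) := [(67, 32), (1, 16), (0, 14)]

set_option maxRecDepth 100000 in
theorem cfSextOct_tree : treeOKN (stepKO 1) (fun gi => nodeTbl cfS (cfSextKH.getD gi (0, 5517840)).1)
    (decK 1) (ent cfSextOctE 76) 759 = true := by decide +kernel

set_option maxRecDepth 100000 in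
theorem cfSextOct_codes : treeCodes 1 cfSextOctE 76 759 oct1LE = true := by decide +kernel

set_option maxRecDepth 100000 in
theorem cfSextOct_roots : allBelow (fun i => cfSextOctRoots.any (fun rv =>
    Nat.beq (rootAt 1 cfSextOctE 76 i) rv.1)) 759 = true := by decide +kernel

set_option maxRecDepth 100000 in
theorem cfSextOct_val : cfSextOctRoots.all (fun rv => Nat.blt rv.1 759 &&
    Nat.beq (pinvN sqN 6 1 cfSextA (codeAt 1 oct1LE rv.1)) rv.2) = true := by decide +kernel

set_option maxRecDepth 100000 in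
theorem cfSextOct_cnt : cfSextOctRoots.map (fun rv => cntRoot 1 cfSextOctE 76 759 rv.1) = [15, 360, 384] := by
  decide +kernel

theorem cfSextOct_all : OrbSpec (semK 6 cfSextA) octS [15, 360, 384] ∧
    (∀ rv ∈ cfSextOctRoots, {X | X ∈ octS ∧ pinv sqN (semK 6 cfSextA) X = rv.2}.ncard =
      cntRoot 1 cfSextOctE 76 759 rv.1) ∧
    (∀ X ∈ octS, ∀ Y ∈ octS, pinv sqN (semK 6 cfSextA) X = pinv sqN (semK 6 cfSextA) Y →
      SR (semK 6 cfSextA) X Y) := by
  rw [← cfSextOct_cnt]
  exact orbit_cfg sqN 6 cfSextA cfSext_valid octS 1 oct1LE 759 mem_octS octS_smul oct1_fam cfS cfN cfS_ok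
    (0, 5517840) cfSextKH cfSext_k cfSextOctE 76 cfSextOct_tree cfSextOct_codes cfSextOctRoots cfSextOct_roots cfSextOct_val
    (by decide) (by decide)

theorem cfSextOct_spec : OrbSpec (semK 6 cfSextA) octS [15, 360, 384] := cfSextOct_all.1

end Cfsg.Agent.Lib.Helper9.Leech
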