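import Cfsg.Agent.Lib.Helper9.Cfg
import Cfsg.Agent.Lib.Helper9.CfgDSextSext

set_option autoImplicit false
open Cfsg

namespace Cfsg.Agent.Lib.Helper9.Leech

open scoped Pointwise
open Cfsg.Agent.S5393 Cfsg.Agent.S5548

def cfSextSextRoots : List (ℕ × ℕ) := [(0, 96), (13, 48), (1, 36), (7, 32)]

set_option maxRecDepth 100000 in
theorem cfSextSext_tree : treeOKN (stepKO 6) (fun gi => nodeTbl cfS (cfSextKH.getD gi (0, 5517840)).1)
    (decK 6) (ent cfSextSextE 216) 1771 = true := by decide +kernel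

set_option maxRecDepth 100000 in
theorem cfSextSext_codes : treeCodes 6 cfSextSextE 216 1771 sextLE = true := by decide +kernel

set_option maxRecDepth 100000 in
theorem cfSextSext_roots : allBelow (fun i => cfSextSextRoots.any (fun rv =>
    Nat.beq (rootAt 6 cfSextSextE 216 i) rv.1)) 1771 = true := by decide +kernel

set_option maxRecDepth 100000 in
theorem cfSextSext_val : cfSextSextRoots.all (fun rv => Nat.blt rv.1 1771 &&
    Nat.beq (pinvN sqN 6 6 cfSextA (codeAt 6 sextLE rv.1)) rv.2) = true := by decide +kernel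

set_option maxRecDepth 100000 in
theorem cfSextSext_cnt : cfSextSextRoots.map (fun rv => cntRoot 6 cfSextSextE 216 1771 rv.1) = [1, 90, 240, 1440] := by
  decide +kernel

theorem cfSextSext_all : OrbSpec (semK 6 cfSextA) sextets [1, 90, 240, 1440] ∧
    (∀ rv ∈ cfSextSextRoots, {X | X ∈ sextets ∧ pinv sqN (semK 6 cfSextA) X = rv.2}.ncard =
      cntRoot 6 cfSextSextE 216 1771 rv.1) ∧
    (∀ X ∈ sextets, ∀ Y ∈ sextets, pinv sqN (semK 6 cfSextA) X = pinv sqN (semK 6 cfSextA) Y →
      SR (semK 6 cfSextA) X Y) := by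
  rw [← cfSextSext_cnt]
  exact orbit_cfg sqN 6 cfSextA cfSext_valid sextets 6 sextLE 1771 mem_sextets sextets_cl sext_fam cfS cfN cfS_ok
    (0, 5517840) cfSextKH cfSext_k cfSextSextE 216 cfSextSext_tree cfSextSext_codes cfSextSextRoots cfSextSext_roots cfSextSext_val
    (by decide) (by decide)

theorem cfSextSext_spec : OrbSpec (semK 6 cfSextA) sextets [1, 90, 240, 1440] := cfSextSext_all.1

end Cfsg.Agent.Lib.Helper9.Leech
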