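import Cfsg.Agent.Lib.Helper9.Cfg
import Cfsg.Agent.Lib.Helper9.CfgDSextTrio

set_option autoImplicit false
open Cfsg

namespace Cfsg.Agent.Lib.Helper9.Leech

open scoped Pointwise
open Cfsg.Agent.S5393 Cfsg.Agent.S5548

def cfSextTrioRoots : List (ℕ × ℕ) := [(331, 96), (19, 64), (15, 48), (0, 44)]

set_option maxRecDepth 100000 in
theorem cfSextTrio_tree : treeOKN (stepKO 3) (fun gi => nodeTbl cfS (cfSextKH.getD gi (0, 5517840)).1)
    (decK 3) (ent cfSextTrioE 132) 3795 = true := by decide +kernel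

set_option maxRecDepth 100000 in
theorem cfSextTrio_codes : treeCodes 3 cfSextTrioE 132 3795 trioLE = true := by decide +kernel

set_option maxRecDepth 100000 in
theorem cfSextTrio_roots : allBelow (fun i => cfSextTrioRoots.any (fun rv =>
    Nat.beq (rootAt 3 cfSextTrioE 132 i) rv.1)) 3795 = true := by decide +kernel

set_option maxRecDepth 100000 in
theorem cfSextTrio_val : cfSextTrioRoots.all (fun rv => Nat.blt rv.1 3795 &&
    Nat.beq (pinvN sqN 6 3 cfSextA (codeAt 3 trioLE rv.1)) rv.2) = true := by decide +kernel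

set_option maxRecDepth 100000 in
theorem cfSextTrio_cnt : cfSextTrioRoots.map (fun rv => cntRoot 3 cfSextTrioE 132 3795 rv.1) = [15, 180, 720, 2880] := by
  decide +kernel

theorem cfSextTrio_all : OrbSpec (semK 6 cfSextA) trios [15, 180, 720, 2880] ∧
    (∀ rv ∈ cfSextTrioRoots, {X | X ∈ trios ∧ pinv sqN (semK 6 cfSextA) X = rv.2}.ncard =
      cntRoot 3 cfSextTrioE 132 3795 rv.1) ∧
    (∀ X ∈ trios, ∀ Y ∈ trios, pinv sqN (semK 6 cfSextA) X = pinv sqN (semK 6 cfSextA) Y →
      SR (semK 6 cfSextA) X Y) := by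
  rw [← cfSextTrio_cnt]
  exact orbit_cfg sqN 6 cfSextA cfSext_valid trios 3 trioLE 3795 mem_trios trios_cl trio_fam cfS cfN cfS_ok
    (0, 5517840) cfSextKH cfSext_k cfSextTrioE 132 cfSextTrio_tree cfSextTrio_codes cfSextTrioRoots cfSextTrio_roots cfSextTrio_val
    (by decide) (by decide)

theorem cfSextTrio_spec : OrbSpec (semK 6 cfSextA) trios [15, 180, 720, 2880] := cfSextTrio_all.1

end Cfsg.Agent.Lib.Helper9.Leech
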