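import Cfsg.Agent.Lib.Helper9.Cfg
import Cfsg.Agent.Lib.Helper9.CfgDTriSext

set_option autoImplicit false
open Cfsg

namespace Cfsg.Agent.Lib.Helper9.Leech

open scoped Pointwise
open Cfsg.Agent.S5393 Cfsg.Agent.S5548

def cfTriSextRoots : List (ℕ × ℕ) := [(0, 1), (2, 2), (9, 3)]

set_option maxRecDepth 100000 in
theorem cfTriSext_tree : treeOKN (stepKO 6) (fun gi => nodeTbl cfS (cfTriKH.getD gi (0, 0)).1)
    (decK 6) (ent cfTriSextE 216) 1771 = true := by decide +kernel

set_option maxRecDepth 100000 in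
theorem cfTriSext_codes : treeCodes 6 cfTriSextE 216 1771 sextLE = true := by decide +kernel

set_option maxRecDepth 100000 in
theorem cfTriSext_roots : allBelow (fun i => cfTriSextRoots.any (fun rv =>
    Nat.beq (rootAt 6 cfTriSextE 216 i) rv.1)) 1771 = true := by decide +kernel

set_option maxRecDepth 100000 in
theorem cfTriSext_val : cfTriSextRoots.all (fun rv => Nat.blt rv.1 1771 &&
    Nat.beq (pinvN nzN 1 6 cfTriA (codeAt 6 sextLE rv.1)) rv.2) = true := by decide +kernel

set_option maxRecDepth 100000 in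
theorem cfTriSext_cnt : cfTriSextRoots.map (fun rv => cntRoot 6 cfTriSextE 216 1771 rv.1) = [21, 630, 1120] := by
  decide +kernel

theorem cfTriSext_all : OrbSpec (semK 1 cfTriA) sextets [21, 630, 1120] ∧
    (∀ rv ∈ cfTriSextRoots, {X | X ∈ sextets ∧ pinv nzN (semK 1 cfTriA) X = rv.2}.ncard =
      cntRoot 6 cfTriSextE 216 1771 rv.1) ∧
    (∀ X ∈ sextets, ∀ Y ∈ sextets, pinv nzN (semK 1 cfTriA) X = pinv nzN (semK 1 cfTriA) Y →
      SR (semK 1 cfTriA) X Y) := by
  rw [← cfTriSext_cnt]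
  exact orbit_cfg nzN 1 cfTriA cfTri_valid sextets 6 sextLE 1771 mem_sextets sextets_cl sext_fam cfS cfN cfS_ok
    (0, 0) cfTriKH cfTri_k cfTriSextE 216 cfTriSext_tree cfTriSext_codes cfTriSextRoots cfTriSext_roots cfTriSext_val
    (by decide) (by decide)

theorem cfTriSext_spec : OrbSpec (semK 1 cfTriA) sextets [21, 630, 1120] := cfTriSext_all.1

end Cfsg.Agent.Lib.Helper9.Leech
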