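import Cfsg.Agent.Lib.Helper9.Cfg
import Cfsg.Agent.Lib.Helper9.CfgDTrioOct

set_option autoImplicit false
open Cfsg

namespace Cfsg.Agent.Lib.Helper9.Leech

open scoped Pointwise
open Cfsg.Agent.S5393 Cfsg.Agent.S5548

def cfTrioOctRoots : List (ℕ × ℕ) := [(328, 64), (0, 32), (1, 24)]

set_option maxRecDepth 100000 in
theorem cfTrioOct_tree : treeOKN (stepKO 1) (fun gi => nodeTbl cfS (cfTrioKH.getD gi (0, 528)).1)
    (decK 1) (ent cfTrioOctE 76) 759 = true := by decide +kernel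

set_option maxRecDepth 100000 in
theorem cfTrioOct_codes : treeCodes 1 cfTrioOctE 76 759 oct1LE = true := by decide +kernel

set_option maxRecDepth 100000 in
theorem cfTrioOct_roots : allBelow (fun i => cfTrioOctRoots.any (fun rv =>
    Nat.beq (rootAt 1 cfTrioOctE 76 i) rv.1)) 759 = true := by decide +kernel

set_option maxRecDepth 100000 in
theorem cfTrioOct_val : cfTrioOctRoots.all (fun rv => Nat.blt rv.1 759 &&
    Nat.beq (pinvN sqN 3 1 cfTrioA (codeAt 1 oct1LE rv.1)) rv.2) = true := by decide +kernel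

set_option maxRecDepth 100000 in
theorem cfTrioOct_cnt : cfTrioOctRoots.map (fun rv => cntRoot 1 cfTrioOctE 76 759 rv.1) = [3, 84, 672] := by
  decide +kernel

theorem cfTrioOct_all : OrbSpec (semK 3 cfTrioA) octS [3, 84, 672] ∧
    (∀ rv ∈ cfTrioOctRoots, {X | X ∈ octS ∧ pinv sqN (semK 3 cfTrioA) X = rv.2}.ncard =
      cntRoot 1 cfTrioOctE 76 759 rv.1) ∧
    (∀ X ∈ octS, ∀ Y ∈ octS, pinv sqN (semK 3 cfTrioA) X = pinv sqN (semK 3 cfTrioA) Y →
      SR (semK 3 cfTrioA) X Y) := by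
  rw [← cfTrioOct_cnt]
  exact orbit_cfg sqN 3 cfTrioA cfTrio_valid octS 1 oct1LE 759 mem_octS octS_smul oct1_fam cfS cfN cfS_ok
    (0, 528) cfTrioKH cfTrio_k cfTrioOctE 76 cfTrioOct_tree cfTrioOct_codes cfTrioOctRoots cfTrioOct_roots cfTrioOct_val
    (by decide) (by decide)

theorem cfTrioOct_spec : OrbSpec (semK 3 cfTrioA) octS [3, 84, 672] := cfTrioOct_all.1

end Cfsg.Agent.Lib.Helper9.Leech
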