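import Cfsg.Agent.Lib.Helper9.Cfg
import Cfsg.Agent.Lib.Helper9.CfgDTrioSext

set_option autoImplicit false
open Cfsg

namespace Cfsg.Agent.Lib.Helper9.Leech

open scoped Pointwise
open Cfsg.Agent.S5393 Cfsg.Agent.S5548

def cfTrioSextRoots : List (ℕ × ℕ) := [(11, 96), (5, 64), (1, 48), (0, 44)]

set_option maxRecDepth 100000 in
theorem cfTrioSext_tree : treeOKN (stepKO 6) (fun gi => nodeTbl cfS (cfTrioKH.getD gi (0, 528)).1)
    (decK 6) (ent cfTrioSextE 216) 1771 = true := by decide +kernel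

set_option maxRecDepth 100000 in
theorem cfTrioSext_codes : treeCodes 6 cfTrioSextE 216 1771 sextLE = true := by decide +kernel

set_option maxRecDepth 100000 in
theorem cfTrioSext_roots : allBelow (fun i => cfTrioSextRoots.any (fun rv =>
    Nat.beq (rootAt 6 cfTrioSextE 216 i) rv.1)) 1771 = true := by decide +kernel

set_option maxRecDepth 100000 in
theorem cfTrioSext_val : cfTrioSextRoots.all (fun rv => Nat.blt rv.1 1771 &&
    Nat.beq (pinvN sqN 3 6 cfTrioA (codeAt 6 sextLE rv.1)) rv.2) = true := by decide +kernel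

set_option maxRecDepth 100000 in
theorem cfTrioSext_cnt : cfTrioSextRoots.map (fun rv => cntRoot 6 cfTrioSextE 216 1771 rv.1) = [7, 84, 336, 1344] := by
  decide +kernel

theorem cfTrioSext_all : OrbSpec (semK 3 cfTrioA) sextets [7, 84, 336, 1344] ∧
    (∀ rv ∈ cfTrioSextRoots, {X | X ∈ sextets ∧ pinv sqN (semK 3 cfTrioA) X = rv.2}.ncard =
      cntRoot 6 cfTrioSextE 216 1771 rv.1) ∧
    (∀ X ∈ sextets, ∀ Y ∈ sextets, pinv sqN (semK 3 cfTrioA) X = pinv sqN (semK 3 cfTrioA) Y →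
      SR (semK 3 cfTrioA) X Y) := by
  rw [← cfTrioSext_cnt]
  exact orbit_cfg sqN 3 cfTrioA cfTrio_valid sextets 6 sextLE 1771 mem_sextets sextets_cl sext_fam cfS cfN cfS_ok
    (0, 528) cfTrioKH cfTrio_k cfTrioSextE 216 cfTrioSext_tree cfTrioSext_codes cfTrioSextRoots cfTrioSext_roots cfTrioSext_val
    (by decide) (by decide)

theorem cfTrioSext_spec : OrbSpec (semK 3 cfTrioA) sextets [7, 84, 336, 1344] := cfTrioSext_all.1

end Cfsg.Agent.Lib.Helper9.Leech
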