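import Cfsg.Agent.Lib.Helper9.Cfg
import Cfsg.Agent.Lib.Helper9.CfgDTrioTrio

set_option autoImplicit false
open Cfsg

namespace Cfsg.Agent.Lib.Helper9.Leech

open scoped Pointwise
open Cfsg.Agent.S5393 Cfsg.Agent.S5548

def cfTrioTrioRoots : List (ℕ × ℕ) := [(0, 192), (1, 128), (16, 96), (17, 80), (30, 72)]

set_option maxRecDepth 100000 in
theorem cfTrioTrio_tree : treeOKN (stepKO 3) (fun gi => nodeTbl cfS (cfTrioKH.getD gi (0, 528)).1)
    (decK 3) (ent cfTrioTrioE 132) 3795 = true := by decide +kernel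

set_option maxRecDepth 100000 in
theorem cfTrioTrio_codes : treeCodes 3 cfTrioTrioE 132 3795 trioLE = true := by decide +kernel

set_option maxRecDepth 100000 in
theorem cfTrioTrio_roots : allBelow (fun i => cfTrioTrioRoots.any (fun rv =>
    Nat.beq (rootAt 3 cfTrioTrioE 132 i) rv.1)) 3795 = true := by decide +kernel

set_option maxRecDepth 100000 in
theorem cfTrioTrio_val : cfTrioTrioRoots.all (fun rv => Nat.blt rv.1 3795 &&
    Nat.beq (pinvN sqN 3 3 cfTrioA (codeAt 3 trioLE rv.1)) rv.2) = true := by decide +kernel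

set_option maxRecDepth 100000 in
theorem cfTrioTrio_cnt : cfTrioTrioRoots.map (fun rv => cntRoot 3 cfTrioTrioE 132 3795 rv.1) = [1, 42, 56, 1008, 2688] := by
  decide +kernel

theorem cfTrioTrio_all : OrbSpec (semK 3 cfTrioA) trios [1, 42, 56, 1008, 2688] ∧
    (∀ rv ∈ cfTrioTrioRoots, {X | X ∈ trios ∧ pinv sqN (semK 3 cfTrioA) X = rv.2}.ncard =
      cntRoot 3 cfTrioTrioE 132 3795 rv.1) ∧
    (∀ X ∈ trios, ∀ Y ∈ trios, pinv sqN (semK 3 cfTrioA) X = pinv sqN (semK 3 cfTrioA) Y →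
      SR (semK 3 cfTrioA) X Y) := by
  rw [← cfTrioTrio_cnt]
  exact orbit_cfg sqN 3 cfTrioA cfTrio_valid trios 3 trioLE 3795 mem_trios trios_cl trio_fam cfS cfN cfS_ok
    (0, 528) cfTrioKH cfTrio_k cfTrioTrioE 132 cfTrioTrio_tree cfTrioTrio_codes cfTrioTrioRoots cfTrioTrio_roots cfTrioTrio_val
    (by decide) (by decide)

theorem cfTrioTrio_spec : OrbSpec (semK 3 cfTrioA) trios [1, 42, 56, 1008, 2688] := cfTrioTrio_all.1

end Cfsg.Agent.Lib.Helper9.Leech
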