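import Cfsg.Agent.Lib.Helper9.Cls3

set_option autoImplicit false
open Cfsg

namespace Cfsg.Agent.Lib.Helper9.Leech

open scoped Pointwise
open Cfsg.Agent.S5393 Cfsg.Agent.S5548

set_option maxRecDepth 100000 in
theorem invA_oct : (octL.filter (fun n => Nat.beq (pullN (ent invREP 120 0) n) n)).length = 71 := by
  decide +kernel

set_option maxRecDepth 100000 in
theorem invA_trio : ((List.range 3795).filter
    (fun i => fixK 3 (ent invREP 120 0) (codeAt 3 trioLE i))).length = 99 := by decide +kernel

set_option maxRecDepth 100000 in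
theorem invA_sext : ((List.range 1771).filter
    (fun i => fixK 6 (ent invREP 120 0) (codeAt 6 sextLE i))).length = 91 := by decide +kernel

set_option maxRecDepth 100000 in
theorem invB_oct : (octL.filter (fun n => Nat.beq (pullN (ent invREP 120 1) n) n)).length = 15 := by
  decide +kernel

set_option maxRecDepth 100000 in
theorem invB_trio : ((List.range 3795).filter
    (fun i => fixK 3 (ent invREP 120 1) (codeAt 3 trioLE i))).length = 75 := by decide +kernel

set_option maxRecDepth 100000 in
theorem invB_sext : ((List.range 1771).filter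
    (fun i => fixK 6 (ent invREP 120 1) (codeAt 6 sextLE i))).length = 51 := by decide +kernel

set_option maxRecDepth 100000 in
theorem o3A_oct : (octL.filter (fun n => Nat.beq (pullN (ent o3REP 120 0) n) n)).length = 21 := by
  decide +kernel

set_option maxRecDepth 100000 in
theorem o3A_dod : (dodL.filter (fun n => Nat.beq (pullN (ent o3REP 120 0) n) n)).length = 20 := by
  decide +kernel

set_option maxRecDepth 100000 in
theorem o3A_trio : ((List.range 3795).filter
    (fun i => fixK 3 (ent o3REP 120 0) (codeAt 3 trioLE i))).length = 15 := by decide +kernel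

set_option maxRecDepth 100000 in
theorem o3A_sext : ((List.range 1771).filter
    (fun i => fixK 6 (ent o3REP 120 0) (codeAt 6 sextLE i))).length = 16 := by decide +kernel

set_option maxRecDepth 100000 in
theorem o3B_trio : ((List.range 3795).filter
    (fun i => fixK 3 (ent o3REP 120 1) (codeAt 3 trioLE i))).length = 15 := by decide +kernel

set_option maxRecDepth 100000 in
theorem o3B_sext : ((List.range 1771).filter
    (fun i => fixK 6 (ent o3REP 120 1) (codeAt 6 sextLE i))).length = 7 := by decide +kernel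

theorem o3A_fp : ∃ i < 24, fld (ent o3REP 120 0) i = i := by decide +kernel

theorem octads_cl : ∀ K ∈ M24, ∀ X ∈ octads, K • X ∈ octads :=
  fun K hK X hX => octads_smul K hK X hX

theorem dodecads_cl : ∀ K ∈ M24, ∀ X ∈ dodecads, K • X ∈ dodecads :=
  fun K hK X hX => dodecads_smul K hK X hX

theorem sextets_cl' : ∀ K ∈ M24, ∀ X ∈ sextets, K • X ∈ sextets :=
  fun K hK X hX => sextets_smul K hK X hX

theorem trios_cl' : ∀ K ∈ M24, ∀ X ∈ trios, K • X ∈ trios :=
  fun K hK X hX => trios_smul K hK X hX

theorem s5605 (g : Equiv.Perm GolayPt) (hg : g ∈ M24) (h₂ : orderOf g = 2)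
    (h₈ : (Finset.univ.filter fun p => g p = p).card = 8) :
    {o : Finset GolayPt | o ∈ octads ∧ g • o = o}.ncard = 71 ∧
    {T : Finset (Finset GolayPt) | T ∈ trios ∧ g • T = T}.ncard = 99 ∧
    {S : Finset (Finset GolayPt) | S ∈ sextets ∧ g • S = S}.ncard = 91 := by
  obtain ⟨K, hK, c, hc, hKt⟩ := inv_class g hg (order_two g h₂).1 (order_two g h₂).2
  interval_cases c
  · refine ⟨?_, ?_, ?_⟩
    · rw [fix_count_conj octads octads_cl g K hK, oct_fix_count _ _ hKt, invA_oct]
    · rw [fix_count_conj trios trios_cl' g K hK, trio_fix_count _ _ hKt, invA_trio]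
    · rw [fix_count_conj sextets sextets_cl' g K hK, sext_fix_count _ _ hKt, invA_sext]
  · exfalso
    have h1 : (Finset.univ.filter fun p => g p = p) = ∅ :=
      Finset.filter_eq_empty_iff.2 (fun p _ => nofp_of_conj K g _ hKt invB_nofix p)
    rw [h1] at h₈
    simp at h₈

theorem s5606 (g : Equiv.Perm GolayPt) (hg : g ∈ M24) (h₂ : orderOf g = 2)
    (h₀ : ∀ p, g p ≠ p) :
    {o : Finset GolayPt | o ∈ octads ∧ g • o = o}.ncard = 15 ∧
    {T : Finset (Finset GolayPt) | T ∈ trios ∧ g • T = T}.ncard = 75 ∧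
    {S : Finset (Finset GolayPt) | S ∈ sextets ∧ g • S = S}.ncard = 51 := by
  obtain ⟨K, hK, c, hc, hKt⟩ := inv_class g hg (order_two g h₂).1 (order_two g h₂).2
  interval_cases c
  · exfalso
    obtain ⟨p, hp⟩ := invA_fp K g hK hKt
    exact h₀ p hp
  · refine ⟨?_, ?_, ?_⟩
    · rw [fix_count_conj octads octads_cl g K hK, oct_fix_count _ _ hKt, invB_oct]
    · rw [fix_count_conj trios trios_cl' g K hK, trio_fix_count _ _ hKt, invB_trio]
    · rw [fix_count_conj sextets sextets_cl' g K hK, sext_fix_count _ _ hKt, invB_sext]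

theorem s5602 (g : Equiv.Perm GolayPt) (hg : g ∈ M24) (h₃ : orderOf g = 3)
    (h₆ : (Finset.univ.filter fun p => g p = p).card = 6) :
    {o : Finset GolayPt | o ∈ octads ∧ g • o = o}.ncard = 21 ∧
    {T : Finset (Finset GolayPt) | T ∈ trios ∧ g • T = T}.ncard = 15 ∧
    {S : Finset (Finset GolayPt) | S ∈ sextets ∧ g • S = S}.ncard = 16 ∧
    {d : Finset GolayPt | d ∈ dodecads ∧ g • d = d}.ncard = 20 := by
  obtain ⟨K, hK, c, hc, hKt⟩ := o3_class g hg (order_three g h₃).1 (order_three g h₃).2
  interval_cases c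
  · refine ⟨?_, ?_, ?_, ?_⟩
    · rw [fix_count_conj octads octads_cl g K hK, oct_fix_count _ _ hKt, o3A_oct]
    · rw [fix_count_conj trios trios_cl' g K hK, trio_fix_count _ _ hKt, o3A_trio]
    · rw [fix_count_conj sextets sextets_cl' g K hK, sext_fix_count _ _ hKt, o3A_sext]
    · rw [fix_count_conj dodecads dodecads_cl g K hK, dod_fix_count _ _ hKt, o3A_dod]
  · exfalso
    have h1 : (Finset.univ.filter fun p => g p = p) = ∅ :=
      Finset.filter_eq_empty_iff.2 (fun p _ => nofp_of_conj K g _ hKt o3B_nofix p)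
    rw [h1] at h₆
    simp at h₆

theorem s5603 (g : Equiv.Perm GolayPt) (hg : g ∈ M24) (h₃ : orderOf g = 3)
    (h₀ : ∀ p, g p ≠ p) :
    {S : Finset (Finset GolayPt) | S ∈ sextets ∧ g • S = S}.ncard = 7 ∧
    {T : Finset (Finset GolayPt) | T ∈ trios ∧ g • T = T}.ncard = 15 := by
  obtain ⟨K, hK, c, hc, hKt⟩ := o3_class g hg (order_three g h₃).1 (order_three g h₃).2
  interval_cases c
  · exfalso
    obtain ⟨i, hi, hfix⟩ := o3A_fp
    exact h₀ _ (fp_of_conj K g _ hKt i hi hfix)
  · refine ⟨?_, ?_⟩
    · rw [fix_count_conj sextets sextets_cl' g K hK, sext_fix_count _ _ hKt, o3B_sext]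
    · rw [fix_count_conj trios trios_cl' g K hK, trio_fix_count _ _ hKt, o3B_trio]

end Cfsg.Agent.Lib.Helper9.Leech
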