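import Cfsg.Agent.S5594
import Cfsg.Agent.Lib.Helper9.Leech2

set_option autoImplicit false
open Cfsg

namespace Cfsg.Agent.Lib.Helper9.Leech

open scoped Pointwise
open Cfsg.Agent.S5393 Cfsg.Agent.S5548

def signMap (u : GolayPt → ZMod 2) (x : GolayPt → ℤ) : GolayPt → ℤ :=
  fun i => if u i = 1 then - x i else x i

theorem signMap_apply (u : GolayPt → ZMod 2) (x : GolayPt → ℤ) (i : GolayPt) :
    signMap u x i = if u i = 1 then - x i else x i := rfl

theorem signMap_signMap (u : GolayPt → ZMod 2) (x : GolayPt → ℤ) :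
    signMap u (signMap u x) = x := by
  funext i
  rw [signMap_apply, signMap_apply]
  by_cases h : u i = 1
  · rw [if_pos h, if_pos h, neg_neg]
  · rw [if_neg h, if_neg h]

theorem signMap_add (u : GolayPt → ZMod 2) (x y : GolayPt → ℤ) :
    signMap u (x + y) = signMap u x + signMap u y := by
  funext i
  rw [Pi.add_apply, signMap_apply, signMap_apply, signMap_apply, Pi.add_apply]
  by_cases h : u i = 1
  · rw [if_pos h, if_pos h, if_pos h, neg_add]
  · rw [if_neg h, if_neg h, if_neg h]

theorem signMap_norm (u : GolayPt → ZMod 2) (x : GolayPt → ℤ) :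
    sqNorm (signMap u x) = sqNorm x := by
  unfold sqNorm
  apply Finset.sum_congr rfl
  intro i _
  rw [signMap_apply]
  by_cases h : u i = 1
  · rw [if_pos h, neg_sq]
  · rw [if_neg h]

theorem signMap_mem (u : GolayPt → ZMod 2) (hu : u ∈ golayCode) (x : GolayPt → ℤ)
    (hx : x ∈ leechLattice) : signMap u x ∈ leechLattice :=
  (mem_leechLattice_iff _).2 (isL_sign u hu x ((mem_leechLattice_iff x).1 hx))

def signPerm (u : GolayPt → ZMod 2) (hu : u ∈ golayCode) : Equiv.Perm leechLattice where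
  toFun v := ⟨signMap u v, signMap_mem u hu v v.2⟩
  invFun v := ⟨signMap u v, signMap_mem u hu v v.2⟩
  left_inv v := Subtype.ext (signMap_signMap u v)
  right_inv v := Subtype.ext (signMap_signMap u v)

theorem signPerm_mem (u : GolayPt → ZMod 2) (hu : u ∈ golayCode) : signPerm u hu ∈ Co0 := by
  refine ⟨fun v w => Subtype.ext ?_, fun v => ?_⟩
  · exact signMap_add u v w
  · exact signMap_norm u v

def permMap (σ : Equiv.Perm GolayPt) (x : GolayPt → ℤ) : GolayPt → ℤ := fun i => x (σ i)

theorem permMap_apply (σ : Equiv.Perm GolayPt) (x : GolayPt → ℤ) (i : GolayPt) :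
    permMap σ x i = x (σ i) := rfl

theorem permMap_mem (σ : Equiv.Perm GolayPt) (hσ : σ ∈ M24) (x : GolayPt → ℤ)
    (hx : x ∈ leechLattice) : permMap σ x ∈ leechLattice :=
  (mem_leechLattice_iff _).2 (isL_perm σ hσ x ((mem_leechLattice_iff x).1 hx))

theorem permMap_norm (σ : Equiv.Perm GolayPt) (x : GolayPt → ℤ) :
    sqNorm (permMap σ x) = sqNorm x :=
  Equiv.sum_comp σ (fun i => x i ^ 2)

def permPerm (σ : Equiv.Perm GolayPt) (hσ : σ ∈ M24) : Equiv.Perm leechLattice where
  toFun v := ⟨permMap σ v, permMap_mem σ hσ v v.2⟩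
  invFun v := ⟨permMap σ⁻¹ v, permMap_mem σ⁻¹ (inv_mem hσ) v v.2⟩
  left_inv v := Subtype.ext (funext fun i => by
    change (v : GolayPt → ℤ) (σ (σ.symm i)) = (v : GolayPt → ℤ) i
    rw [Equiv.apply_symm_apply])
  right_inv v := Subtype.ext (funext fun i => by
    change (v : GolayPt → ℤ) (σ.symm (σ i)) = (v : GolayPt → ℤ) i
    rw [Equiv.symm_apply_apply])

theorem permPerm_mem (σ : Equiv.Perm GolayPt) (hσ : σ ∈ M24) : permPerm σ hσ ∈ Co0 := by
  refine ⟨fun v w => Subtype.ext ?_, fun v => ?_⟩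
  · rfl
  · exact permMap_norm σ v

def negCo : Co0 := ⟨Equiv.neg leechLattice, Cfsg.Agent.S5594.neg_mem_Co0⟩

theorem negCo_apply (v : leechLattice) : (negCo : Equiv.Perm leechLattice) v = -v := rfl

theorem negCo_comm (h : Co0) : h * negCo = negCo * h := by
  apply Subtype.ext
  apply Equiv.ext
  intro v
  change (h : Equiv.Perm leechLattice) ((negCo : Equiv.Perm leechLattice) v) =
    (negCo : Equiv.Perm leechLattice) ((h : Equiv.Perm leechLattice) v)
  rw [negCo_apply, negCo_apply, Cfsg.Agent.S5594.co0_map_neg]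

theorem negCo_ne_one : negCo ≠ 1 := by
  intro h
  have h1 := negCo_apply ⟨Cfsg.Agent.S5594.v0, Cfsg.Agent.S5594.v0_mem⟩
  rw [h] at h1
  have h2 := congrArg (fun w : leechLattice => (w : GolayPt → ℤ) none) h1
  revert h2
  unfold Cfsg.Agent.S5594.v0
  decide

def co0Hom (f : Co0) : leechLattice →+ leechLattice :=
  AddMonoidHom.mk' (f : Equiv.Perm leechLattice) f.2.1

theorem co0Hom_apply (f : Co0) (v : leechLattice) :
    co0Hom f v = (f : Equiv.Perm leechLattice) v := rfl

def bvec (i : GolayPt) : GolayPt → ℤ := Pi.single i 8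

theorem bvec_mem (i : GolayPt) : bvec i ∈ leechLattice := by
  rw [mem_leechLattice_iff]
  refine ⟨0, Pi.single i 4, ?_, ?_, ?_⟩
  · have e : red (Pi.single i 4) = 0 := by
      funext p
      unfold red
      by_cases h : p = i
      · rw [h, Pi.single_eq_same]
        rfl
      · rw [Pi.single_eq_of_ne h]
        rfl
    rw [e]
    exact Submodule.zero_mem _
  · intro p
    unfold bvec
    by_cases h : p = i
    · rw [h, Pi.single_eq_same, Pi.single_eq_same]
      rfl
    · rw [Pi.single_eq_of_ne h, Pi.single_eq_of_ne h]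
      rfl
  · unfold bvec
    rw [Finset.sum_pi_single']
    simp

theorem bvec_norm (i : GolayPt) : sqNorm (bvec i) = 64 := by
  unfold sqNorm bvec
  rw [Finset.sum_eq_single i]
  · rw [Pi.single_eq_same]
    rfl
  · intro b _ hb
    rw [Pi.single_eq_of_ne hb]
    rfl
  · intro h
    exact absurd (Finset.mem_univ i) h

theorem sep : ∀ i j : GolayPt, i ≠ j → ∃ t : ZMod 23, qw t i ≠ qw t j := by decide

theorem sep' (i j : GolayPt) (h : i ≠ j) : ∃ u ∈ golayCode, u i = 0 ∧ u j = 1 := by
  obtain ⟨t, ht⟩ := sep i j h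
  rcases z2_cases (qw t i) with h1 | h1 <;> rcases z2_cases (qw t j) with h2 | h2
  · rw [h1, h2] at ht
    exact absurd rfl ht
  · refine ⟨qrWord t, qr_mem t, ?_, ?_⟩
    · rw [qrWord_eq_qw]
      exact h1
    · rw [qrWord_eq_qw]
      exact h2
  · refine ⟨1 + qrWord t, Submodule.add_mem _ one_mem (qr_mem t), ?_, ?_⟩
    · rw [qrWord_eq_qw, Pi.add_apply, h1, Pi.one_apply]
      decide
    · rw [qrWord_eq_qw, Pi.add_apply, h2, Pi.one_apply]
      decide
  · rw [h1, h2] at ht
    exact absurd rfl ht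

end Cfsg.Agent.Lib.Helper9.Leech
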