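import Cfsg.Agent.Lib.Helper9.Trio

set_option autoImplicit false
open Cfsg

namespace Cfsg.Agent.Lib.Helper9.Leech

open scoped Pointwise
open Cfsg.Agent.S5393 Cfsg.Agent.S5548

/-! ### invariants of pairs of families of sets -/

def pinv (f : ℕ → ℕ) (A X : Finset (Finset GolayPt)) : ℕ := ∑ t ∈ A, ∑ u ∈ X, f (t ∩ u).card

theorem pinv_smul (f : ℕ → ℕ) (g : Equiv.Perm GolayPt) (A X : Finset (Finset GolayPt)) :
    pinv f (g • A) (g • X) = pinv f A X := by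
  unfold pinv
  have hA : g • A = A.image (fun t => g • t) := rfl
  have hX : g • X = X.image (fun t => g • t) := rfl
  rw [hA, Finset.sum_image (fun x _ y _ h => MulAction.injective g h)]
  apply Finset.sum_congr rfl
  intro t _
  rw [hX, Finset.sum_image (fun x _ y _ h => MulAction.injective g h)]
  apply Finset.sum_congr rfl
  intro u _
  rw [card_inter_smul]

def sumBelow (p : ℕ → ℕ) : ℕ → ℕ
  | 0 => 0
  | k + 1 => Nat.add (p k) (sumBelow p k)

theorem sumBelow_eq (p : ℕ → ℕ) (n : ℕ) : sumBelow p n = ∑ i ∈ Finset.range n, p i := by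
  induction n with
  | zero => rfl
  | succ n ih =>
    rw [Finset.sum_range_succ, sumBelow, ih]
    exact Nat.add_comm _ _

def pinvN (f : ℕ → ℕ) (ka kx a x : ℕ) : ℕ :=
  sumBelow (fun i => forceN (ent a 24 i) (fun ai =>
    sumBelow (fun j => f (popc (Nat.land ai (ent x 24 j)))) kx)) ka

theorem pinv_code (f : ℕ → ℕ) (ka kx a x : ℕ) (ha : validK ka a = true)
    (hx : validK kx x = true) : pinv f (semK ka a) (semK kx x) = pinvN f ka kx a x := by
  unfold pinv pinvN semK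
  rw [sumBelow_eq, Finset.sum_image (fun i hi j hj h =>
    validK_inj ka a ha i j (Finset.mem_range.1 hi) (Finset.mem_range.1 hj) h)]
  apply Finset.sum_congr rfl
  intro i _
  rw [forceN_eq, sumBelow_eq, Finset.sum_image (fun i hi j hj h =>
    validK_inj kx x hx i j (Finset.mem_range.1 hi) (Finset.mem_range.1 hj) h)]
  apply Finset.sum_congr rfl
  intro j _
  rw [card_inter_bits]
  rfl

/-! ### the orbit relation of a stabiliser -/

section SRel

variable {β γ : Type*} [MulAction (Equiv.Perm GolayPt) β] [MulAction (Equiv.Perm GolayPt) γ]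

def SR (b : β) (X Y : γ) : Prop := ∃ g ∈ M24, g • b = b ∧ g • X = Y

theorem SR_refl (b : β) (X : γ) : SR b X X := ⟨1, Subgroup.one_mem _, one_smul _ _, one_smul _ _⟩

theorem SR_symm (b : β) (X Y : γ) (h : SR b X Y) : SR b Y X := by
  obtain ⟨g, hg, hb, rfl⟩ := h
  refine ⟨g⁻¹, inv_mem hg, ?_, inv_smul_smul g X⟩
  rw [inv_smul_eq_iff, hb]

theorem SR_trans (b : β) (X Y Z : γ) (h1 : SR b X Y) (h2 : SR b Y Z) : SR b X Z := by
  obtain ⟨g, hg, hb, rfl⟩ := h1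
  obtain ⟨g', hg', hb', rfl⟩ := h2
  exact ⟨g' * g, mul_mem hg' hg, by rw [mul_smul, hb, hb'], mul_smul _ _ _⟩

theorem SR_conj (σ : Equiv.Perm GolayPt) (hσ : σ ∈ M24) (b : β) (X Y : γ) :
    SR (σ • b) (σ • X) (σ • Y) ↔ SR b X Y := by
  constructor
  · rintro ⟨g, hg, hb, hX⟩
    refine ⟨σ⁻¹ * g * σ, mul_mem (mul_mem (inv_mem hσ) hg) hσ, ?_, ?_⟩
    · rw [mul_smul, mul_smul, hb, inv_smul_smul]
    · rw [mul_smul, mul_smul, hX, inv_smul_smul]
  · rintro ⟨g, hg, hb, hX⟩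
    refine ⟨σ * g * σ⁻¹, mul_mem (mul_mem hσ hg) (inv_mem hσ), ?_, ?_⟩
    · rw [mul_smul, mul_smul, inv_smul_smul, hb]
    · rw [mul_smul, mul_smul, inv_smul_smul, hX]

theorem SR_congr {β' : Type*} [MulAction (Equiv.Perm GolayPt) β'] (b : β) (b' : β')
    (h : ∀ g : Equiv.Perm GolayPt, g • b = b ↔ g • b' = b') (X Y : γ) :
    SR b X Y ↔ SR b' X Y := by
  constructor
  · rintro ⟨g, hg, hb, hX⟩
    exact ⟨g, hg, (h g).1 hb, hX⟩
  · rintro ⟨g, hg, hb, hX⟩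
    exact ⟨g, hg, (h g).2 hb, hX⟩

theorem orbit_stab_eq (o : β) (X : γ) :
    MulAction.orbit (MulAction.stabilizer M24 o) X = {Y | SR o X Y} := by
  ext Y
  rw [MulAction.mem_orbit_iff]
  constructor
  · rintro ⟨⟨⟨g, hg⟩, hgo⟩, rfl⟩
    exact ⟨g, hg, MulAction.mem_stabilizer_iff.1 hgo, rfl⟩
  · rintro ⟨g, hg, hgo, rfl⟩
    exact ⟨⟨⟨g, hg⟩, MulAction.mem_stabilizer_iff.2 hgo⟩, rfl⟩

/-- orbit data of a stabiliser on a family: representatives with orbit sizes, covering -/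
def OrbSpec (b : β) (Fam : Set γ) (ns : List ℕ) : Prop :=
  ∃ Xs : List γ, List.Forall₂ (fun X n => X ∈ Fam ∧ {Y | SR b X Y}.ncard = n) Xs ns ∧
    ∀ Y, Y ∈ Fam ↔ ∃ X ∈ Xs, SR b X Y

theorem OrbSpec_conj (σ : Equiv.Perm GolayPt) (hσ : σ ∈ M24) (b : β) (Fam : Set γ)
    (hcl : ∀ g ∈ M24, ∀ X ∈ Fam, g • X ∈ Fam) (ns : List ℕ) (h : OrbSpec b Fam ns) :
    OrbSpec (σ • b) Fam ns := by
  obtain ⟨Xs, h1, h2⟩ := h
  refine ⟨Xs.map (fun X => σ • X), ?_, ?_⟩
  · rw [List.forall₂_map_left_iff]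
    refine h1.imp ?_
    rintro X n ⟨hX, hn⟩
    refine ⟨hcl σ hσ X hX, ?_⟩
    rw [← hn]
    exact ncard_conj σ {Y | SR b X Y} {Y | SR (σ • b) (σ • X) Y}
      (fun s => (SR_conj σ hσ b X s).symm)
  · intro Y
    constructor
    · intro hY
      obtain ⟨X, hX, hs⟩ := (h2 (σ⁻¹ • Y)).1 (hcl σ⁻¹ (inv_mem hσ) Y hY)
      refine ⟨σ • X, List.mem_map.2 ⟨X, hX, rfl⟩, ?_⟩
      have h3 := (SR_conj σ hσ b X (σ⁻¹ • Y)).2 hs
      rw [smul_inv_smul] at h3
      exact h3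
    · rintro ⟨X', hX', hs⟩
      obtain ⟨X, hX, rfl⟩ := List.mem_map.1 hX'
      have h3 : SR b X (σ⁻¹ • Y) := by
        rw [← SR_conj σ hσ b X (σ⁻¹ • Y), smul_inv_smul]
        exact hs
      have h4 := hcl σ hσ _ ((h2 _).2 ⟨X, hX, h3⟩)
      rw [smul_inv_smul] at h4
      exact h4

theorem OrbSpec_congr {β' : Type*} [MulAction (Equiv.Perm GolayPt) β'] (b : β) (b' : β')
    (h : ∀ g : Equiv.Perm GolayPt, g • b = b ↔ g • b' = b') (Fam : Set γ) (ns : List ℕ)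
    (hs : OrbSpec b Fam ns) : OrbSpec b' Fam ns := by
  obtain ⟨Xs, h1, h2⟩ := hs
  refine ⟨Xs, ?_, ?_⟩
  · refine h1.imp ?_
    rintro X n ⟨hX, hn⟩
    refine ⟨hX, ?_⟩
    rw [← hn]
    congr 1
    ext Y
    exact (SR_congr b b' h X Y).symm
  · intro Y
    rw [h2 Y]
    constructor
    · rintro ⟨X, hX, hs⟩
      exact ⟨X, hX, (SR_congr b b' h X Y).1 hs⟩
    · rintro ⟨X, hX, hs⟩
      exact ⟨X, hX, (SR_congr b b' h X Y).2 hs⟩

end SRel

/-! ### orbit classes from a tree certificate -/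

def cntRoot (k E W N r : ℕ) : ℕ :=
  ((List.range N).filter (fun i => Nat.beq (rootAt k E W i) r)).length

theorem orbit_classes (B : Finset (Finset GolayPt)) (Fam : Set (Finset (Finset GolayPt)))
    (k LE N : ℕ) (hF : ∀ X, X ∈ Fam ↔ ∃ i < N, semK k (codeAt k LE i) = X)
    (hcl : ∀ g ∈ M24, ∀ X ∈ Fam, g • X ∈ Fam)
    (hchk : famChk k LE N = true)
    (T : ℕ → ℕ) (hT : ∀ gi, ∃ g ∈ M24, g • B = B ∧ TblP g (tblOf (T gi)))
    (E W : ℕ) (htree : treeOKN (stepKO k) T (decK k) (ent E W) N = true)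
    (hcodes : treeCodes k E W N LE = true)
    (ι : Finset (Finset GolayPt) → ℕ)
    (hι : ∀ g ∈ M24, g • B = B → ∀ X, ι (g • X) = ι X)
    (roots : List (ℕ × ℕ))
    (hroots : allBelow (fun i => roots.any (fun rv => Nat.beq (rootAt k E W i) rv.1)) N = true)
    (hlt : ∀ rv ∈ roots, rv.1 < N)
    (hval : ∀ rv ∈ roots, ι (semK k (codeAt k LE rv.1)) = rv.2)
    (hnd1 : (roots.map Prod.fst).Nodup) (hnd2 : (roots.map Prod.snd).Nodup) :
    OrbSpec B Fam (roots.map (fun rv => cntRoot k E W N rv.1)) ∧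
    (∀ rv ∈ roots, {X | X ∈ Fam ∧ ι X = rv.2}.ncard = cntRoot k E W N rv.1) ∧
    (∀ X ∈ Fam, ∀ Y ∈ Fam, ι X = ι Y → SR B X Y) := by
  have hkt := ktree (M24 ⊓ MulAction.stabilizer (Equiv.Perm GolayPt) B) k T (by
    intro gi
    obtain ⟨g, hg, hb, ht⟩ := hT gi
    exact ⟨g, ⟨hg, MulAction.mem_stabilizer_iff.2 hb⟩, ht⟩) E W N LE htree hcodes
  have NF : ∀ i < N, ∃ rv ∈ roots, rv.1 = rootAt k E W i ∧
      SR B (semK k (codeAt k LE rv.1)) (semK k (codeAt k LE i)) ∧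
      ι (semK k (codeAt k LE i)) = rv.2 := by
    intro i hi
    obtain ⟨rv, hrv, hre⟩ := List.any_eq_true.1 (allBelow_spec _ N hroots i hi)
    have hre' : rootAt k E W i = rv.1 := Nat.eq_of_beq_eq_true hre
    obtain ⟨_, g, hg, he⟩ := hkt i hi
    rw [hre'] at he
    refine ⟨rv, hrv, hre'.symm, ⟨g, hg.1, MulAction.mem_stabilizer_iff.1 hg.2, he⟩, ?_⟩
    rw [← he, hι g hg.1 (MulAction.mem_stabilizer_iff.1 hg.2), hval rv hrv]
  have C2 : ∀ rv ∈ roots, ∀ X, SR B (semK k (codeAt k LE rv.1)) X ↔ (X ∈ Fam ∧ ι X = rv.2) := by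
    intro rv hrv X
    constructor
    · rintro ⟨g, hg, hb, rfl⟩
      exact ⟨hcl g hg _ ((hF _).2 ⟨rv.1, hlt rv hrv, rfl⟩), by rw [hι g hg hb, hval rv hrv]⟩
    · rintro ⟨hX, hv⟩
      obtain ⟨i, hi, rfl⟩ := (hF X).1 hX
      obtain ⟨rv', hrv', _, hs, hv'⟩ := NF i hi
      have h1 : rv' = rv := List.inj_on_of_nodup_map hnd2 hrv' hrv (by rw [← hv', hv])
      rw [← h1]
      exact hs
  have C3 : ∀ rv ∈ roots, {X | X ∈ Fam ∧ ι X = rv.2}.ncard = cntRoot k E W N rv.1 := by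
    intro rv hrv
    unfold cntRoot
    apply ncard_famG Fam N (fun i => semK k (codeAt k LE i)) hF
      (fun i hi j hj hij => fam_inj k LE N hchk i j hi hj hij)
    intro i hi
    obtain ⟨rv', hrv', hr', _, hv'⟩ := NF i hi
    constructor
    · intro hv
      have h2 : rv' = rv := List.inj_on_of_nodup_map hnd2 hrv' hrv (by rw [← hv', hv])
      rw [← hr', h2]
      exact Nat.beq_refl _
    · intro hq
      have h2 : rv' = rv := List.inj_on_of_nodup_map hnd1 hrv' hrv (by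
        rw [hr']
        exact Nat.eq_of_beq_eq_true hq)
      rw [hv', h2]
  refine ⟨⟨roots.map (fun rv => semK k (codeAt k LE rv.1)), ?_, ?_⟩, C3, ?_⟩
  · rw [List.forall₂_map_left_iff, List.forall₂_map_right_iff, List.forall₂_same]
    intro rv hrv
    refine ⟨(hF _).2 ⟨rv.1, hlt rv hrv, rfl⟩, ?_⟩
    have h1 : {Y | SR B (semK k (codeAt k LE rv.1)) Y} = {Y | Y ∈ Fam ∧ ι Y = rv.2} := by
      ext Y
      exact C2 rv hrv Y
    rw [h1]
    exact C3 rv hrv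
  · intro Y
    constructor
    · intro hY
      obtain ⟨i, hi, rfl⟩ := (hF Y).1 hY
      obtain ⟨rv, hrv, _, hs, _⟩ := NF i hi
      exact ⟨_, List.mem_map.2 ⟨rv, hrv, rfl⟩, hs⟩
    · rintro ⟨X, hX, hs⟩
      obtain ⟨rv, hrv, rfl⟩ := List.mem_map.1 hX
      exact ((C2 rv hrv Y).1 hs).1
  · intro X hX Y hY hXY
    obtain ⟨i, hi, rfl⟩ := (hF X).1 hX
    obtain ⟨rv, hrv, _, hs, hv⟩ := NF i hi
    have h1 := (C2 rv hrv Y).2 ⟨hY, by rw [← hXY, hv]⟩
    exact SR_trans B _ _ _ (SR_symm B _ _ hs) h1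

def sqN (c : ℕ) : ℕ := Nat.mul c c

theorem gensB_valid (S n : ℕ) (hS : slpChk S n = true) (kb a0 : ℕ) (d : ℕ × ℕ)
    (kh : List (ℕ × ℕ))
    (hk : (d :: kh).all (fun jp => Nat.blt jp.1 n &&
      stepK kb (nodeTbl S jp.1) a0 a0 jp.2) = true) :
    ∀ gi, ∃ g ∈ M24, g • semK kb a0 = semK kb a0 ∧
      TblP g (tblOf (nodeTbl S (kh.getD gi d).1)) := by
  intro gi
  rw [List.all_eq_true] at hk
  have hmem : kh.getD gi d ∈ d :: kh := by
    rw [List.getD_eq_getElem?_getD]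
    cases hi : kh[gi]? with
    | none => exact List.mem_cons_self
    | some t => exact List.mem_cons_of_mem _ (List.mem_of_getElem? hi)
  have h1 := hk _ hmem
  rw [Bool.and_eq_true] at h1
  obtain ⟨g, hg, ht⟩ := slpChk_spec M24 (shift_mem 1) projInv_mem cubeTwist_mem S n hS _
    (Nat.le_of_ble_eq_true h1.1)
  exact ⟨g, hg, stepK_smul g kb _ ht a0 a0 _ h1.2, ht⟩

theorem orbit_cfg (f : ℕ → ℕ) (kb a0 : ℕ) (hva : validK kb a0 = true)
    (Fam : Set (Finset (Finset GolayPt)))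
    (k LE N : ℕ) (hF : ∀ X, X ∈ Fam ↔ ∃ i < N, semK k (codeAt k LE i) = X)
    (hcl : ∀ g ∈ M24, ∀ X ∈ Fam, g • X ∈ Fam)
    (hchk : famChk k LE N = true)
    (S n : ℕ) (hS : slpChk S n = true) (d : ℕ × ℕ) (kh : List (ℕ × ℕ))
    (hk : (d :: kh).all (fun jp => Nat.blt jp.1 n &&
      stepK kb (nodeTbl S jp.1) a0 a0 jp.2) = true)
    (E W : ℕ)
    (htree : treeOKN (stepKO k) (fun gi => nodeTbl S (kh.getD gi d).1) (decK k) (ent E W) N
      = true)
    (hcodes : treeCodes k E W N LE = true)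
    (roots : List (ℕ × ℕ))
    (hroots : allBelow (fun i => roots.any (fun rv => Nat.beq (rootAt k E W i) rv.1)) N = true)
    (hval : roots.all (fun rv => Nat.blt rv.1 N &&
      Nat.beq (pinvN f kb k a0 (codeAt k LE rv.1)) rv.2) = true)
    (hnd1 : (roots.map Prod.fst).Nodup) (hnd2 : (roots.map Prod.snd).Nodup) :
    OrbSpec (semK kb a0) Fam (roots.map (fun rv => cntRoot k E W N rv.1)) ∧
    (∀ rv ∈ roots, {X | X ∈ Fam ∧ pinv f (semK kb a0) X = rv.2}.ncard =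
      cntRoot k E W N rv.1) ∧
    (∀ X ∈ Fam, ∀ Y ∈ Fam, pinv f (semK kb a0) X = pinv f (semK kb a0) Y →
      SR (semK kb a0) X Y) := by
  rw [List.all_eq_true] at hval
  apply orbit_classes (semK kb a0) Fam k LE N hF hcl hchk _
    (gensB_valid S n hS kb a0 d kh hk) E W htree hcodes (fun X => pinv f (semK kb a0) X) ?_
    roots hroots ?_ ?_ hnd1 hnd2
  · intro g _ hb X
    have h1 := pinv_smul f g (semK kb a0) X
    rw [hb] at h1
    exact h1
  · intro rv hrv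
    have h1 := hval rv hrv
    rw [Bool.and_eq_true] at h1
    exact Nat.le_of_ble_eq_true h1.1
  · intro rv hrv
    have h1 := hval rv hrv
    rw [Bool.and_eq_true] at h1
    have h2 : rv.1 < N := Nat.le_of_ble_eq_true h1.1
    change pinv f (semK kb a0) (semK k (codeAt k LE rv.1)) = rv.2
    rw [pinv_code f kb k a0 _ hva (famChk_valid k LE N hchk rv.1 h2)]
    exact Nat.eq_of_beq_eq_true h1.2

end Cfsg.Agent.Lib.Helper9.Leech
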