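import Cfsg.Agent.Lib.Helper9.OrbFin

set_option autoImplicit false
open Cfsg

namespace Cfsg.Agent.Lib.Helper9.Leech

open scoped Pointwise
open Cfsg.Agent.S5393 Cfsg.Agent.S5548

/-- every member of the family is related to one of the root representatives -/
theorem orbit_reps (B : Finset (Finset GolayPt)) (Fam : Set (Finset (Finset GolayPt)))
    (k LE N : ℕ) (hF : ∀ X, X ∈ Fam ↔ ∃ i < N, semK k (codeAt k LE i) = X)
    (S n : ℕ) (hS : slpChk S n = true) (kb a0 : ℕ) (hB : B = semK kb a0) (d : ℕ × ℕ)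
    (kh : List (ℕ × ℕ))
    (hk : (d :: kh).all (fun jp => Nat.blt jp.1 n &&
      stepK kb (nodeTbl S jp.1) a0 a0 jp.2) = true)
    (E W : ℕ)
    (htree : treeOKN (stepKO k) (fun gi => nodeTbl S (kh.getD gi d).1) (decK k) (ent E W) N
      = true)
    (hcodes : treeCodes k E W N LE = true)
    (roots : List (ℕ × ℕ))
    (hroots : allBelow (fun i => roots.any (fun rv => Nat.beq (rootAt k E W i) rv.1)) N = true) :
    ∀ X ∈ Fam, ∃ rv ∈ roots, SR B (semK k (codeAt k LE rv.1)) X := by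
  subst hB
  have hkt := ktree (M24 ⊓ MulAction.stabilizer (Equiv.Perm GolayPt) (semK kb a0)) k _ (by
    intro gi
    obtain ⟨g, hg, hb, ht⟩ := gensB_valid S n hS kb a0 d kh hk gi
    exact ⟨g, ⟨hg, MulAction.mem_stabilizer_iff.2 hb⟩, ht⟩) E W N LE htree hcodes
  intro X hX
  obtain ⟨i, hi, rfl⟩ := (hF X).1 hX
  obtain ⟨rv, hrv, hre⟩ := List.any_eq_true.1 (allBelow_spec _ N hroots i hi)
  have hre' : rootAt k E W i = rv.1 := Nat.eq_of_beq_eq_true hre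
  obtain ⟨_, g, hg, he⟩ := hkt i hi
  rw [hre'] at he
  exact ⟨rv, hrv, g, hg.1, MulAction.mem_stabilizer_iff.1 hg.2, he⟩

theorem orb_coreB {β : Type*} [MulAction (Equiv.Perm GolayPt) β] (B : β) (reps : List β)
    (hrep : ∀ k ∈ M24, k • B ≠ B → ∃ Y ∈ reps, SR B Y (k • B))
    (hgen : ∀ Y ∈ reps, ∃ r ∈ M24, r • B = Y ∧ ∀ K : Subgroup (Equiv.Perm GolayPt),
      (∀ h ∈ M24, h • B = B → h ∈ K) → r ∈ K → M24 ≤ K) :
    ∀ K : Subgroup (Equiv.Perm GolayPt), (∀ h ∈ M24, h • B = B → h ∈ K) →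
      (∃ k ∈ K, k ∈ M24 ∧ k • B ≠ B) → M24 ≤ K := by
  rintro K hK ⟨k, hk, hkM, hkx⟩
  obtain ⟨Y, hY, h, hh, hhB, hhY⟩ := hrep k hkM hkx
  obtain ⟨r, hrM, hrB, hrK⟩ := hgen Y hY
  apply hrK K hK
  have h1 : (h * r)⁻¹ * k ∈ K := by
    apply hK _ (mul_mem (inv_mem (mul_mem hh hrM)) hkM)
    rw [mul_smul, ← hhY, ← hrB, ← mul_smul h r, inv_smul_smul]
  have h2 : r = h⁻¹ * k * ((h * r)⁻¹ * k)⁻¹ := by group
  rw [h2]
  exact mul_mem (mul_mem (inv_mem (hK h hh hhB)) hk) (inv_mem h1)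

theorem gen_clsB (S n : ℕ) (hS : slpChk S n = true) (kb a0 : ℕ) (d : ℕ × ℕ)
    (kh : List (ℕ × ℕ))
    (hk : (d :: kh).all (fun jp => Nat.blt jp.1 n &&
      stepK kb (nodeTbl S jp.1) a0 a0 jp.2) = true)
    (y ri rh : ℕ) (hr : (Nat.blt ri n && stepK kb (nodeTbl S ri) a0 y rh) = true)
    (G m kS kP kC : ℕ)
    (hG : slpChkB (fun i => nodeTbl S (((kh.map Prod.fst) ++ [ri]).getD i d.1)) G m = true)
    (hgen : genOK G m kS kP kC = true) :
    ∃ r ∈ M24, r • semK kb a0 = semK kb y ∧ ∀ K : Subgroup (Equiv.Perm GolayPt),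
      (∀ h ∈ M24, h • semK kb a0 = semK kb a0 → h ∈ K) → r ∈ K → M24 ≤ K := by
  rw [Bool.and_eq_true] at hr
  obtain ⟨r, hrM, hrt⟩ := slpChk_spec M24 (shift_mem 1) projInv_mem cubeTwist_mem S n hS ri
    (Nat.le_of_ble_eq_true hr.1)
  refine ⟨r, hrM, stepK_smul r kb _ hrt a0 y rh hr.2, ?_⟩
  intro K hK hrK
  apply gen_top K G m kS kP kC _ hgen
  apply slpChkB_spec K _ _ G m hG
  intro i
  have hmem : ((kh.map Prod.fst) ++ [ri]).getD i d.1 ∈ d.1 :: ((kh.map Prod.fst) ++ [ri]) := by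
    rw [List.getD_eq_getElem?_getD]
    cases hi : ((kh.map Prod.fst) ++ [ri])[i]? with
    | none => exact List.mem_cons_self
    | some t => exact List.mem_cons_of_mem _ (List.mem_of_getElem? hi)
  rw [List.all_eq_true] at hk
  rw [List.mem_cons, List.mem_append, List.mem_singleton] at hmem
  have hin : ∀ jp ∈ d :: kh, ∃ g ∈ K, TblP g (tblOf (nodeTbl S jp.1)) := by
    intro jp hjp
    have h1 := hk jp hjp
    rw [Bool.and_eq_true] at h1
    obtain ⟨g, hg, ht⟩ := slpChk_spec M24 (shift_mem 1) projInv_mem cubeTwist_mem S n hS jp.1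
      (Nat.le_of_ble_eq_true h1.1)
    exact ⟨g, hK g hg (stepK_smul g kb _ ht a0 a0 _ h1.2), ht⟩
  rcases hmem with h0 | h0 | h0
  · rw [h0]
    exact hin d List.mem_cons_self
  · obtain ⟨jp, hjp, hje⟩ := List.mem_map.1 h0
    rw [← hje]
    exact hin jp (List.mem_cons_of_mem _ hjp)
  · rw [h0]
    exact ⟨r, hrK, hrt⟩

section Fin1

variable {γ : Type*} [MulAction (Equiv.Perm GolayPt) γ]

theorem SR_self (b Y : γ) : SR b b Y ↔ Y = b := by
  constructor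
  · rintro ⟨g, _, hb, hY⟩
    rw [← hY, hb]
  · rintro rfl
    exact SR_refl Y Y

theorem orbit_self (b X : γ) (h : SR b X b) : {Y | SR b X Y} = {b} := by
  ext Y
  rw [Set.mem_singleton_iff, ← SR_self b Y]
  constructor
  · intro hY
    exact SR_trans b _ _ _ (SR_symm b _ _ h) hY
  · intro hY
    exact SR_trans b _ _ _ h hY

theorem orb1_3 (b : γ) (Fam : Set γ) (hb : b ∈ Fam) (n1 n2 n3 : ℕ) (hn1 : n1 ≠ 1)
    (hn2 : n2 ≠ 1) (hn3 : n3 ≠ 1) (h : OrbSpec b Fam [1, n1, n2, n3]) :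
    ∃ X₁ ∈ Fam, ∃ X₂ ∈ Fam, ∃ X₃ ∈ Fam,
      (MulAction.orbit (MulAction.stabilizer M24 b) X₁).ncard = n1 ∧
      (MulAction.orbit (MulAction.stabilizer M24 b) X₂).ncard = n2 ∧
      (MulAction.orbit (MulAction.stabilizer M24 b) X₃).ncard = n3 ∧
      Fam = {b} ∪ MulAction.orbit (MulAction.stabilizer M24 b) X₁ ∪
        MulAction.orbit (MulAction.stabilizer M24 b) X₂ ∪
        MulAction.orbit (MulAction.stabilizer M24 b) X₃ := by
  obtain ⟨Xs, hf, hc⟩ := h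
  obtain ⟨X0, l0, h0, hf0, rfl⟩ := List.forall₂_cons_right_iff.1 hf
  obtain ⟨X1, l1, h1, hf1, rfl⟩ := List.forall₂_cons_right_iff.1 hf0
  obtain ⟨X2, l2, h2, hf2, rfl⟩ := List.forall₂_cons_right_iff.1 hf1
  obtain ⟨X3, l3, h3, hf3, rfl⟩ := List.forall₂_cons_right_iff.1 hf2
  rw [List.forall₂_nil_right_iff] at hf3
  subst hf3
  have hone : ∀ X n, {Y | SR b X Y}.ncard = n → n ≠ 1 → ¬ SR b X b := by
    intro X n hX hn hs
    rw [orbit_self b X hs, Set.ncard_singleton] at hX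
    exact hn hX.symm
  have hX0 : {Y | SR b X0 Y} = {b} := by
    apply orbit_self
    obtain ⟨X, hX, hs⟩ := (hc b).1 hb
    simp only [List.mem_cons, List.not_mem_nil, or_false] at hX
    rcases hX with rfl | rfl | rfl | rfl
    · exact hs
    · exact absurd hs (hone _ _ h1.2 hn1)
    · exact absurd hs (hone _ _ h2.2 hn2)
    · exact absurd hs (hone _ _ h3.2 hn3)
  refine ⟨X1, h1.1, X2, h2.1, X3, h3.1, ?_⟩
  rw [orbit_stab_eq, orbit_stab_eq, orbit_stab_eq]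
  refine ⟨h1.2, h2.2, h3.2, ?_⟩
  rw [← hX0]
  ext Y
  rw [hc Y]
  simp only [List.mem_cons, List.not_mem_nil, or_false, Set.mem_union, Set.mem_ofPred_eq]
  constructor
  · rintro ⟨X, hX | hX | hX | hX, hs⟩
    · exact Or.inl (Or.inl (Or.inl (hX ▸ hs)))
    · exact Or.inl (Or.inl (Or.inr (hX ▸ hs)))
    · exact Or.inl (Or.inr (hX ▸ hs))
    · exact Or.inr (hX ▸ hs)
  · rintro (((hs | hs) | hs) | hs)
    · exact ⟨X0, Or.inl rfl, hs⟩
    · exact ⟨X1, Or.inr (Or.inl rfl), hs⟩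
    · exact ⟨X2, Or.inr (Or.inr (Or.inl rfl)), hs⟩
    · exact ⟨X3, Or.inr (Or.inr (Or.inr rfl)), hs⟩

theorem orb1_4 (b : γ) (Fam : Set γ) (hb : b ∈ Fam) (n1 n2 n3 n4 : ℕ) (hn1 : n1 ≠ 1)
    (hn2 : n2 ≠ 1) (hn3 : n3 ≠ 1) (hn4 : n4 ≠ 1) (h : OrbSpec b Fam [1, n1, n2, n3, n4]) :
    ∃ X₁ ∈ Fam, ∃ X₂ ∈ Fam, ∃ X₃ ∈ Fam, ∃ X₄ ∈ Fam,
      (MulAction.orbit (MulAction.stabilizer M24 b) X₁).ncard = n1 ∧
      (MulAction.orbit (MulAction.stabilizer M24 b) X₂).ncard = n2 ∧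
      (MulAction.orbit (MulAction.stabilizer M24 b) X₃).ncard = n3 ∧
      (MulAction.orbit (MulAction.stabilizer M24 b) X₄).ncard = n4 ∧
      Fam = {b} ∪ MulAction.orbit (MulAction.stabilizer M24 b) X₁ ∪
        MulAction.orbit (MulAction.stabilizer M24 b) X₂ ∪
        MulAction.orbit (MulAction.stabilizer M24 b) X₃ ∪
        MulAction.orbit (MulAction.stabilizer M24 b) X₄ := by
  obtain ⟨Xs, hf, hc⟩ := h
  obtain ⟨X0, l0, h0, hf0, rfl⟩ := List.forall₂_cons_right_iff.1 hf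
  obtain ⟨X1, l1, h1, hf1, rfl⟩ := List.forall₂_cons_right_iff.1 hf0
  obtain ⟨X2, l2, h2, hf2, rfl⟩ := List.forall₂_cons_right_iff.1 hf1
  obtain ⟨X3, l3, h3, hf3, rfl⟩ := List.forall₂_cons_right_iff.1 hf2
  obtain ⟨X4, l4, h4, hf4, rfl⟩ := List.forall₂_cons_right_iff.1 hf3
  rw [List.forall₂_nil_right_iff] at hf4
  subst hf4
  have hone : ∀ X n, {Y | SR b X Y}.ncard = n → n ≠ 1 → ¬ SR b X b := by
    intro X n hX hn hs
    rw [orbit_self b X hs, Set.ncard_singleton] at hX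
    exact hn hX.symm
  have hX0 : {Y | SR b X0 Y} = {b} := by
    apply orbit_self
    obtain ⟨X, hX, hs⟩ := (hc b).1 hb
    simp only [List.mem_cons, List.not_mem_nil, or_false] at hX
    rcases hX with rfl | rfl | rfl | rfl | rfl
    · exact hs
    · exact absurd hs (hone _ _ h1.2 hn1)
    · exact absurd hs (hone _ _ h2.2 hn2)
    · exact absurd hs (hone _ _ h3.2 hn3)
    · exact absurd hs (hone _ _ h4.2 hn4)
  refine ⟨X1, h1.1, X2, h2.1, X3, h3.1, X4, h4.1, ?_⟩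
  rw [orbit_stab_eq, orbit_stab_eq, orbit_stab_eq, orbit_stab_eq]
  refine ⟨h1.2, h2.2, h3.2, h4.2, ?_⟩
  rw [← hX0]
  ext Y
  rw [hc Y]
  simp only [List.mem_cons, List.not_mem_nil, or_false, Set.mem_union, Set.mem_ofPred_eq]
  constructor
  · rintro ⟨X, hX | hX | hX | hX | hX, hs⟩
    · exact Or.inl (Or.inl (Or.inl (Or.inl (hX ▸ hs))))
    · exact Or.inl (Or.inl (Or.inl (Or.inr (hX ▸ hs))))
    · exact Or.inl (Or.inl (Or.inr (hX ▸ hs)))
    · exact Or.inl (Or.inr (hX ▸ hs))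
    · exact Or.inr (hX ▸ hs)
  · rintro ((((hs | hs) | hs) | hs) | hs)
    · exact ⟨X0, Or.inl rfl, hs⟩
    · exact ⟨X1, Or.inr (Or.inl rfl), hs⟩
    · exact ⟨X2, Or.inr (Or.inr (Or.inl rfl)), hs⟩
    · exact ⟨X3, Or.inr (Or.inr (Or.inr (Or.inl rfl))), hs⟩
    · exact ⟨X4, Or.inr (Or.inr (Or.inr (Or.inr rfl))), hs⟩

end Fin1

end Cfsg.Agent.Lib.Helper9.Leech
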