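import Cfsg.Agent.Lib.Helper9.Leech2

set_option autoImplicit false
open Cfsg

namespace Cfsg.Agent.Lib.Helper9.Leech

open scoped Pointwise
open Cfsg.Agent.S5393 Cfsg.Agent.S5548

theorem two_step (K : AddSubgroup (GolayPt → ℤ)) (κ : (GolayPt → ℤ) →+ ZMod 8)
    (h1 : ∀ x ∈ K, κ x = 0 ∨ κ x = 4) (h2 : ∃ x ∈ K, κ x = 4) :
    (K ⊓ κ.ker).index = 2 * K.index := by
  have hmap : ((K.map κ : AddSubgroup (ZMod 8)) : Set (ZMod 8)) = {0, 4} := by
    ext y
    rw [AddSubgroup.coe_map]
    constructor
    · rintro ⟨x, hx, rfl⟩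
      exact h1 x hx
    · rintro (rfl | rfl)
      · exact ⟨0, K.zero_mem, map_zero κ⟩
      · obtain ⟨x, hx, hx4⟩ := h2
        exact ⟨x, hx, hx4⟩
  have hcard : Nat.card (K.map κ) = 2 := by
    change Nat.card ((K.map κ : AddSubgroup (ZMod 8)) : Set (ZMod 8)) = 2
    rw [Nat.card_coe_set_eq, hmap, Set.ncard_pair (by decide)]
  have h3 : (K ⊓ κ.ker).relIndex K = 2 := by
    rw [AddSubgroup.inf_relIndex_left, AddSubgroup.relIndex_ker, hcard]
  rw [← AddSubgroup.relIndex_mul_index (inf_le_left : K ⊓ κ.ker ≤ K), h3]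

def C0 : Submodule (ZMod 2) (GolayPt → ZMod 2) :=
  golayCode ⊓ LinearMap.ker (LinearMap.proj none : (GolayPt → ZMod 2) →ₗ[ZMod 2] ZMod 2)

theorem mem_C0 (w : GolayPt → ZMod 2) : w ∈ C0 ↔ w ∈ golayCode ∧ w none = 0 := by
  unfold C0
  rw [Submodule.mem_inf, LinearMap.mem_ker]
  rfl

theorem finrank_C0 : Module.finrank (ZMod 2) C0 = 11 := by
  have h1 : RQ ≤ C0 := by
    intro w hw
    rw [mem_C0]
    refine ⟨RQ_le_golay hw, ?_⟩
    obtain ⟨u, rfl⟩ := hw
    rw [opQ_apply]
    have h : ∀ r : ZMod 23, u ((shift r).symm none) = u none := fun r => rfl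
    rw [Finset.sum_congr rfl (fun r _ => h r), Finset.sum_const, card_Q0]
    have key : ∀ a : ZMod 2, 12 • a = 0 := by decide
    exact key _
  have h2 : C0 < golayCode := by
    refine lt_of_le_of_ne inf_le_left (fun h => ?_)
    have h3 : (1 : GolayPt → ZMod 2) ∈ C0 := by
      rw [h]
      exact one_mem
    rw [mem_C0] at h3
    exact one_ne_zero h3.2
  have h3 := Submodule.finrank_lt_finrank_of_lt h2
  have h4 := finrank_golay_le
  have h5 := Submodule.finrank_mono h1
  have h6 := finrank_RQ_RR.1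
  omega

theorem card_C0 : Nat.card C0 = 2 ^ 11 := by
  rw [Module.natCard_eq_pow_finrank (K := ZMod 2), Nat.card_zmod, finrank_C0]

theorem lift_mod (c : GolayPt → ℤ) (i : GolayPt) : lift (red c) i % 2 = c i % 2 := by
  rcases lift_cases (red c) i with ⟨h1, h2⟩ | ⟨h1, h2⟩
  · rw [h2, (red_zero_iff c i).1 h1]
    rfl
  · rw [h2, (red_one_iff c i).1 h1]
    rfl

theorem lift_01 (u : GolayPt → ZMod 2) (i : GolayPt) : lift u i = 0 ∨ lift u i = 1 := by
  rcases lift_cases u i with ⟨_, h2⟩ | ⟨_, h2⟩
  · exact Or.inl h2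
  · exact Or.inr h2

theorem dbl_aux : ∀ a b : ℤ, (a = 0 ∨ a = 1) → (b = 0 ∨ b = 1) →
    ((2 * (a + b - 2 * (a * b)) : ℤ) : ZMod 4) = ((2 * a : ℤ) : ZMod 4) + ((2 * b : ℤ) : ZMod 4) := by
  rintro a b (rfl | rfl) (rfl | rfl) <;> decide

def dbl : (GolayPt → ZMod 2) →+ (ZMod 23 → ZMod 4) where
  toFun w := fun j => ((2 * lift w (some j) : ℤ) : ZMod 4)
  map_zero' := by
    funext j
    rw [lift_of_zero 0 (some j) rfl]
    rfl
  map_add' := by
    intro u v
    funext j
    rw [Pi.add_apply, lift_add]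
    exact dbl_aux _ _ (lift_01 u (some j)) (lift_01 v (some j))

theorem dbl_apply (w : GolayPt → ZMod 2) (j : ZMod 23) :
    dbl w j = ((2 * lift w (some j) : ℤ) : ZMod 4) := rfl

def tau : (GolayPt → ℤ) →+ (ZMod 23 → ZMod 4) where
  toFun x := fun j => ((x (some j) - x none : ℤ) : ZMod 4)
  map_zero' := by
    funext j
    simp
  map_add' := by
    intro x y
    funext j
    simp only [Pi.add_apply]
    push_cast
    ring

theorem tau_apply (x : GolayPt → ℤ) (j : ZMod 23) :
    tau x j = ((x (some j) - x none : ℤ) : ZMod 4) := rfl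

theorem tau_surj : Function.Surjective tau := by
  intro y
  refine ⟨fun p => match p with
    | none => 0
    | some j => ((y j).val : ℤ), ?_⟩
  funext j
  rw [tau_apply]
  simp

def Hsub : AddSubgroup (ZMod 23 → ZMod 4) := C0.toAddSubgroup.map dbl

theorem card_Hsub : Nat.card Hsub = 2 ^ 11 := by
  have hinj : Set.InjOn dbl (C0 : Set (GolayPt → ZMod 2)) := by
    intro u hu v hv huv
    have hu0 := ((mem_C0 u).1 hu).2
    have hv0 := ((mem_C0 v).1 hv).2
    funext p
    cases p with
    | none => rw [hu0, hv0]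
    | some j =>
      have h := congrFun huv j
      rw [dbl_apply, dbl_apply] at h
      rcases lift_cases u (some j) with ⟨h1, h2⟩ | ⟨h1, h2⟩ <;>
        rcases lift_cases v (some j) with ⟨h3, h4⟩ | ⟨h3, h4⟩
      · rw [h1, h3]
      · rw [h2, h4] at h
        exact absurd h (by decide)
      · rw [h2, h4] at h
        exact absurd h (by decide)
      · rw [h1, h3]
  change Nat.card ((Hsub : AddSubgroup (ZMod 23 → ZMod 4)) : Set (ZMod 23 → ZMod 4)) = 2 ^ 11
  unfold Hsub
  rw [AddSubgroup.coe_map, Nat.card_coe_set_eq]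
  change (dbl '' (C0 : Set (GolayPt → ZMod 2))).ncard = 2 ^ 11
  rw [Set.InjOn.ncard_image hinj, ← Nat.card_coe_set_eq]
  exact card_C0

def Fsub : AddSubgroup (GolayPt → ℤ) := Hsub.comap tau

theorem index_Fsub : Fsub.index = 2 ^ 35 := by
  unfold Fsub
  rw [AddSubgroup.index_comap_of_surjective _ tau_surj]
  have h := AddSubgroup.index_mul_card Hsub
  rw [card_Hsub, Nat.card_fun, Nat.card_zmod, Nat.card_zmod] at h
  have h2 : (4 : ℕ) ^ 23 = 2 ^ 35 * 2 ^ 11 := by norm_num
  rw [h2] at h
  exact Nat.eq_of_mul_eq_mul_right (by norm_num) h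

theorem mem_Fsub (x : GolayPt → ℤ) : x ∈ Fsub ↔ ∃ w ∈ golayCode, w none = 0 ∧
    ∀ j : ZMod 23, (x (some j) - x none) % 4 = 2 * lift w (some j) := by
  unfold Fsub Hsub
  rw [AddSubgroup.mem_comap, AddSubgroup.mem_map]
  constructor
  · rintro ⟨w, hw, e⟩
    have hw' := (mem_C0 w).1 hw
    refine ⟨w, hw'.1, hw'.2, fun j => ?_⟩
    have h := congrFun e j
    rw [dbl_apply, tau_apply, ZMod.intCast_eq_intCast_iff] at h
    have h2 : (2 * lift w (some j)) % 4 = (x (some j) - x none) % 4 := h
    rcases lift_01 w (some j) with h3 | h3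
    · rw [h3] at h2 ⊢
      omega
    · rw [h3] at h2 ⊢
      omega
  · rintro ⟨w, hw, hw0, h⟩
    refine ⟨w, (mem_C0 w).2 ⟨hw, hw0⟩, ?_⟩
    funext j
    rw [dbl_apply, tau_apply, ZMod.intCast_eq_intCast_iff]
    change (2 * lift w (some j)) % 4 = (x (some j) - x none) % 4
    rw [h j]
    rcases lift_01 w (some j) with h3 | h3
    · rw [h3]
      rfl
    · rw [h3]
      rfl

def kappa : (GolayPt → ℤ) →+ ZMod 8 where
  toFun x := ((∑ p, x p - 4 * x none : ℤ) : ZMod 8)
  map_zero' := by simp
  map_add' := by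
    intro x y
    simp only [Pi.add_apply, Finset.sum_add_distrib]
    push_cast
    ring

theorem kappa_apply (x : GolayPt → ℤ) : kappa x = ((∑ p, x p - 4 * x none : ℤ) : ZMod 8) := rfl

theorem kappa_zero_iff (x : GolayPt → ℤ) : kappa x = 0 ↔ (∑ p, x p) % 8 = (4 * x none) % 8 := by
  rw [kappa_apply, ZMod.intCast_zmod_eq_zero_iff_dvd]
  constructor
  · intro h
    have h2 : (8 : ℤ) ∣ ∑ p, x p - 4 * x none := h
    omega
  · intro h
    have h2 : (8 : ℤ) ∣ ∑ p, x p - 4 * x none := by omega
    exact h2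

theorem leech_eq_inf : leechLattice = Fsub ⊓ kappa.ker := by
  ext x
  rw [mem_leechLattice_iff, AddSubgroup.mem_inf, AddMonoidHom.mem_ker, kappa_zero_iff, mem_Fsub]
  constructor
  · rintro ⟨m, c, hc, hxc, hsum⟩
    constructor
    · refine ⟨red (fun p => c p - c none), ?_, ?_, fun j => ?_⟩
      · have e : red (fun p => c p - c none) =
            red c + ((c none : ℤ) : ZMod 2) • (1 : GolayPt → ZMod 2) := by
          funext p
          unfold red
          rw [Pi.add_apply, Pi.smul_apply, Pi.one_apply, smul_eq_mul, mul_one, Int.cast_sub]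
          have key : ∀ a b : ZMod 2, a - b = a + b := by decide
          exact key _ _
        rw [e]
        exact Submodule.add_mem _ hc (Submodule.smul_mem _ _ one_mem)
      · change ((c none - c none : ℤ) : ZMod 2) = 0
        rw [sub_self]
        rfl
      · have h1 := lift_mod (fun p => c p - c none) (some j)
        rw [hxc (some j), hxc none]
        rcases lift_01 (red (fun p => c p - c none)) (some j) with h3 | h3
        · rw [h3] at h1 ⊢
          have h4 : (c (some j) - c none) % 2 = 0 := by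
            rw [← h1]
            rfl
          omega
        · rw [h3] at h1 ⊢
          have h4 : (c (some j) - c none) % 2 = 1 := by
            rw [← h1]
            rfl
          omega
    · rw [hxc none]
      omega
  · rintro ⟨⟨w, hw, hw0, h⟩, hk⟩
    obtain ⟨c, hc⟩ : ∃ c : GolayPt → ℤ, c = fun p => (x p - x none) / 2 := ⟨_, rfl⟩
    have hc' : ∀ p, c p = (x p - x none) / 2 := fun p => by rw [hc]
    refine ⟨x none, c, ?_, ?_, hk⟩
    · have e : red c = w := by
        funext p
        cases p with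
        | none =>
          rw [hw0]
          apply (red_zero_iff c none).2
          rw [hc' none, sub_self]
          rfl
        | some j =>
          have h1 := h j
          rcases lift_cases w (some j) with ⟨h2, h3⟩ | ⟨h2, h3⟩
          · rw [h2]
            apply (red_zero_iff c (some j)).2
            rw [hc' (some j)]
            rw [h3] at h1
            omega
          · rw [h2]
            apply (red_one_iff c (some j)).2
            rw [hc' (some j)]
            rw [h3] at h1
            omega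
      rw [e]
      exact hw
    · intro p
      rw [hc' p]
      cases p with
      | none =>
        omega
      | some j =>
        have h1 := h j
        rcases lift_01 w (some j) with h3 | h3
        · rw [h3] at h1
          omega
        · rw [h3] at h1
          omega

theorem wt_C0 (w : GolayPt → ZMod 2) (hw0 : w none = 0) :
    wt w = ∑ j : ZMod 23, lift w (some j) := by
  rw [wt_split, lift_of_zero w none hw0, zero_add]

theorem sum_split (x : GolayPt → ℤ) :
    ∑ p, x p = 24 * x none + ∑ j : ZMod 23, (x (some j) - x none) := by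
  rw [Fintype.sum_option, Finset.sum_sub_distrib, Finset.sum_const, Finset.card_univ, ZMod.card]
  simp only [nsmul_eq_mul, Nat.cast_ofNat]
  ring

theorem kappa_Fsub (x : GolayPt → ℤ) (hx : x ∈ Fsub) : kappa x = 0 ∨ kappa x = 4 := by
  obtain ⟨w, hw, hw0, h⟩ := (mem_Fsub x).1 hx
  have h1 : (4 : ℤ) ∣ ∑ j : ZMod 23, ((x (some j) - x none) - 2 * lift w (some j)) := by
    apply Finset.dvd_sum
    intro j _
    have h2 := h j
    rcases lift_01 w (some j) with h3 | h3
    · rw [h3] at h2 ⊢
      omega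
    · rw [h3] at h2 ⊢
      omega
  rw [Finset.sum_sub_distrib, ← Finset.mul_sum, ← wt_C0 w hw0] at h1
  have h4 := four_dvd_wt w hw
  have h5 := sum_split x
  rcases Int.emod_two_eq_zero_or_one ((∑ p, x p - 4 * x none) / 4) with h6 | h6
  · left
    rw [kappa_apply, ZMod.intCast_zmod_eq_zero_iff_dvd]
    have h7 : (8 : ℤ) ∣ ∑ p, x p - 4 * x none := by omega
    exact h7
  · right
    rw [kappa_apply]
    have h7 : ((4 : ℤ) : ZMod 8) = 4 := rfl
    rw [← h7, ZMod.intCast_eq_intCast_iff]
    change (∑ p, x p - 4 * x none) % 8 = 4 % 8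
    omega

theorem kappa_four : ∃ x ∈ Fsub, kappa x = 4 := by
  refine ⟨Pi.single (some 0) 4, ?_, ?_⟩
  · rw [mem_Fsub]
    refine ⟨0, Submodule.zero_mem _, rfl, fun j => ?_⟩
    have e1 : (Pi.single (some 0) (4 : ℤ) : GolayPt → ℤ) none = 0 :=
      Pi.single_eq_of_ne (by simp) _
    rw [lift_of_zero 0 (some j) rfl, e1]
    by_cases hj : j = 0
    · rw [hj, Pi.single_eq_same]
      rfl
    · have e2 : (Pi.single (some 0) (4 : ℤ) : GolayPt → ℤ) (some j) = 0 :=
        Pi.single_eq_of_ne (by simpa using hj) _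
      rw [e2]
      rfl
  · have e1 : (Pi.single (some 0) (4 : ℤ) : GolayPt → ℤ) none = 0 :=
      Pi.single_eq_of_ne (by simp) _
    rw [kappa_apply, Finset.sum_pi_single', e1]
    simp

theorem index_leech : leechLattice.index = 2 ^ 36 := by
  rw [leech_eq_inf, two_step Fsub kappa kappa_Fsub kappa_four, index_Fsub]
  norm_num

end Cfsg.Agent.Lib.Helper9.Leech
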