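import Cfsg.Agent.Lib.Helper9.Max3

set_option autoImplicit false
open Cfsg

namespace Cfsg.Agent.Lib.Helper9.Leech

open scoped Pointwise
open Cfsg.Agent.S5393 Cfsg.Agent.S5548

theorem projInv_dM : projInv • bitsOf dM = bitsOf 16436384 :=
  stepT_smul projInv (genT.getD 3 []) proj_tbl' dM 16436384 (by decide +kernel)

theorem projInv_zero : projInv (some 0 : GolayPt) = none := rfl

theorem projInv_M24 : projInv ∈ M24 := Gcl_le (Subgroup.subset_closure (by simp))

theorem conj_m11 (g : Equiv.Perm GolayPt) (hg : g ∈ M24) (d : Finset GolayPt) (p : GolayPt) :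
    MulAut.conj g • (M24 ⊓ MulAction.stabilizer (Equiv.Perm GolayPt) d ⊓
      MulAction.stabilizer (Equiv.Perm GolayPt) p) =
    M24 ⊓ MulAction.stabilizer (Equiv.Perm GolayPt) (g • d) ⊓
      MulAction.stabilizer (Equiv.Perm GolayPt) (g p) := by
  ext k
  have h1 : (MulAut.conj g)⁻¹ • k = g⁻¹ * k * g := by
    rw [← map_inv, MulAut.smul_def, MulAut.conj_apply, inv_inv]
  rw [Subgroup.mem_pointwise_smul_iff_inv_smul_mem, h1]
  rw [Subgroup.mem_inf, Subgroup.mem_inf, Subgroup.mem_inf, Subgroup.mem_inf]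
  have e1 : g⁻¹ * k * g ∈ M24 ↔ k ∈ M24 := by
    constructor
    · intro h
      have h2 : k = g * (g⁻¹ * k * g) * g⁻¹ := by group
      rw [h2]
      exact mul_mem (mul_mem hg h) (inv_mem hg)
    · intro h
      exact mul_mem (mul_mem (inv_mem hg) h) hg
  have e2 : g⁻¹ * k * g ∈ MulAction.stabilizer (Equiv.Perm GolayPt) d ↔
      k ∈ MulAction.stabilizer (Equiv.Perm GolayPt) (g • d) := by
    rw [MulAction.mem_stabilizer_iff, MulAction.mem_stabilizer_iff, mul_smul, mul_smul,
      inv_smul_eq_iff]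
  have e3 : g⁻¹ * k * g ∈ MulAction.stabilizer (Equiv.Perm GolayPt) p ↔
      k ∈ MulAction.stabilizer (Equiv.Perm GolayPt) (g p) := by
    rw [MulAction.mem_stabilizer_iff, MulAction.mem_stabilizer_iff, mul_smul, mul_smul,
      inv_smul_eq_iff]
    rfl
  exact and_congr (and_congr e1 e2) e3

theorem stab_compl (d : Finset GolayPt) :
    MulAction.stabilizer (Equiv.Perm GolayPt) dᶜ = MulAction.stabilizer (Equiv.Perm GolayPt) d := by
  ext k
  rw [MulAction.mem_stabilizer_iff, MulAction.mem_stabilizer_iff, smul_compl', compl_inj_iff]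

theorem sqDod_compl : Finset.univ \ Spor.squareDodecad = (bitsOf dM)ᶜ := by
  rw [bitsOf_dM, Finset.compl_eq_univ_sdiff]

theorem m11_conj_proj : MulAut.conj projInv • Spor.M11 =
    Spor.M12 ⊓ MulAction.stabilizer (Equiv.Perm GolayPt) (none : GolayPt) := by
  unfold Spor.M11 Spor.M12
  rw [conj_m11 projInv projInv_M24, ← bitsOf_dM, projInv_dM, bitsOf_dMc, stab_compl, projInv_zero]

theorem zero_mem_dM : (some 0 : GolayPt) ∈ bitsOf dM := by
  rw [mem_bitsOf]
  decide +kernel

theorem none_nmem_dM : (none : GolayPt) ∉ bitsOf dM := by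
  rw [mem_bitsOf]
  decide +kernel

theorem five_nmem_dM : (some 5 : GolayPt) ∉ bitsOf dM := by
  rw [mem_bitsOf]
  decide +kernel

theorem seven_nmem_dM : (some 7 : GolayPt) ∉ bitsOf dM := by
  rw [mem_bitsOf]
  decide +kernel

theorem s5620 : Nonempty (↥(Spor.M12 ⊓ MulAction.stabilizer (Equiv.Perm GolayPt)
      (none : GolayPt)) ≃* ↥Spor.M11) ∧
    (¬ ∃ k ∈ Spor.M12, MulAut.conj k • Spor.M11 =
      Spor.M12 ⊓ MulAction.stabilizer (Equiv.Perm GolayPt) (none : GolayPt)) ∧
    ∃ g ∈ M24, g • Spor.squareDodecad = Finset.univ \ Spor.squareDodecad ∧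
      MulAut.conj g • Spor.M11 =
        Spor.M12 ⊓ MulAction.stabilizer (Equiv.Perm GolayPt) (none : GolayPt) := by
  refine ⟨?_, ?_, projInv, projInv_M24, ?_, m11_conj_proj⟩
  · rw [← m11_conj_proj]
    exact ⟨(Subgroup.equivSMul (MulAut.conj projInv) Spor.M11).symm⟩
  · rintro ⟨k, hk, hconj⟩
    have hkM : k ∈ M24 := hk.1
    have hkd : k • bitsOf dM = bitsOf dM := by
      rw [bitsOf_dM]
      exact MulAction.mem_stabilizer_iff.1 hk.2
    have hp : k (some 0) ∈ bitsOf dM := by
      rw [← hkd, mem_smul_iff]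
      exact zero_mem_dM
    obtain ⟨g, hg, hgd, hgp, hgx⟩ := m11_trans_d (bitsOf dM) dM_dodecad (k (some 0)) hp
      ⟨![none, some 5, some 7], by decide⟩ ⟨![some 5, none, some 7], by decide⟩
      (by
        intro i
        fin_cases i
        · exact none_nmem_dM
        · exact five_nmem_dM
        · exact seven_nmem_dM)
      (by
        intro i
        fin_cases i
        · exact five_nmem_dM
        · exact none_nmem_dM
        · exact seven_nmem_dM)
    have hmem : g ∈ MulAut.conj k • Spor.M11 := by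
      unfold Spor.M11 Spor.M12
      rw [conj_m11 k hkM, ← bitsOf_dM, hkd]
      exact ⟨⟨hg, MulAction.mem_stabilizer_iff.2 hgd⟩, MulAction.mem_stabilizer_iff.2 hgp⟩
    rw [hconj] at hmem
    have h1 : g none = none := MulAction.mem_stabilizer_iff.1 hmem.2
    have h2 : g none = some 5 := hgx 0
    rw [h1] at h2
    exact absurd h2 (by decide)
  · rw [← bitsOf_dM, projInv_dM, bitsOf_dMc, bitsOf_dM, Finset.compl_eq_univ_sdiff]

end Cfsg.Agent.Lib.Helper9.Leech
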