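import Cfsg.Agent.Lib.Helper9.Nrm
import Cfsg.Agent.Lib.Helper9.M22OutData

set_option autoImplicit false
open Cfsg

namespace Cfsg.Agent.Lib.Helper9.Leech

open scoped Pointwise
open Cfsg.Agent.S5393 Cfsg.Agent.S5548

set_option maxRecDepth 100000 in
theorem m22S_ok : slpChk m22S m22N = true := by decide +kernel

theorem m22_nodes : (Nat.blt m22KX m22N && Nat.beq (nodeTbl m22S m22KX) m22X) = true ∧
    (Nat.blt m22KY m22N && Nat.beq (nodeTbl m22S m22KY) m22Y) = true := by
  decide +kernel

theorem m22_ex (k T : ℕ) (h : (Nat.blt k m22N && Nat.beq (nodeTbl m22S k) T) = true) :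
    ∃ τ ∈ M24, TblP τ (tblOf T) := by
  rw [Bool.and_eq_true] at h
  rw [← Nat.eq_of_beq_eq_true h.2]
  exact slpChk_spec M24 (shift_mem 1) projInv_mem cubeTwist_mem m22S m22N m22S_ok _
    (Nat.le_of_ble_eq_true h.1)

theorem m22_rel : relOK m22X m22Rel = true := by decide +kernel

def passXY (t : ℕ) : Bool := passN m22X [1] t && passN m22Y [1] t

set_option maxRecDepth 100000 in
theorem srchXY : srch (locN m22X m22Rel [1]) passXY srLv 0 idN = 1 := by decide +kernel

/-- the two chosen elements of the two-point stabiliser have trivial common centraliser -/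
theorem cent_xy (x y : Equiv.Perm GolayPt) (hx : TblP x (tblOf m22X))
    (hy : TblP y (tblOf m22Y)) (c : Equiv.Perm GolayPt) (hc : c ∈ M24)
    (h1 : c * x = x * c) (h2 : c * y = y * c) : c = 1 := by
  have hcount : {c | c ∈ M24 ∧
      ((∃ i ∈ [1], c * x = x ^ i * c) ∧ (∃ i ∈ [1], c * y = y ^ i * c))}.ncard = 1 := by
    rw [← srchXY]
    apply m24_count (fun c => (∃ i ∈ [1], c * x = x ^ i * c) ∧ (∃ i ∈ [1], c * y = y ^ i * c))
      (locN m22X m22Rel [1]) passXY
    · intro g _ t hg
      unfold passXY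
      rw [Bool.and_eq_true, ← passN_iff x g m22X t hx hg, ← passN_iff y g m22Y t hy hg]
    · intro g _ hΦ d _ a hagree
      exact locN_sound x g m22X hx m22Rel m22_rel [1] hΦ.1 d a hagree
  obtain ⟨a, ha⟩ := Set.ncard_eq_one.1 hcount
  have m1 : (1 : Equiv.Perm GolayPt) ∈ {c | c ∈ M24 ∧
      ((∃ i ∈ [1], c * x = x ^ i * c) ∧ (∃ i ∈ [1], c * y = y ^ i * c))} :=
    ⟨one_mem _, ⟨1, by simp, by simp⟩, ⟨1, by simp, by simp⟩⟩
  have mc : c ∈ {c | c ∈ M24 ∧
      ((∃ i ∈ [1], c * x = x ^ i * c) ∧ (∃ i ∈ [1], c * y = y ^ i * c))} :=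
    ⟨hc, ⟨1, by simp, by simpa using h1⟩, ⟨1, by simp, by simpa using h2⟩⟩
  rw [ha] at m1 mc
  rw [Set.mem_singleton_iff] at m1 mc
  rw [mc, ← m1]

theorem mem_M22 (x : Equiv.Perm GolayPt) :
    x ∈ Spor.M22 ↔ x ∈ M24 ∧ x none = none ∧ x (some 0) = some 0 := by
  unfold Spor.M22 Spor.M23
  constructor
  · intro h
    have h1 := Subgroup.mem_inf.1 h
    have h2 := Subgroup.mem_inf.1 h1.1
    exact ⟨h2.1, h2.2, h1.2⟩
  · rintro ⟨h1, h2, h3⟩
    exact Subgroup.mem_inf.2 ⟨Subgroup.mem_inf.2 ⟨h1, h2⟩, h3⟩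

theorem s5599 (g : Equiv.Perm GolayPt) (hg : g ∈ M24) (h₁ : g none = some 0)
    (h₂ : g (some 0) = none) :
    Spor.M22.relIndex (M24 ⊓ MulAction.stabilizer (Equiv.Perm GolayPt)
      ({none, some 0} : Finset GolayPt)) = 2 ∧
    (∀ x ∈ Spor.M22, g * x * g⁻¹ ∈ Spor.M22) ∧
    ¬ ∃ h ∈ Spor.M22, ∀ x ∈ Spor.M22, g * x * g⁻¹ = h * x * h⁻¹ := by
  refine ⟨?_, ?_, ?_⟩
  · rw [Subgroup.relIndex_eq_two_iff]
    refine ⟨g, ?_, ?_⟩
    · rw [Subgroup.mem_inf]
      refine ⟨hg, ?_⟩
      rw [MulAction.mem_stabilizer_iff, Finset.smul_finset_insert, Finset.smul_finset_singleton]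
      change ({g none, g (some 0)} : Finset GolayPt) = _
      rw [h₁, h₂, Finset.pair_comm]
    · intro b hb
      rw [Subgroup.mem_inf] at hb
      obtain ⟨hbM, hbS⟩ := hb
      rw [MulAction.mem_stabilizer_iff] at hbS
      have hn : b none ∈ ({none, some 0} : Finset GolayPt) := by
        have : b • (none : GolayPt) ∈ b • ({none, some 0} : Finset GolayPt) :=
          Finset.smul_mem_smul_finset (by simp)
        rw [hbS] at this
        exact this
      have h0 : b (some 0) ∈ ({none, some 0} : Finset GolayPt) := by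
        have : b • (some 0 : GolayPt) ∈ b • ({none, some 0} : Finset GolayPt) :=
          Finset.smul_mem_smul_finset (by simp)
        rw [hbS] at this
        exact this
      rw [Finset.mem_insert, Finset.mem_singleton] at hn h0
      rw [mem_M22, mem_M22]
      rcases hn with hn | hn
      · have h0' : b (some 0) = some 0 := by
          rcases h0 with h0 | h0
          · exfalso
            have := b.injective (h0.trans hn.symm)
            exact absurd this (by simp)
          · exact h0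
        right
        refine ⟨⟨hbM, hn, h0'⟩, ?_⟩
        rintro ⟨_, h3, _⟩
        rw [Equiv.Perm.mul_apply, h₁, h0'] at h3
        exact absurd h3 (by simp)
      · have h0' : b (some 0) = none := by
          rcases h0 with h0 | h0
          · exact h0
          · exfalso
            have := b.injective (h0.trans hn.symm)
            exact absurd this (by simp)
        left
        refine ⟨⟨mul_mem hbM hg, ?_, ?_⟩, ?_⟩
        · rw [Equiv.Perm.mul_apply, h₁, h0']
        · rw [Equiv.Perm.mul_apply, h₂, hn]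
        · rintro ⟨_, h3, _⟩
          rw [hn] at h3
          exact absurd h3 (by simp)
  · intro x hx
    rw [mem_M22] at hx ⊢
    obtain ⟨hxM, hx1, hx2⟩ := hx
    refine ⟨conj_mem g x hg hxM, ?_, ?_⟩
    · have := conj_apply g x (some 0) (some 0) hx2
      rw [h₂] at this
      exact this
    · have := conj_apply g x none none hx1
      rw [h₁] at this
      exact this
  · rintro ⟨h, hh, hall⟩
    obtain ⟨x, hxM, hx⟩ := m22_ex m22KX m22X m22_nodes.1
    obtain ⟨y, hyM, hy⟩ := m22_ex m22KY m22Y m22_nodes.2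
    have hx22 : x ∈ Spor.M22 := by
      rw [mem_M22]
      refine ⟨hxM, ?_, ?_⟩
      · exact (tbl_fix_iff x m22X hx none).2 (by decide +kernel)
      · exact (tbl_fix_iff x m22X hx (some 0)).2 (by decide +kernel)
    have hy22 : y ∈ Spor.M22 := by
      rw [mem_M22]
      refine ⟨hyM, ?_, ?_⟩
      · exact (tbl_fix_iff y m22Y hy none).2 (by decide +kernel)
      · exact (tbl_fix_iff y m22Y hy (some 0)).2 (by decide +kernel)
    have hcx : ∀ z ∈ Spor.M22, (h⁻¹ * g) * z = z * (h⁻¹ * g) := by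
      intro z hz
      have e := hall z hz
      have e2 : g * z = h * z * h⁻¹ * g := by
        rw [← e]
        group
      calc h⁻¹ * g * z = h⁻¹ * (g * z) := by group
        _ = h⁻¹ * (h * z * h⁻¹ * g) := by rw [e2]
        _ = z * (h⁻¹ * g) := by group
    have hc1 := cent_xy x y hx hy (h⁻¹ * g) (mul_mem (inv_mem ((mem_M22 h).1 hh).1) hg)
      (hcx x hx22) (hcx y hy22)
    have hgh : g = h := by
      rw [inv_mul_eq_one] at hc1
      exact hc1.symm
    rw [hgh, ((mem_M22 h).1 hh).2.1] at h₁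
    exact absurd h₁ (by simp)

end Cfsg.Agent.Lib.Helper9.Leech
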