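import Cfsg.Agent.Lib.Helper9.M9A

set_option autoImplicit false
open Cfsg

namespace Cfsg.Agent.Lib.Helper9.Leech

open scoped Pointwise
open Cfsg.Agent.S5393 Cfsg.Agent.S5548

/-! ### generic Sylow lemmas for a group of order 72 -/

theorem fact72_3 : (72 : ℕ).factorization 3 = 2 := by
  have h : (72 : ℕ) = 2 ^ 3 * 3 ^ 2 := by norm_num
  rw [h, Nat.factorization_mul (by norm_num) (by norm_num), Finsupp.add_apply,
    Nat.Prime.factorization_pow Nat.prime_two, Nat.Prime.factorization_pow Nat.prime_three,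
    Finsupp.single_apply, Finsupp.single_apply]
  norm_num

theorem fact72_2 : (72 : ℕ).factorization 2 = 3 := by
  have h : (72 : ℕ) = 2 ^ 3 * 3 ^ 2 := by norm_num
  rw [h, Nat.factorization_mul (by norm_num) (by norm_num), Finsupp.add_apply,
    Nat.Prime.factorization_pow Nat.prime_two, Nat.Prime.factorization_pow Nat.prime_three,
    Finsupp.single_apply, Finsupp.single_apply]
  norm_num

theorem syl_data {G : Type*} [Group G] [Finite G] (h72 : Nat.card G = 72)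
    (hN : ∃ N : Subgroup G, N.Normal ∧ Nat.card N = 9 ∧ ∀ x ∈ N, x ^ 3 = 1)
    (hP : ∃ P0 : Subgroup G, Nat.card P0 = 8 ∧ Nonempty (↥P0 ≃* QuaternionGroup 2)) :
    (∀ Q : Sylow 3 G, (Q : Subgroup G).Normal ∧ Nat.card ↥Q = 9 ∧
      ∀ x ∈ (Q : Subgroup G), x ^ 3 = 1) ∧
    ∀ P : Sylow 2 G, Nonempty (↥P ≃* QuaternionGroup 2) := by
  haveI : Fact (Nat.Prime 3) := ⟨Nat.prime_three⟩
  haveI : Fact (Nat.Prime 2) := ⟨Nat.prime_two⟩
  constructor
  · intro Q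
    obtain ⟨N, hNn, hc, hx⟩ := hN
    have hc' : Nat.card N = 3 ^ (Nat.card G).factorization 3 := by
      rw [h72, fact72_3, hc]
      norm_num
    obtain ⟨g, hg⟩ := MulAction.exists_smul_eq G (Sylow.ofCard N hc') Q
    haveI : ((Sylow.ofCard N hc' : Sylow 3 G) : Subgroup G).Normal := hNn
    have hQ' : Q = Sylow.ofCard N hc' := by
      rw [← hg]
      exact Sylow.smul_eq_of_normal
    rw [hQ']
    exact ⟨hNn, hc, hx⟩
  · intro P
    obtain ⟨P0, hc, ⟨e⟩⟩ := hP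
    have hc' : Nat.card P0 = 2 ^ (Nat.card G).factorization 2 := by
      rw [h72, fact72_2, hc]
      norm_num
    exact ⟨(Sylow.equiv P (Sylow.ofCard P0 hc')).trans e⟩

theorem normal_exp_of_equiv {H H' : Type*} [Group H] [Group H'] (e : H ≃* H') (c k : ℕ)
    (h : ∃ N : Subgroup H, N.Normal ∧ Nat.card N = c ∧ ∀ x ∈ N, x ^ k = 1) :
    ∃ N : Subgroup H', N.Normal ∧ Nat.card N = c ∧ ∀ x ∈ N, x ^ k = 1 := by
  obtain ⟨N, hn, hc, hx⟩ := h
  refine ⟨N.map e.toMonoidHom, Subgroup.Normal.map hn _ e.surjective, ?_, ?_⟩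
  · rw [← hc]
    exact Nat.card_congr (N.equivMapOfInjective _ e.injective).toEquiv.symm
  · rintro _ ⟨y, hy, rfl⟩
    change e y ^ k = 1
    rw [← map_pow, hx y hy, map_one]

theorem sub_iso_of_equiv {H H' : Type*} [Group H] [Group H'] (e : H ≃* H') (c : ℕ)
    {Q : Type*} [Group Q] (h : ∃ P0 : Subgroup H, Nat.card P0 = c ∧ Nonempty (↥P0 ≃* Q)) :
    ∃ P0 : Subgroup H', Nat.card P0 = c ∧ Nonempty (↥P0 ≃* Q) := by
  obtain ⟨P0, hc, ⟨f⟩⟩ := h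
  refine ⟨P0.map e.toMonoidHom, ?_, ⟨(P0.equivMapOfInjective _ e.injective).symm.trans f⟩⟩
  rw [← hc]
  exact Nat.card_congr (P0.equivMapOfInjective _ e.injective).toEquiv.symm

theorem tbl_unique (g g' : Equiv.Perm GolayPt) (t : ℕ) (h : TblP g (tblOf t))
    (h' : TblP g' (tblOf t)) : g = g' := by
  apply Equiv.ext
  intro p
  apply idx_inj
  rw [TblP_idx g t h, TblP_idx g' t h']

/-! ### the base group: the stabiliser of the dodecad `dM` and the points 0, 1, 2 -/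

def InH (g : Equiv.Perm GolayPt) : Prop :=
  (∀ m ∈ [dM], g • bitsOf m = bitsOf m) ∧ ∀ p ∈ bitsOf 7, g p = p

def m9H : Subgroup ↥M24 :=
  MulAction.stabilizer ↥M24 (bitsOf dM) ⊓ MulAction.stabilizer ↥M24 (ptOf 0) ⊓
    MulAction.stabilizer ↥M24 (ptOf 1) ⊓ MulAction.stabilizer ↥M24 (ptOf 2)

theorem bits7 : bitsOf 7 = ([ptOf 0, ptOf 1, ptOf 2] : List GolayPt).toFinset := by
  rw [bitsOf_list]
  have h1 : (List.range 24).filter (fun j => (7 : ℕ).testBit j) = [0, 1, 2] := by decide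
  rw [h1]
  rfl

theorem ptfix7 (g : Equiv.Perm GolayPt) : (∀ p ∈ bitsOf 7, g p = p) ↔
    g (ptOf 0) = ptOf 0 ∧ g (ptOf 1) = ptOf 1 ∧ g (ptOf 2) = ptOf 2 := by
  rw [bits7]
  simp

theorem mem_m9H (x : ↥M24) : x ∈ m9H ↔ InH (x : Equiv.Perm GolayPt) := by
  unfold m9H InH
  rw [Subgroup.mem_inf, Subgroup.mem_inf, Subgroup.mem_inf, MulAction.mem_stabilizer_iff,
    MulAction.mem_stabilizer_iff, MulAction.mem_stabilizer_iff, MulAction.mem_stabilizer_iff,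
    ptfix7]
  constructor
  · rintro ⟨⟨⟨h1, h2⟩, h3⟩, h4⟩
    exact ⟨fun m hm => by
      rw [List.mem_singleton.1 hm]
      exact h1, h2, h3, h4⟩
  · rintro ⟨h1, h2, h3, h4⟩
    exact ⟨⟨⟨h1 dM (List.mem_singleton_self _), h2⟩, h3⟩, h4⟩

theorem dM_lt24 : ∀ m ∈ [dM], m < 2 ^ 24 := by decide

theorem m9_count (Θ : Equiv.Perm GolayPt → Prop) (θ : ℕ → Bool)
    (hθ : ∀ g t, TblP g (tblOf t) → (Θ g ↔ θ t = true)) :
    {g | g ∈ M24 ∧ ((∀ m ∈ [dM], g • bitsOf m = bitsOf m) ∧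
      ((∀ p ∈ bitsOf 7, g p = p) ∧ Θ g))}.ncard =
      srch (fun d a y => locM [dM] d a y && locPt 7 d a y)
        (fun t => passM [dM] t && (psPt 7 t && θ t)) srLv 0 idN :=
  masks_count' [dM] dM_lt24 (fun g => (∀ p ∈ bitsOf 7, g p = p) ∧ Θ g)
    (fun t => psPt 7 t && θ t)
    (fun g t hg => by
      rw [Bool.and_eq_true]
      exact and_congr (ptfix_iff g t hg 7) (hθ g t hg))
    (locPt 7) (fun g h d hd a => locPt_sound 7 g h.1 d hd a)

theorem card_m9H : Nat.card ↥m9H = 72 := by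
  rw [card_sub_eq m9H InH mem_m9H, ← srchM9, ← m9_count (fun _ => True) psT
    (fun _ _ _ => by simp [psT])]
  congr 1
  ext g
  constructor
  · rintro ⟨h1, h2, h3⟩
    exact ⟨h1, h2, h3, trivial⟩
  · rintro ⟨h1, h2, h3, _⟩
    exact ⟨h1, h2, h3⟩

theorem InH_conj (g n : Equiv.Perm GolayPt) (hg : InH g) (hn : InH n) : InH (g * n * g⁻¹) := by
  constructor
  · intro m hm
    have h1 : g⁻¹ • bitsOf m = bitsOf m := by rw [inv_smul_eq_iff, hg.1 m hm]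
    rw [mul_smul, mul_smul, h1, hn.1 m hm, hg.1 m hm]
  · intro p hp
    have h1 : g⁻¹ p = p := by rw [Equiv.Perm.inv_eq_iff_eq, hg.2 p hp]
    rw [Equiv.Perm.mul_apply, Equiv.Perm.mul_apply, h1, hn.2 p hp, hg.2 p hp]

/-! ### the normal Sylow 3-subgroup -/

def m9Nsub (y : Equiv.Perm GolayPt) : Subgroup ↥m9H where
  carrier := {x | Commute ((x : ↥M24) : Equiv.Perm GolayPt) y}
  mul_mem' := fun ha hb => Commute.mul_left ha hb
  one_mem' := Commute.one_left y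
  inv_mem' := fun ha => Commute.inv_left ha

theorem m9_normal : ∃ N : Subgroup ↥m9H, N.Normal ∧ Nat.card N = 9 ∧ ∀ x ∈ N, x ^ 3 = 1 := by
  obtain ⟨y, hyM, hyt⟩ := slpChk_spec M24 (shift_mem 1) projInv_mem cubeTwist_mem m9S m9N
    m9S_ok m9YK (by decide)
  rw [m9Y_tbl] at hyt
  have ca := m9_count (fun g => g * y = y * g) cmY (fun g t hg => comm_iff_tbl g y t m9Y hg hyt)
  rw [srchM9A] at ca
  have cb := m9_count (fun g => g * y = y * g ∧ g ^ 3 = 1) (fun t => cmY t && cu1 t)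
    (fun g t hg => by
      rw [Bool.and_eq_true]
      exact and_congr (comm_iff_tbl g y t m9Y hg hyt) (pow_iff_tbl g t 3 hg))
  rw [srchM9B] at cb
  have cc := m9_count (fun g => g ^ 3 = 1) cu1 (fun g t hg => pow_iff_tbl g t 3 hg)
  rw [srchM9C] at cc
  have hAB : ∀ g, (g ∈ M24 ∧ ((∀ m ∈ [dM], g • bitsOf m = bitsOf m) ∧
      ((∀ p ∈ bitsOf 7, g p = p) ∧ g * y = y * g))) → g ^ 3 = 1 := by
    apply imp_of_ncard
    rw [ca, ← cb]
    congr 1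
    ext g
    constructor
    · rintro ⟨⟨h1, h2, h3, h4⟩, h5⟩
      exact ⟨h1, h2, h3, h4, h5⟩
    · rintro ⟨h1, h2, h3, h4, h5⟩
      exact ⟨⟨h1, h2, h3, h4⟩, h5⟩
  have hCB : ∀ g, (g ∈ M24 ∧ ((∀ m ∈ [dM], g • bitsOf m = bitsOf m) ∧
      ((∀ p ∈ bitsOf 7, g p = p) ∧ g ^ 3 = 1))) → g * y = y * g := by
    apply imp_of_ncard
    rw [cc, ← cb]
    congr 1
    ext g
    constructor
    · rintro ⟨⟨h1, h2, h3, h4⟩, h5⟩
      exact ⟨h1, h2, h3, h5, h4⟩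
    · rintro ⟨h1, h2, h3, h4, h5⟩
      exact ⟨⟨h1, h2, h3, h5⟩, h4⟩
  refine ⟨m9Nsub y, ⟨?_⟩, ?_, ?_⟩
  · intro n hn g
    have hnH : InH ((n : ↥M24) : Equiv.Perm GolayPt) := (mem_m9H (n : ↥M24)).1 n.2
    have hgH : InH ((g : ↥M24) : Equiv.Perm GolayPt) := (mem_m9H (g : ↥M24)).1 g.2
    have hn3 : ((n : ↥M24) : Equiv.Perm GolayPt) ^ 3 = 1 :=
      hAB _ ⟨(n : ↥M24).2, hnH.1, hnH.2, hn⟩
    have hc := InH_conj _ _ hgH hnH
    have hsq : (((g : ↥M24) : Equiv.Perm GolayPt) * ((n : ↥M24) : Equiv.Perm GolayPt) *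
        ((g : ↥M24) : Equiv.Perm GolayPt)⁻¹) ^ 3 = 1 := by
      rw [conj_pow, hn3, mul_one, mul_inv_cancel]
    exact hCB _ ⟨mul_mem (mul_mem (g : ↥M24).2 (n : ↥M24).2) (inv_mem (g : ↥M24).2),
      hc.1, hc.2, hsq⟩
  · rw [← ca, ← Nat.card_coe_set_eq]
    apply Nat.card_congr
    exact
      { toFun := fun x => ⟨((x.1 : ↥M24) : Equiv.Perm GolayPt), (x.1 : ↥M24).2,
          ((mem_m9H (x.1 : ↥M24)).1 x.1.2).1, ((mem_m9H (x.1 : ↥M24)).1 x.1.2).2, x.2⟩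
        invFun := fun z => ⟨⟨⟨z.1, z.2.1⟩, (mem_m9H _).2 ⟨z.2.2.1, z.2.2.2.1⟩⟩, z.2.2.2.2⟩
        left_inv := fun _ => rfl
        right_inv := fun _ => rfl }
  · intro x hx
    have hxH : InH ((x : ↥M24) : Equiv.Perm GolayPt) := (mem_m9H (x : ↥M24)).1 x.2
    have h := hAB _ ⟨(x : ↥M24).2, hxH.1, hxH.2, hx⟩
    apply Subtype.ext
    apply Subtype.ext
    exact h

/-! ### the quaternion subgroup fixing a fourth point -/

def m8P : Subgroup ↥m9H where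
  carrier := {x | ((x : ↥M24) : Equiv.Perm GolayPt) (ptOf 3) = ptOf 3}
  mul_mem' := by
    intro a b ha hb
    change ((a : ↥M24) : Equiv.Perm GolayPt) (((b : ↥M24) : Equiv.Perm GolayPt) (ptOf 3)) = ptOf 3
    rw [hb, ha]
  one_mem' := rfl
  inv_mem' := by
    intro a ha
    change ((a : ↥M24) : Equiv.Perm GolayPt)⁻¹ (ptOf 3) = ptOf 3
    rw [Equiv.Perm.inv_eq_iff_eq]
    exact ha.symm

theorem fix3_iff (g : Equiv.Perm GolayPt) (t : ℕ) (hg : TblP g (tblOf t)) :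
    g (ptOf 3) = ptOf 3 ↔ Nat.beq (fld t 3) 3 = true := by
  rw [tbl_fix_iff g t hg, idx_ptOf 3 (by norm_num), beq_iff]

theorem card_m8P : Nat.card ↥m8P = 8 := by
  rw [← srchM8, ← m9_count (fun g => g (ptOf 3) = ptOf 3) (fun t => Nat.beq (fld t 3) 3)
    (fun g t hg => fix3_iff g t hg), ← Nat.card_coe_set_eq]
  apply Nat.card_congr
  exact
    { toFun := fun x => ⟨((x.1 : ↥M24) : Equiv.Perm GolayPt), (x.1 : ↥M24).2,
        ((mem_m9H (x.1 : ↥M24)).1 x.1.2).1, ((mem_m9H (x.1 : ↥M24)).1 x.1.2).2, x.2⟩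
      invFun := fun z => ⟨⟨⟨z.1, z.2.1⟩, (mem_m9H _).2 ⟨z.2.2.1, z.2.2.2.1⟩⟩, z.2.2.2.2⟩
      left_inv := fun _ => rfl
      right_inv := fun _ => rfl }

theorem q8_ex (k : ℕ) (hk : k < 8) : ∃ g ∈ M24, TblP g (tblOf (q8L.getD k 0)) := by
  have h := q8_nodes k hk
  rw [Bool.and_eq_true] at h
  rw [← Nat.eq_of_beq_eq_true h.2]
  exact slpChk_spec M24 (shift_mem 1) projInv_mem cubeTwist_mem m9S m9N m9S_ok _
    (Nat.le_of_ble_eq_true h.1)

theorem m8_iso : Nonempty (↥m8P ≃* QuaternionGroup 2) := by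
  have ex : ∀ u : QuaternionGroup 2, ∃ g : Equiv.Perm GolayPt,
      g ∈ M24 ∧ TblP g (tblOf (q8L.getD (q8code u) 0)) := fun u => by
    obtain ⟨g, hg, ht⟩ := q8_ex _ (q8_code_lt u)
    exact ⟨g, hg, ht⟩
  choose G hGM hGT using ex
  have hGin : ∀ u, InH (G u) ∧ G u (ptOf 3) = ptOf 3 := by
    intro u
    have h := q8_in _ (q8_code_lt u)
    rw [Bool.and_eq_true, Bool.and_eq_true] at h
    exact ⟨⟨(passM_iff [dM] dM_lt24 (G u) _ (hGT u)).2 h.1,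
      (ptfix_iff (G u) _ (hGT u) 7).2 h.2.1⟩, (fix3_iff (G u) _ (hGT u)).2 h.2.2⟩
  have hmul : ∀ u v, G (u * v) = G u * G v := by
    intro u v
    apply tbl_unique _ _ _ (hGT (u * v))
    rw [q8_mul u v]
    exact mulN_spec _ _ _ _ (hGT u) (hGT v)
  have e4 : ∀ u, fld (q8L.getD (q8code u) 0) 4 = idx (G u (ptOf 4)) := fun u => by
    rw [TblP_idx (G u) _ (hGT u), idx_ptOf 4 (by norm_num)]
  have hinj : Function.Injective G := by
    intro u v huv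
    apply q8_inj
    rw [e4 u, e4 v, huv]
  let f : QuaternionGroup 2 →* ↥m8P := MonoidHom.mk'
    (fun u => ⟨⟨⟨G u, hGM u⟩, (mem_m9H _).2 (hGin u).1⟩, (hGin u).2⟩)
    (fun u v => Subtype.ext (Subtype.ext (Subtype.ext (hmul u v))))
  have hf : Function.Bijective f := by
    rw [Nat.bijective_iff_injective_and_card]
    refine ⟨?_, ?_⟩
    · intro u v huv
      apply hinj
      exact congrArg (fun z : ↥m8P => (((z : ↥m9H) : ↥M24) : Equiv.Perm GolayPt)) huv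
    · rw [card_m8P, Nat.card_eq_fintype_card, QuaternionGroup.card]
  exact ⟨(MulEquiv.ofBijective f hf).symm⟩

/-! ### transfer to an arbitrary dodecad and three of its points -/

def M9Prop (H : Subgroup ↥M24) : Prop :=
  (∀ Q : Sylow 3 ↥H, (Q : Subgroup ↥H).Normal ∧ Nat.card ↥Q = 9 ∧
    ∀ x ∈ (Q : Subgroup ↥H), x ^ 3 = 1) ∧
  ∀ P : Sylow 2 ↥H, Nonempty (↥P ≃* QuaternionGroup 2)

theorem m9_map (c : ↥M24 →* ↥M24) (hc : Function.Injective c) : M9Prop (m9H.map c) := by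
  have e := m9H.equivMapOfInjective c hc
  exact syl_data (by rw [← Nat.card_congr e.toEquiv]; exact card_m9H)
    (normal_exp_of_equiv e 9 3 m9_normal) (sub_iso_of_equiv e 8 ⟨m8P, card_m8P, m8_iso⟩)

theorem m9_flag (d : Finset GolayPt) (hd : d ∈ dodecads) (p q r : GolayPt) (hp : p ∈ d)
    (hq : q ∈ d) (hr : r ∈ d) (hpq : p ≠ q) (hpr : p ≠ r) (hqr : q ≠ r) :
    ∃ σ ∈ M24, σ • bitsOf dM = d ∧ σ (ptOf 0) = p ∧ σ (ptOf 1) = q ∧ σ (ptOf 2) = r := by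
  obtain ⟨τ', hτ'⟩ := dodecads_trans (bitsOf dM) d dM_dodecad hd
  obtain ⟨τ, hτ, hτd⟩ : ∃ τ ∈ M24, τ • bitsOf dM = d := ⟨τ'.1, τ'.2, hτ'⟩
  have hmem : ∀ z ∈ d, τ⁻¹ z ∈ bitsOf dM := by
    intro z hz
    rw [smul_inv_mem, hτd]
    exact hz
  have hnd : ([τ⁻¹ p, τ⁻¹ q, τ⁻¹ r] : List GolayPt).Nodup := by
    simp [hpq, hpr, hqr]
  obtain ⟨g, hg, hgx⟩ := m12_to_base [τ⁻¹ p, τ⁻¹ q, τ⁻¹ r] hnd (by
    intro z hz
    simp only [List.mem_cons, List.not_mem_nil, or_false] at hz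
    rcases hz with rfl | rfl | rfl
    · exact hmem p hp
    · exact hmem q hq
    · exact hmem r hr) (by simp)
  have key : ∀ z : GolayPt, ∀ j : ℕ, g (τ⁻¹ z) = ptOf j → (τ * g⁻¹) (ptOf j) = z := by
    intro z j h
    rw [Equiv.Perm.mul_apply, ← h]
    change τ (g.symm (g (τ.symm z))) = z
    rw [Equiv.symm_apply_apply, Equiv.apply_symm_apply]
  refine ⟨τ * g⁻¹, Subgroup.mul_mem _ hτ (inv_mem hg.1), ?_, ?_, ?_, ?_⟩
  · have h1 : g⁻¹ • bitsOf dM = bitsOf dM := by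
      rw [inv_smul_eq_iff, hg.2.1 dM (List.mem_singleton_self _)]
    rw [mul_smul, h1, hτd]
  · exact key p 0 (hgx 0 (by simp))
  · exact key q 1 (hgx 1 (by simp))
  · exact key r 2 (hgx 2 (by simp))

theorem s5619 (d : Finset GolayPt) (hd : d ∈ dodecads) (p q r : GolayPt) (hp : p ∈ d)
    (hq : q ∈ d) (hr : r ∈ d) (hpq : p ≠ q) (hpr : p ≠ r) (hqr : q ≠ r) :
    M9Prop (MulAction.stabilizer ↥M24 d ⊓ MulAction.stabilizer ↥M24 p ⊓
      MulAction.stabilizer ↥M24 q ⊓ MulAction.stabilizer ↥M24 r) := by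
  obtain ⟨σ, hσ, rfl, rfl, rfl, rfl⟩ := m9_flag d hd p q r hp hq hr hpq hpr hqr
  have hinj : Function.Injective (MulAut.conj (⟨σ, hσ⟩ : ↥M24)).toMonoidHom :=
    (MulAut.conj (⟨σ, hσ⟩ : ↥M24)).injective
  have h := m9_map (MulAut.conj (⟨σ, hσ⟩ : ↥M24)).toMonoidHom hinj
  have e : MulAction.stabilizer ↥M24 (σ • bitsOf dM) ⊓ MulAction.stabilizer ↥M24 (σ (ptOf 0)) ⊓
      MulAction.stabilizer ↥M24 (σ (ptOf 1)) ⊓ MulAction.stabilizer ↥M24 (σ (ptOf 2)) =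
      m9H.map (MulAut.conj (⟨σ, hσ⟩ : ↥M24)).toMonoidHom := by
    unfold m9H
    rw [Subgroup.map_inf _ _ _ hinj, Subgroup.map_inf _ _ _ hinj, Subgroup.map_inf _ _ _ hinj,
      ← MulAction.stabilizer_smul_eq_stabilizer_map_conj,
      ← MulAction.stabilizer_smul_eq_stabilizer_map_conj,
      ← MulAction.stabilizer_smul_eq_stabilizer_map_conj,
      ← MulAction.stabilizer_smul_eq_stabilizer_map_conj]
    rfl
  rw [e]
  exact h

end Cfsg.Agent.Lib.Helper9.Leech
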