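import Cfsg.Agent.Lib.Helper9.M9Data
import Cfsg.Agent.Lib.Helper9.Sx6
import Cfsg.Agent.Lib.Helper9.M12

set_option autoImplicit false
open Cfsg

namespace Cfsg.Agent.Lib.Helper9.Leech

open scoped Pointwise
open Cfsg.Agent.S5393 Cfsg.Agent.S5548

/-! ### kernel checks for the three-point stabiliser of a dodecad -/

set_option maxRecDepth 100000 in
theorem m9S_ok : slpChk m9S m9N = true := by decide +kernel

set_option maxRecDepth 100000 in
theorem m9Y_tbl : nodeTbl m9S m9YK = m9Y := by decide +kernel

def cmY (t : ℕ) : Bool := all24 (fun i => Nat.beq (fld t (fld m9Y i)) (fld m9Y (fld t i)))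

def cu1 (t : ℕ) : Bool := all24 (fun i => Nat.beq (powFld t 3 i) i)

set_option maxRecDepth 100000 in
theorem srchM9 : srch (fun d a y => locM [dM] d a y && locPt 7 d a y)
    (fun t => passM [dM] t && (psPt 7 t && psT t)) srLv 0 idN = 72 := by decide +kernel

set_option maxRecDepth 100000 in
theorem srchM9A : srch (fun d a y => locM [dM] d a y && locPt 7 d a y)
    (fun t => passM [dM] t && (psPt 7 t && cmY t)) srLv 0 idN = 9 := by decide +kernel

set_option maxRecDepth 100000 in
theorem srchM9B : srch (fun d a y => locM [dM] d a y && locPt 7 d a y)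
    (fun t => passM [dM] t && (psPt 7 t && (cmY t && cu1 t))) srLv 0 idN = 9 := by decide +kernel

set_option maxRecDepth 100000 in
theorem srchM9C : srch (fun d a y => locM [dM] d a y && locPt 7 d a y)
    (fun t => passM [dM] t && (psPt 7 t && cu1 t)) srLv 0 idN = 9 := by decide +kernel

set_option maxRecDepth 100000 in
theorem srchM8 : srch (fun d a y => locM [dM] d a y && locPt 7 d a y)
    (fun t => passM [dM] t && (psPt 7 t && Nat.beq (fld t 3) 3)) srLv 0 idN = 8 := by
  decide +kernel

def q8code : QuaternionGroup 2 → ℕ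
  | .a i => i.val
  | .xa i => 4 + i.val

set_option maxRecDepth 100000 in
theorem q8_mul : ∀ u v : QuaternionGroup 2, q8L.getD (q8code (u * v)) 0 =
    mulN (q8L.getD (q8code u) 0) (q8L.getD (q8code v) 0) := by decide +kernel

set_option maxRecDepth 100000 in
theorem q8_inj : ∀ u v : QuaternionGroup 2,
    fld (q8L.getD (q8code u) 0) 4 = fld (q8L.getD (q8code v) 0) 4 → u = v := by decide +kernel

theorem q8_code_lt : ∀ u : QuaternionGroup 2, q8code u < 8 := by decide +kernel

set_option maxRecDepth 100000 in
theorem q8_nodes : ∀ k < 8, (Nat.blt (q8K.getD k 0) m9N &&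
    Nat.beq (nodeTbl m9S (q8K.getD k 0)) (q8L.getD k 0)) = true := by decide +kernel

set_option maxRecDepth 100000 in
theorem q8_in : ∀ k < 8, (passM [dM] (q8L.getD k 0) && (psPt 7 (q8L.getD k 0) &&
    Nat.beq (fld (q8L.getD k 0) 3) 3)) = true := by decide +kernel

end Cfsg.Agent.Lib.Helper9.Leech
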