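import Cfsg.Agent.Lib.Helper9.RankA
import Cfsg.Agent.Lib.Helper9.Code2

set_option autoImplicit false
open Cfsg

namespace Cfsg.Agent.Lib.Helper9.Leech

open scoped Pointwise
open Cfsg.Agent.S5393 Cfsg.Agent.S5548

/-- an octad and a subset of at most four of its points can be moved to the base octad and an
initial segment of the base points -/
theorem oct_flag_sub (o : Finset GolayPt) (ho : o ∈ octads) (s : Finset GolayPt) (hs : s ⊆ o)
    (k : ℕ) (hk : k ≤ 4) (hc : s.card = k) :
    ∃ σ ∈ M24, σ • bitsOf octO = o ∧ σ • ((List.range k).map ptOf).toFinset = s := by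
  obtain ⟨σ1, hσ1, hσo, _⟩ := oct_to_octO o ho
  have hlen : (σ1⁻¹ • s).toList.length = k := by
    rw [Finset.length_toList, Finset.card_smul_finset, hc]
  obtain ⟨g, hg, hgx⟩ := cchain_trans rkOctChT rkOctChT_valid [octO] octB rkOctCh rkOct_chain 0 0
    (σ1⁻¹ • s).toList (Finset.nodup_toList _) (by rw [hlen]; simp [octB]; omega) (by
      intro i _ hi
      have hi' : i < 4 := by rw [hlen] at hi; omega
      intro m hm
      rw [List.mem_singleton] at hm
      rw [hm]
      interval_cases i <;> decide +kernel) (by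
      intro x hx
      rw [Finset.mem_toList, inv_smul_mem_iff] at hx
      apply inCell_in
      have h1 := hs hx
      rw [← hσo, mem_smul_iff] at h1
      exact h1) (by simp) k (by rw [hlen])
  obtain ⟨h1, h2, _⟩ := flag_step σ1 g hσ1 _ hg o hσo
  refine ⟨σ1 * g⁻¹, h1, h2, ?_⟩
  have h3 : g • (σ1⁻¹ • s).toList.toFinset = ((List.range k).map ptOf).toFinset := by
    apply smul_toFinset g _ _ (by rw [hlen]; simp)
    intro i hi
    have hik : i < k := by rw [hlen] at hi; exact hi
    rw [hgx i hi hik]
    have hi4 : i < 4 := by omega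
    rw [List.getElem_map, List.getElem_range]
    interval_cases i <;> rfl
  rw [← h3, Finset.toList_toFinset, mul_smul, inv_smul_smul, smul_inv_smul]

theorem oct_sub_count (σ : Equiv.Perm GolayPt) (hσ : σ ∈ M24) (a : ℕ) (ha : a < 2 ^ 24) :
    {o' : Finset GolayPt | o' ∈ octads ∧ σ • bitsOf octO ∩ o' = σ • bitsOf a}.ncard =
      (octL.filter (fun m => Nat.beq (octO &&& m) a)).length := by
  rw [ncard_conj σ {o' | o' ∈ octads ∧ bitsOf octO ∩ o' = bitsOf a} _ (by
    intro s
    simp only [Set.mem_ofPred_eq]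
    rw [octads_smul_iff σ hσ, ← Finset.smul_finset_inter, smul_left_cancel_iff])]
  exact ncard_fam octads octL mem_octads octL_lt octL_sorted
    (fun o' => bitsOf octO ∩ o' = bitsOf a) _ (by
      intro n _
      rw [bitsOf_and, beq_iff]
      constructor
      · intro h
        exact bitsOf_inj _ _ (land_lt _ _ (by decide)) ha h
      · intro h
        rw [h])

set_option maxRecDepth 100000 in
theorem oct_sub_2 : (octL.filter (fun m => Nat.beq (octO &&& m) 3)).length = 16 := by
  decide +kernel

set_option maxRecDepth 100000 in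
theorem oct_sub_4 : (octL.filter (fun m => Nat.beq (octO &&& m) 15)).length = 4 := by
  decide +kernel

theorem bitsOf_3 : bitsOf 3 = ((List.range 2).map ptOf).toFinset := by
  rw [bitsOf_list]
  rfl

theorem bitsOf_15 : bitsOf 15 = ((List.range 4).map ptOf).toFinset := by
  rw [bitsOf_list]
  rfl

theorem s1555 (o : Finset GolayPt) (ho : o ∈ octads) (s : Finset GolayPt) (hs : s ⊆ o) :
    (s.card = 2 → {o' : Finset GolayPt | o' ∈ octads ∧ o ∩ o' = s}.ncard = 16) ∧
    (s.card = 4 → {o' : Finset GolayPt | o' ∈ octads ∧ o ∩ o' = s}.ncard = 4) := by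
  constructor
  · intro hc
    obtain ⟨σ, hσ, hσo, hσs⟩ := oct_flag_sub o ho s hs 2 (by norm_num) hc
    rw [← bitsOf_3] at hσs
    subst hσo hσs
    rw [oct_sub_count σ hσ 3 (by norm_num), oct_sub_2]
  · intro hc
    obtain ⟨σ, hσ, hσo, hσs⟩ := oct_flag_sub o ho s hs 4 (by norm_num) hc
    rw [← bitsOf_15] at hσs
    subst hσo hσs
    rw [oct_sub_count σ hσ 15 (by norm_num), oct_sub_4]

end Cfsg.Agent.Lib.Helper9.Leech
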