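import Cfsg.Agent.Lib.Helper9.OrbFin
import Cfsg.Agent.Lib.Helper9.CfgSextOct
import Cfsg.Agent.Lib.Helper9.CfgSextTrio

set_option autoImplicit false
open Cfsg

namespace Cfsg.Agent.Lib.Helper9.Leech

open scoped Pointwise
open Cfsg.Agent.S5393 Cfsg.Agent.S5548

theorem cfSextA_eq : cfSextA = codeAt 6 sextLE 0 := by decide +kernel

theorem sext_to_base (S : Finset (Finset GolayPt)) (hS : S ∈ sextets) :
    ∃ σ ∈ M24, σ • semK 6 cfSextA = S := by
  obtain ⟨i, hi, rfl⟩ := (mem_sextets S).1 hS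
  rw [cfSextA_eq]
  exact sext_orbit i hi

theorem sext_orbspec (S : Finset (Finset GolayPt)) (hS : S ∈ sextets) :
    OrbSpec S (octads : Set (Finset GolayPt)) [15, 360, 384] ∧
      OrbSpec S trios [15, 180, 720, 2880] := by
  obtain ⟨σ, hσ, rfl⟩ := sext_to_base S hS
  exact ⟨OrbSpec_conj σ hσ _ _ (fun g hg X hX => octads_smul g hg X hX) _
      (OrbSpec_single _ _ cfSextOct_spec),
    OrbSpec_conj σ hσ _ _ trios_cl _ cfSextTrio_spec⟩

end Cfsg.Agent.Lib.Helper9.Leech
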