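import Cfsg.Agent.Lib.Helper9.Cm
import Cfsg.Agent.Lib.Helper9.Orb5611
import Cfsg.Agent.Lib.Helper9.CfgSextSext

set_option autoImplicit false
open Cfsg

namespace Cfsg.Agent.Lib.Helper9.Leech

open scoped Pointwise
open Cfsg.Agent.S5393 Cfsg.Agent.S5548

theorem sext_core : ∀ K : Subgroup (Equiv.Perm GolayPt),
    (∀ h ∈ M24, h • semK 6 cfSextA = semK 6 cfSextA → h ∈ K) →
      (∃ k ∈ K, k ∈ M24 ∧ k • semK 6 cfSextA ≠ semK 6 cfSextA) → M24 ≤ K := by
  apply orb_coreB (semK 6 cfSextA) [semK 6 (codeAt 6 sextLE 13), semK 6 (codeAt 6 sextLE 1),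
    semK 6 (codeAt 6 sextLE 7)]
  · intro k hk hkB
    have hmem : k • semK 6 cfSextA ∈ sextets := sextets_smul k hk _ (by
      rw [cfSextA_eq]
      exact sext0_mem)
    obtain ⟨rv, hrv, hs⟩ := orbit_reps (semK 6 cfSextA) sextets 6 sextLE 1771 mem_sextets cfS cfN
      cfS_ok 6 cfSextA rfl (0, 5517840) cfSextKH cfSext_k cfSextSextE 216 cfSextSext_tree
      cfSextSext_codes cfSextSextRoots cfSextSext_roots _ hmem
    unfold cfSextSextRoots at hrv
    simp only [List.mem_cons, List.not_mem_nil, or_false] at hrv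
    rcases hrv with rfl | rfl | rfl | rfl
    · exfalso
      apply hkB
      change SR (semK 6 cfSextA) (semK 6 (codeAt 6 sextLE 0)) (k • semK 6 cfSextA) at hs
      rw [← cfSextA_eq] at hs
      exact (SR_self _ _).1 hs
    · exact ⟨_, by simp, hs⟩
    · exact ⟨_, by simp, hs⟩
    · exact ⟨_, by simp, hs⟩
  · intro Y hY
    simp only [List.mem_cons, List.not_mem_nil, or_false] at hY
    rcases hY with rfl | rfl | rfl
    · exact cmSext_g13
    · exact cmSext_g1
    · exact cmSext_g7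

theorem sext_hne : ∃ g ∈ M24, g • semK 6 cfSextA ≠ semK 6 cfSextA := by
  obtain ⟨r, hr, hrB, _⟩ := cmSext_g13
  refine ⟨r, hr, ?_⟩
  rw [hrB, cfSextA_eq]
  intro h
  exact absurd (fam_inj 6 sextLE 1771 sext_fam 13 0 (by decide) (by decide) h) (by decide)

theorem s1552 (S : Finset (Finset GolayPt)) (hS : S ∈ sextets) :
    ∃ X₁ ∈ sextets, ∃ X₂ ∈ sextets, ∃ X₃ ∈ sextets,
      (MulAction.orbit (MulAction.stabilizer M24 S) X₁).ncard = 90 ∧
      (MulAction.orbit (MulAction.stabilizer M24 S) X₂).ncard = 240 ∧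
      (MulAction.orbit (MulAction.stabilizer M24 S) X₃).ncard = 1440 ∧
      sextets = {S} ∪ MulAction.orbit (MulAction.stabilizer M24 S) X₁ ∪
        MulAction.orbit (MulAction.stabilizer M24 S) X₂ ∪
        MulAction.orbit (MulAction.stabilizer M24 S) X₃ ∧
      IsCoatom (MulAction.stabilizer M24 S) := by
  obtain ⟨σ, hσ, rfl⟩ := sext_to_base S hS
  obtain ⟨X1, hX1, X2, hX2, X3, hX3, e1, e2, e3, e4⟩ := orb1_3 (σ • semK 6 cfSextA) sextets hS
    90 240 1440 (by decide) (by decide) (by decide)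
    (OrbSpec_conj σ hσ _ _ sextets_cl _ cfSextSext_spec)
  exact ⟨X1, hX1, X2, hX2, X3, hX3, e1, e2, e3, e4,
    coatom_conj (semK 6 cfSextA) σ hσ _ (fun g => MulAction.mem_stabilizer_iff) sext_hne
      sext_core⟩

end Cfsg.Agent.Lib.Helper9.Leech
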