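import Cfsg.Agent.Lib.Helper9.OrbFin
import Cfsg.Agent.Lib.Helper9.CfgTrioOct
import Cfsg.Agent.Lib.Helper9.CfgTrioSext

set_option autoImplicit false
open Cfsg

namespace Cfsg.Agent.Lib.Helper9.Leech

open scoped Pointwise
open Cfsg.Agent.S5393 Cfsg.Agent.S5548

theorem cfTrioA_eq : cfTrioA = codeAt 3 trioLE 0 := by decide +kernel

theorem trio_to_base (T : Finset (Finset GolayPt)) (hT : T ∈ trios) :
    ∃ σ ∈ M24, σ • semK 3 cfTrioA = T := by
  obtain ⟨i, hi, rfl⟩ := (mem_trios T).1 hT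
  rw [cfTrioA_eq]
  exact trio_orbit i hi

theorem trio_orbspec (T : Finset (Finset GolayPt)) (hT : T ∈ trios) :
    OrbSpec T (octads : Set (Finset GolayPt)) [3, 84, 672] ∧
      OrbSpec T sextets [7, 84, 336, 1344] := by
  obtain ⟨σ, hσ, rfl⟩ := trio_to_base T hT
  exact ⟨OrbSpec_conj σ hσ _ _ (fun g hg X hX => octads_smul g hg X hX) _
      (OrbSpec_single _ _ cfTrioOct_spec),
    OrbSpec_conj σ hσ _ _ sextets_cl _ cfTrioSext_spec⟩

end Cfsg.Agent.Lib.Helper9.Leech
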