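import Cfsg.Agent.Lib.Helper9.Cm
import Cfsg.Agent.Lib.Helper9.Orb5612
import Cfsg.Agent.Lib.Helper9.CfgTrioTrio

set_option autoImplicit false
open Cfsg

namespace Cfsg.Agent.Lib.Helper9.Leech

open scoped Pointwise
open Cfsg.Agent.S5393 Cfsg.Agent.S5548

theorem trio_core : ∀ K : Subgroup (Equiv.Perm GolayPt),
    (∀ h ∈ M24, h • semK 3 cfTrioA = semK 3 cfTrioA → h ∈ K) →
      (∃ k ∈ K, k ∈ M24 ∧ k • semK 3 cfTrioA ≠ semK 3 cfTrioA) → M24 ≤ K := by
  apply orb_coreB (semK 3 cfTrioA) [semK 3 (codeAt 3 trioLE 1), semK 3 (codeAt 3 trioLE 16),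
    semK 3 (codeAt 3 trioLE 17), semK 3 (codeAt 3 trioLE 30)]
  · intro k hk hkB
    have hmem : k • semK 3 cfTrioA ∈ trios := trios_smul k hk _ (by
      rw [cfTrioA_eq]
      exact trio0_mem)
    obtain ⟨rv, hrv, hs⟩ := orbit_reps (semK 3 cfTrioA) trios 3 trioLE 3795 mem_trios cfS cfN
      cfS_ok 3 cfTrioA rfl (0, 528) cfTrioKH cfTrio_k cfTrioTrioE 132 cfTrioTrio_tree
      cfTrioTrio_codes cfTrioTrioRoots cfTrioTrio_roots _ hmem
    unfold cfTrioTrioRoots at hrv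
    simp only [List.mem_cons, List.not_mem_nil, or_false] at hrv
    rcases hrv with rfl | rfl | rfl | rfl | rfl
    · exfalso
      apply hkB
      change SR (semK 3 cfTrioA) (semK 3 (codeAt 3 trioLE 0)) (k • semK 3 cfTrioA) at hs
      rw [← cfTrioA_eq] at hs
      exact (SR_self _ _).1 hs
    · exact ⟨_, by simp, hs⟩
    · exact ⟨_, by simp, hs⟩
    · exact ⟨_, by simp, hs⟩
    · exact ⟨_, by simp, hs⟩
  · intro Y hY
    simp only [List.mem_cons, List.not_mem_nil, or_false] at hY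
    rcases hY with rfl | rfl | rfl | rfl
    · exact cmTrio_g1
    · exact cmTrio_g16
    · exact cmTrio_g17
    · exact cmTrio_g30

theorem trio_hne : ∃ g ∈ M24, g • semK 3 cfTrioA ≠ semK 3 cfTrioA := by
  obtain ⟨r, hr, hrB, _⟩ := cmTrio_g1
  refine ⟨r, hr, ?_⟩
  rw [hrB, cfTrioA_eq]
  intro h
  exact absurd (fam_inj 3 trioLE 3795 trio_fam 1 0 (by decide) (by decide) h) (by decide)

theorem s1559 (T : Finset (Finset GolayPt)) (hT : T ∈ trios) :
    ∃ X₁ ∈ trios, ∃ X₂ ∈ trios, ∃ X₃ ∈ trios, ∃ X₄ ∈ trios,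
      (MulAction.orbit (MulAction.stabilizer M24 T) X₁).ncard = 42 ∧
      (MulAction.orbit (MulAction.stabilizer M24 T) X₂).ncard = 56 ∧
      (MulAction.orbit (MulAction.stabilizer M24 T) X₃).ncard = 1008 ∧
      (MulAction.orbit (MulAction.stabilizer M24 T) X₄).ncard = 2688 ∧
      trios = {T} ∪ MulAction.orbit (MulAction.stabilizer M24 T) X₁ ∪
        MulAction.orbit (MulAction.stabilizer M24 T) X₂ ∪
        MulAction.orbit (MulAction.stabilizer M24 T) X₃ ∪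
        MulAction.orbit (MulAction.stabilizer M24 T) X₄ ∧
      IsCoatom (MulAction.stabilizer M24 T) := by
  obtain ⟨σ, hσ, rfl⟩ := trio_to_base T hT
  obtain ⟨X1, hX1, X2, hX2, X3, hX3, X4, hX4, e1, e2, e3, e4, e5⟩ :=
    orb1_4 (σ • semK 3 cfTrioA) trios hT 42 56 1008 2688 (by decide) (by decide) (by decide)
      (by decide) (OrbSpec_conj σ hσ _ _ trios_cl _ cfTrioTrio_spec)
  exact ⟨X1, hX1, X2, hX2, X3, hX3, X4, hX4, e1, e2, e3, e4, e5,
    coatom_conj (semK 3 cfTrioA) σ hσ _ (fun g => MulAction.mem_stabilizer_iff) trio_hne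
      trio_core⟩

end Cfsg.Agent.Lib.Helper9.Leech
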