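import Cfsg.Agent.Lib.Helper9.OrbFin
import Cfsg.Agent.Lib.Helper9.CfgOctTrio
import Cfsg.Agent.Lib.Helper9.CfgOctSext

set_option autoImplicit false
open Cfsg

namespace Cfsg.Agent.Lib.Helper9.Leech

open scoped Pointwise
open Cfsg.Agent.S5393 Cfsg.Agent.S5548

theorem oct_orbspec (o : Finset GolayPt) (ho : o ∈ octads) :
    OrbSpec o trios [15, 420, 3360] ∧ OrbSpec o sextets [35, 840, 896] := by
  obtain ⟨σ, hσ, hσo, _⟩ := oct_to_octO o ho
  subst hσo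
  exact ⟨OrbSpec_conj σ hσ _ _ trios_cl _ (OrbSpec_congr _ _ cfOct_base _ _ cfOctTrio_spec),
    OrbSpec_conj σ hσ _ _ sextets_cl _ (OrbSpec_congr _ _ cfOct_base _ _ cfOctSext_spec)⟩

end Cfsg.Agent.Lib.Helper9.Leech
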