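import Cfsg.Agent.Lib.Helper9.OrbFin
import Cfsg.Agent.Lib.Helper9.CfgTriSext

set_option autoImplicit false
open Cfsg

namespace Cfsg.Agent.Lib.Helper9.Leech

open scoped Pointwise
open Cfsg.Agent.S5393 Cfsg.Agent.S5548

theorem pinv_nz (Y : Finset GolayPt) (S : Finset (Finset GolayPt)) :
    pinv nzN {Y} S = (S.filter fun t => (t ∩ Y).Nonempty).card := by
  unfold pinv
  rw [Finset.sum_singleton, Finset.card_filter]
  apply Finset.sum_congr rfl
  intro u _
  rw [Finset.inter_comm]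
  by_cases h : (u ∩ Y).Nonempty
  · rw [if_pos h]
    have h1 : (u ∩ Y).card ≠ 0 := Finset.card_ne_zero.2 h
    unfold nzN
    have h2 : Nat.beq (u ∩ Y).card 0 = false := by
      cases h3 : Nat.beq (u ∩ Y).card 0 with
      | false => rfl
      | true => exact absurd (Nat.eq_of_beq_eq_true h3) h1
    rw [h2]
    rfl
  · rw [if_neg h]
    have h1 : (u ∩ Y).card = 0 := by
      rw [Finset.card_eq_zero]
      exact Finset.not_nonempty_iff_eq_empty.1 h
    rw [h1]
    rfl

theorem cfTri_base : semK 1 cfTriA = {bitsOf 8388611} := semK_one 8388611 (by decide)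

theorem sextets_smul_iff (σ : Equiv.Perm GolayPt) (hσ : σ ∈ M24) (S : Finset (Finset GolayPt)) :
    σ • S ∈ sextets ↔ S ∈ sextets := by
  constructor
  · intro h
    have h1 := sextets_smul σ⁻¹ (inv_mem hσ) _ h
    rw [inv_smul_smul] at h1
    exact h1
  · exact sextets_smul σ hσ S

theorem tri_count (σ : Equiv.Perm GolayPt) (hσ : σ ∈ M24) (r v n : ℕ)
    (hrv : (r, v) ∈ cfTriSextRoots) (hn : cntRoot 6 cfTriSextE 216 1771 r = n) :
    {S : Finset (Finset GolayPt) | S ∈ sextets ∧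
      (S.filter fun t => (t ∩ σ • bitsOf 8388611).Nonempty).card = v}.ncard = n := by
  have h1 := cfTriSext_all.2.1 (r, v) hrv
  rw [cfTri_base, hn] at h1
  rw [← h1]
  apply ncard_conj σ
  intro S
  simp only [Set.mem_ofPred_eq]
  rw [sextets_smul_iff σ hσ, ← pinv_nz, ← Finset.smul_finset_singleton, pinv_smul]

set_option maxRecDepth 100000 in
theorem tri_cnt0 : cntRoot 6 cfTriSextE 216 1771 0 = 21 := by decide +kernel

set_option maxRecDepth 100000 in
theorem tri_cnt2 : cntRoot 6 cfTriSextE 216 1771 2 = 630 := by decide +kernel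

set_option maxRecDepth 100000 in
theorem tri_cnt9 : cntRoot 6 cfTriSextE 216 1771 9 = 1120 := by decide +kernel

theorem s5616 (Y : Finset GolayPt) (hY : Y.card = 3) :
    {S : Finset (Finset GolayPt) | S ∈ sextets ∧
      (S.filter fun t => (t ∩ Y).Nonempty).card = 1}.ncard = 21 ∧
    {S : Finset (Finset GolayPt) | S ∈ sextets ∧
      (S.filter fun t => (t ∩ Y).Nonempty).card = 2}.ncard = 630 ∧
    {S : Finset (Finset GolayPt) | S ∈ sextets ∧
      (S.filter fun t => (t ∩ Y).Nonempty).card = 3}.ncard = 1120 ∧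
    ∀ S S' : Finset (Finset GolayPt), S ∈ sextets → S' ∈ sextets →
      (S.filter fun t => (t ∩ Y).Nonempty).card = (S'.filter fun t => (t ∩ Y).Nonempty).card →
      ∃ g ∈ M24, g • Y = Y ∧ g • S = S' := by
  obtain ⟨x, y, z, hxy, hxz, hyz, rfl⟩ := Finset.card_eq_three.1 hY
  obtain ⟨σ, hσ, h1, h2, h3⟩ := trans3 (ptOf 23) (ptOf 0) (ptOf 1) x y z (by decide) (by decide)
    (by decide) hxy hxz hyz
  have hσT : σ • bitsOf 8388611 = {x, y, z} := by
    rw [bitsOf_T0, Finset.smul_finset_insert, Finset.smul_finset_insert,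
      Finset.smul_finset_singleton]
    change ({σ (ptOf 23), σ (ptOf 0), σ (ptOf 1)} : Finset GolayPt) = _
    rw [h1, h2, h3]
  rw [← hσT]
  refine ⟨tri_count σ hσ 0 1 21 (by decide) tri_cnt0, tri_count σ hσ 2 2 630 (by decide) tri_cnt2,
    tri_count σ hσ 9 3 1120 (by decide) tri_cnt9, ?_⟩
  intro S S' hS hS' hc
  have h4 := cfTriSext_all.2.2 (σ⁻¹ • S) (sextets_smul σ⁻¹ (inv_mem hσ) S hS) (σ⁻¹ • S')
    (sextets_smul σ⁻¹ (inv_mem hσ) S' hS') (by
      rw [cfTri_base]
      have e : ∀ X : Finset (Finset GolayPt), pinv nzN {bitsOf 8388611} (σ⁻¹ • X) =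
          (X.filter fun t => (t ∩ σ • bitsOf 8388611).Nonempty).card := by
        intro X
        rw [← pinv_nz, ← pinv_smul nzN σ {bitsOf 8388611} (σ⁻¹ • X), smul_inv_smul,
          Finset.smul_finset_singleton]
      rw [e S, e S', hc])
  rw [cfTri_base] at h4
  have h5 := (SR_conj σ hσ ({bitsOf 8388611} : Finset (Finset GolayPt)) (σ⁻¹ • S) (σ⁻¹ • S')).2 h4
  rw [smul_inv_smul, smul_inv_smul, Finset.smul_finset_singleton] at h5
  obtain ⟨g, hg, hb, hgS⟩ := h5
  exact ⟨g, hg, (fix_single g _).1 hb, hgS⟩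

end Cfsg.Agent.Lib.Helper9.Leech
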