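import Cfsg.Agent.Lib.Helper9.OrbFin
import Cfsg.Agent.Lib.Helper9.CfgDodpSext

set_option autoImplicit false
open Cfsg

namespace Cfsg.Agent.Lib.Helper9.Leech

open scoped Pointwise
open Cfsg.Agent.S5393 Cfsg.Agent.S5548

theorem semK_two (c : ℕ) : semK 2 c = {bitsOf (ent c 24 0), bitsOf (ent c 24 1)} := by
  ext t
  rw [mem_semK, Finset.mem_insert, Finset.mem_singleton]
  constructor
  · rintro ⟨i, hi, rfl⟩
    interval_cases i
    · exact Or.inl rfl
    · exact Or.inr rfl
  · rintro (rfl | rfl)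
    · exact ⟨0, by decide, rfl⟩
    · exact ⟨1, by decide, rfl⟩

theorem cfDodp_base : semK 2 cfDodpA = dodX := by
  have h0 : ent cfDodpA 24 0 = dM := by decide +kernel
  have h1 : ent cfDodpA 24 1 = 16436384 := by decide +kernel
  rw [semK_two, h0, h1, bitsOf_dMc]
  rfl

theorem dodp_orbspec (d : Finset GolayPt) (hd : d ∈ dodecads) :
    OrbSpec ({d, Finset.univ \ d} : Finset (Finset GolayPt)) sextets [396, 495, 880] := by
  obtain ⟨σ, hσ, rfl⟩ := dod_to_dM d hd
  have hX : ({σ • bitsOf dM, Finset.univ \ (σ • bitsOf dM)} : Finset (Finset GolayPt)) =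
      σ • semK 2 cfDodpA := by
    rw [cfDodp_base]
    unfold dodX
    rw [Finset.smul_finset_insert, Finset.smul_finset_singleton, smul_compl',
      Finset.compl_eq_univ_sdiff]
  rw [hX]
  exact OrbSpec_conj σ hσ _ _ sextets_cl _ cfDodpSext_spec

end Cfsg.Agent.Lib.Helper9.Leech
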