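import Cfsg.Agent.Lib.Helper9.Cfg

set_option autoImplicit false
open Cfsg

namespace Cfsg.Agent.Lib.Helper9.Leech

open scoped Pointwise
open Cfsg.Agent.S5393 Cfsg.Agent.S5548

section Fin

variable {β γ : Type*} [MulAction (Equiv.Perm GolayPt) β] [MulAction (Equiv.Perm GolayPt) γ]

theorem orb3 (b : β) (Fam : Set γ) (n1 n2 n3 : ℕ) (h : OrbSpec b Fam [n1, n2, n3]) :
    ∃ X₁ ∈ Fam, ∃ X₂ ∈ Fam, ∃ X₃ ∈ Fam,
      (MulAction.orbit (MulAction.stabilizer M24 b) X₁).ncard = n1 ∧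
      (MulAction.orbit (MulAction.stabilizer M24 b) X₂).ncard = n2 ∧
      (MulAction.orbit (MulAction.stabilizer M24 b) X₃).ncard = n3 ∧
      Fam = MulAction.orbit (MulAction.stabilizer M24 b) X₁ ∪
        MulAction.orbit (MulAction.stabilizer M24 b) X₂ ∪
        MulAction.orbit (MulAction.stabilizer M24 b) X₃ := by
  obtain ⟨Xs, hf, hc⟩ := h
  obtain ⟨X1, l1, h1, hf1, rfl⟩ := List.forall₂_cons_right_iff.1 hf
  obtain ⟨X2, l2, h2, hf2, rfl⟩ := List.forall₂_cons_right_iff.1 hf1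
  obtain ⟨X3, l3, h3, hf3, rfl⟩ := List.forall₂_cons_right_iff.1 hf2
  rw [List.forall₂_nil_right_iff] at hf3
  subst hf3
  refine ⟨X1, h1.1, X2, h2.1, X3, h3.1, ?_⟩
  rw [orbit_stab_eq, orbit_stab_eq, orbit_stab_eq]
  refine ⟨h1.2, h2.2, h3.2, ?_⟩
  ext Y
  rw [hc Y]
  simp only [List.mem_cons, List.not_mem_nil, or_false, Set.mem_union, Set.mem_ofPred_eq]
  constructor
  · rintro ⟨X, hX | hX | hX, hs⟩
    · exact Or.inl (Or.inl (hX ▸ hs))
    · exact Or.inl (Or.inr (hX ▸ hs))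
    · exact Or.inr (hX ▸ hs)
  · rintro ((hs | hs) | hs)
    · exact ⟨X1, Or.inl rfl, hs⟩
    · exact ⟨X2, Or.inr (Or.inl rfl), hs⟩
    · exact ⟨X3, Or.inr (Or.inr rfl), hs⟩

theorem orb4 (b : β) (Fam : Set γ) (n1 n2 n3 n4 : ℕ) (h : OrbSpec b Fam [n1, n2, n3, n4]) :
    ∃ X₁ ∈ Fam, ∃ X₂ ∈ Fam, ∃ X₃ ∈ Fam, ∃ X₄ ∈ Fam,
      (MulAction.orbit (MulAction.stabilizer M24 b) X₁).ncard = n1 ∧
      (MulAction.orbit (MulAction.stabilizer M24 b) X₂).ncard = n2 ∧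
      (MulAction.orbit (MulAction.stabilizer M24 b) X₃).ncard = n3 ∧
      (MulAction.orbit (MulAction.stabilizer M24 b) X₄).ncard = n4 ∧
      Fam = MulAction.orbit (MulAction.stabilizer M24 b) X₁ ∪
        MulAction.orbit (MulAction.stabilizer M24 b) X₂ ∪
        MulAction.orbit (MulAction.stabilizer M24 b) X₃ ∪
        MulAction.orbit (MulAction.stabilizer M24 b) X₄ := by
  obtain ⟨Xs, hf, hc⟩ := h
  obtain ⟨X1, l1, h1, hf1, rfl⟩ := List.forall₂_cons_right_iff.1 hf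
  obtain ⟨X2, l2, h2, hf2, rfl⟩ := List.forall₂_cons_right_iff.1 hf1
  obtain ⟨X3, l3, h3, hf3, rfl⟩ := List.forall₂_cons_right_iff.1 hf2
  obtain ⟨X4, l4, h4, hf4, rfl⟩ := List.forall₂_cons_right_iff.1 hf3
  rw [List.forall₂_nil_right_iff] at hf4
  subst hf4
  refine ⟨X1, h1.1, X2, h2.1, X3, h3.1, X4, h4.1, ?_⟩
  rw [orbit_stab_eq, orbit_stab_eq, orbit_stab_eq, orbit_stab_eq]
  refine ⟨h1.2, h2.2, h3.2, h4.2, ?_⟩
  ext Y
  rw [hc Y]
  simp only [List.mem_cons, List.not_mem_nil, or_false, Set.mem_union, Set.mem_ofPred_eq]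
  constructor
  · rintro ⟨X, hX | hX | hX | hX, hs⟩
    · exact Or.inl (Or.inl (Or.inl (hX ▸ hs)))
    · exact Or.inl (Or.inl (Or.inr (hX ▸ hs)))
    · exact Or.inl (Or.inr (hX ▸ hs))
    · exact Or.inr (hX ▸ hs)
  · rintro (((hs | hs) | hs) | hs)
    · exact ⟨X1, Or.inl rfl, hs⟩
    · exact ⟨X2, Or.inr (Or.inl rfl), hs⟩
    · exact ⟨X3, Or.inr (Or.inr (Or.inl rfl)), hs⟩
    · exact ⟨X4, Or.inr (Or.inr (Or.inr rfl)), hs⟩

theorem fix_single (g : Equiv.Perm GolayPt) (x : Finset GolayPt) :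
    g • ({x} : Finset (Finset GolayPt)) = {x} ↔ g • x = x := by
  rw [Finset.smul_finset_singleton, Finset.singleton_inj]

theorem SR_single (b : β) (o y : Finset GolayPt) :
    SR b ({o} : Finset (Finset GolayPt)) {y} ↔ SR b o y := by
  constructor
  · rintro ⟨g, hg, hb, h⟩
    rw [Finset.smul_finset_singleton, Finset.singleton_inj] at h
    exact ⟨g, hg, hb, h⟩
  · rintro ⟨g, hg, hb, h⟩
    exact ⟨g, hg, hb, by rw [Finset.smul_finset_singleton, h]⟩

theorem single_aux (b : β) : ∀ (Xs : List (Finset (Finset GolayPt))) (ns : List ℕ),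
    List.Forall₂ (fun X n => X ∈ octS ∧ {Y | SR b X Y}.ncard = n) Xs ns →
    ∃ os : List (Finset GolayPt), Xs = os.map (fun o => ({o} : Finset (Finset GolayPt))) ∧
      List.Forall₂ (fun o n => o ∈ octads ∧ {y | SR b o y}.ncard = n) os ns := by
  intro Xs ns h
  induction h with
  | nil => exact ⟨[], rfl, List.Forall₂.nil⟩
  | cons h1 _ ih =>
    obtain ⟨os, hos, hf⟩ := ih
    obtain ⟨⟨o, ho, rfl⟩, hn⟩ := h1
    refine ⟨o :: os, by rw [hos]; rfl, List.Forall₂.cons ⟨ho, ?_⟩ hf⟩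
    rw [← hn]
    have h2 : {Y | SR b ({o} : Finset (Finset GolayPt)) Y} =
        (fun y : Finset GolayPt => ({y} : Finset (Finset GolayPt))) '' {y | SR b o y} := by
      ext Y
      constructor
      · rintro ⟨g, hg, hb, rfl⟩
        exact ⟨g • o, ⟨g, hg, hb, rfl⟩, (Finset.smul_finset_singleton o).symm⟩
      · rintro ⟨y, hy, rfl⟩
        exact (SR_single b o y).2 hy
    rw [h2, Set.ncard_image_of_injective _ Finset.singleton_injective]

theorem OrbSpec_single (b : β) (ns : List ℕ) (h : OrbSpec b octS ns) :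
    OrbSpec b (octads : Set (Finset GolayPt)) ns := by
  obtain ⟨Xs, hf, hc⟩ := h
  obtain ⟨os, rfl, hf'⟩ := single_aux b Xs ns hf
  refine ⟨os, hf', ?_⟩
  intro y
  have h1 : y ∈ octads ↔ ({y} : Finset (Finset GolayPt)) ∈ octS := by
    constructor
    · intro hy
      exact ⟨y, hy, rfl⟩
    · rintro ⟨o, ho, he⟩
      rw [Finset.singleton_inj.1 he]
      exact ho
  rw [h1, hc]
  constructor
  · rintro ⟨X, hX, hs⟩
    obtain ⟨o, ho, rfl⟩ := List.mem_map.1 hX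
    exact ⟨o, ho, (SR_single b o y).1 hs⟩
  · rintro ⟨o, ho, hs⟩
    exact ⟨{o}, List.mem_map.2 ⟨o, ho, rfl⟩, (SR_single b o y).2 hs⟩

end Fin

theorem cfOct_base (g : Equiv.Perm GolayPt) :
    g • semK 1 cfOctA = semK 1 cfOctA ↔ g • bitsOf octO = bitsOf octO := by
  have h : semK 1 cfOctA = {bitsOf octO} := semK_one octO (by decide)
  rw [h, fix_single]

end Cfsg.Agent.Lib.Helper9.Leech
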