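import Cfsg.Agent.Lib.Helper9.PslA

set_option autoImplicit false
open Cfsg

namespace Cfsg.Agent.Lib.Helper9.Leech

open scoped Pointwise
open Cfsg.Agent.S5393 Cfsg.Agent.S5548

/-! ### the stabiliser of a dodecad, a point on it and a point off it -/

abbrev SL11 : Type := Matrix.SpecialLinearGroup (Fin 2) (ZMod 11)

theorem sl_det (u : SL11) : u.1 0 0 * u.1 1 1 - u.1 0 1 * u.1 1 0 = 1 := by
  rw [← Matrix.det_fin_two]
  exact u.2

def slS : SL11 := ⟨!![0, -1; 1, 0], by rw [Matrix.det_fin_two_of]; decide⟩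

def slT : SL11 := ⟨!![1, 1; 0, 1], by rw [Matrix.det_fin_two_of]; decide⟩

def slSi : SL11 := ⟨!![0, 1; -1, 0], by rw [Matrix.det_fin_two_of]; decide⟩

def slTi : SL11 := ⟨!![1, -1; 0, 1], by rw [Matrix.det_fin_two_of]; decide⟩

def slN : SL11 := ⟨!![-1, 0; 0, -1], by rw [Matrix.det_fin_two_of]; decide⟩

theorem sl_ext (u v : SL11) (h00 : u.1 0 0 = v.1 0 0) (h01 : u.1 0 1 = v.1 0 1)
    (h10 : u.1 1 0 = v.1 1 0) (h11 : u.1 1 1 = v.1 1 1) : u = v := by
  apply Subtype.ext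
  ext i j
  fin_cases i <;> fin_cases j
  · exact h00
  · exact h01
  · exact h10
  · exact h11

theorem sl_mul00 (u v : SL11) : (u * v).1 0 0 = u.1 0 0 * v.1 0 0 + u.1 0 1 * v.1 1 0 := by
  change (u.1 * v.1) 0 0 = _
  rw [Matrix.mul_apply, Fin.sum_univ_two]

theorem sl_mul01 (u v : SL11) : (u * v).1 0 1 = u.1 0 0 * v.1 0 1 + u.1 0 1 * v.1 1 1 := by
  change (u.1 * v.1) 0 1 = _
  rw [Matrix.mul_apply, Fin.sum_univ_two]

theorem sl_mul10 (u v : SL11) : (u * v).1 1 0 = u.1 1 0 * v.1 0 0 + u.1 1 1 * v.1 1 0 := by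
  change (u.1 * v.1) 1 0 = _
  rw [Matrix.mul_apply, Fin.sum_univ_two]

theorem sl_mul11 (u v : SL11) : (u * v).1 1 1 = u.1 1 0 * v.1 0 1 + u.1 1 1 * v.1 1 1 := by
  change (u.1 * v.1) 1 1 = _
  rw [Matrix.mul_apply, Fin.sum_univ_two]

theorem sl_one_ent : (1 : SL11).1 0 0 = 1 ∧ (1 : SL11).1 0 1 = 0 ∧ (1 : SL11).1 1 0 = 0 ∧
    (1 : SL11).1 1 1 = 1 := by
  refine ⟨?_, ?_, ?_, ?_⟩ <;> simp

theorem slSi_mul : slSi * slS = 1 := by
  apply sl_ext
  · rw [sl_mul00, sl_one_ent.1]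
    decide
  · rw [sl_mul01, sl_one_ent.2.1]
    decide
  · rw [sl_mul10, sl_one_ent.2.2.1]
    decide
  · rw [sl_mul11, sl_one_ent.2.2.2]
    decide

theorem slTi_mul : slTi * slT = 1 := by
  apply sl_ext
  · rw [sl_mul00, sl_one_ent.1]
    decide
  · rw [sl_mul01, sl_one_ent.2.1]
    decide
  · rw [sl_mul10, sl_one_ent.2.2.1]
    decide
  · rw [sl_mul11, sl_one_ent.2.2.2]
    decide

theorem sl_sq (r : ZMod 11) : r ^ 2 = 1 → r = 1 ∨ r = -1 := by
  revert r
  decide

theorem sl_card : Nat.card SL11 = 1320 := by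
  have e : SL11 ≃ {q : ZMod 11 × ZMod 11 × ZMod 11 × ZMod 11 //
      q.1 * q.2.2.2 - q.2.1 * q.2.2.1 = 1} :=
    { toFun := fun u => ⟨(u.1 0 0, u.1 0 1, u.1 1 0, u.1 1 1), sl_det u⟩
      invFun := fun q => ⟨!![q.1.1, q.1.2.1; q.1.2.2.1, q.1.2.2.2], by
        rw [Matrix.det_fin_two_of]
        exact q.2⟩
      left_inv := fun u => by
        apply sl_ext <;> rfl
      right_inv := fun q => rfl }
  rw [Nat.card_congr e, Nat.card_eq_fintype_card, Fintype.card_subtype]
  exact sl_card_aux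

def slE (u : SL11) : ℕ := plE (u.1 0 0) (u.1 0 1) (u.1 1 0) (u.1 1 1)

def slDep (u : SL11) : ℕ := plDp (u.1 0 0) (u.1 0 1) (u.1 1 0) (u.1 1 1)

theorem slE_mulS (u : SL11) : slE (u * slS) = mulN (slE u) (plE 0 (-1) 1 0) := by
  have h := pl_stepS _ _ _ _ (sl_det u)
  unfold slE
  rw [sl_mul00, sl_mul01, sl_mul10, sl_mul11]
  exact h

theorem slE_mulT (u : SL11) : slE (u * slT) = mulN (slE u) (plE 1 1 0 1) := by
  have h := pl_stepT _ _ _ _ (sl_det u)
  unfold slE
  rw [sl_mul00, sl_mul01, sl_mul10, sl_mul11]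
  exact h

theorem slE_one : slE 1 = idN := by
  unfold slE
  rw [sl_one_ent.1, sl_one_ent.2.1, sl_one_ent.2.2.1, sl_one_ent.2.2.2]
  exact pl_one

theorem sl_induction (P : SL11 → Prop) (h1 : P 1) (hS : ∀ u, P u → P (u * slS))
    (hT : ∀ u, P u → P (u * slT)) : ∀ u, P u := by
  have key : ∀ n : ℕ, ∀ u : SL11, slDep u = n → P u := by
    intro n
    induction n using Nat.strong_induction_on with
    | _ n ih =>
      intro u hu
      rcases pl_dep _ _ _ _ (sl_det u) with h | h | h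
      · have e : u = 1 := sl_ext u 1 (h.1.trans sl_one_ent.1.symm)
          (h.2.1.trans sl_one_ent.2.1.symm) (h.2.2.1.trans sl_one_ent.2.2.1.symm)
          (h.2.2.2.trans sl_one_ent.2.2.2.symm)
        rw [e]
        exact h1
      · have e : u = (u * slSi) * slS := by rw [mul_assoc, slSi_mul, mul_one]
        rw [e]
        apply hS
        apply ih (slDep (u * slSi)) _ _ rfl
        rw [← hu]
        unfold slDep
        rw [sl_mul00, sl_mul01, sl_mul10, sl_mul11]
        exact h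
      · have e : u = (u * slTi) * slT := by rw [mul_assoc, slTi_mul, mul_one]
        rw [e]
        apply hT
        apply ih (slDep (u * slTi)) _ _ rfl
        rw [← hu]
        unfold slDep
        rw [sl_mul00, sl_mul01, sl_mul10, sl_mul11]
        exact h
  intro u
  exact key _ u rfl

def InPl (g : Equiv.Perm GolayPt) : Prop :=
  (∀ m ∈ [dM], g • bitsOf m = bitsOf m) ∧ ∀ p ∈ bitsOf 8388609, g p = p

def plG : Subgroup ↥M24 :=
  MulAction.stabilizer ↥M24 (bitsOf dM) ⊓ MulAction.stabilizer ↥M24 (ptOf 0) ⊓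
    MulAction.stabilizer ↥M24 (ptOf 23)

theorem bits_pl : bitsOf 8388609 = {ptOf 23, ptOf 0} := by
  have h := bitsOf_mask2 (ptOf 23) (ptOf 0)
  rw [idx_ptOf 23 (by norm_num), idx_ptOf 0 (by norm_num)] at h
  exact h

theorem mem_plG (x : ↥M24) : x ∈ plG ↔ InPl (x : Equiv.Perm GolayPt) := by
  unfold plG InPl
  rw [Subgroup.mem_inf, Subgroup.mem_inf, MulAction.mem_stabilizer_iff,
    MulAction.mem_stabilizer_iff, MulAction.mem_stabilizer_iff, bits_pl]
  constructor
  · rintro ⟨⟨h1, h2⟩, h3⟩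
    refine ⟨?_, ?_⟩
    · intro m hm
      rw [List.mem_singleton] at hm
      rw [hm]
      exact h1
    · intro p hp
      rw [Finset.mem_insert, Finset.mem_singleton] at hp
      rcases hp with rfl | rfl
      · exact h3
      · exact h2
  · rintro ⟨h1, h2⟩
    exact ⟨⟨h1 dM (List.mem_singleton_self _), h2 _ (by simp)⟩, h2 _ (by simp)⟩

theorem InPl_mul (g h : Equiv.Perm GolayPt) (hg : InPl g) (hh : InPl h) : InPl (g * h) := by
  refine ⟨?_, ?_⟩
  · intro m hm
    rw [mul_smul, hh.1 m hm, hg.1 m hm]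
  · intro p hp
    rw [Equiv.Perm.mul_apply, hh.2 p hp, hg.2 p hp]

theorem card_plG : Nat.card ↥plG = 660 := by
  rw [card_sub_eq plG InPl mem_plG, ← srchPl]
  exact masks_count' [dM] dM_lt24 (fun g => ∀ p ∈ bitsOf 8388609, g p = p) (psPt 8388609)
    (fun g t hg => ptfix_iff g t hg 8388609) (locPt 8388609)
    (fun g h d hd a => locPt_sound 8388609 g h d hd a)

theorem pl_exists : ∀ u : SL11, ∃ g : Equiv.Perm GolayPt,
    (g ∈ M24 ∧ InPl g) ∧ TblP g (tblOf (slE u)) := by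
  obtain ⟨gS, hgSM, hgSt⟩ := slpChk_spec M24 (shift_mem 1) projInv_mem cubeTwist_mem plS plN
    plS_ok plKS pl_lt.1
  obtain ⟨gT, hgTM, hgTt⟩ := slpChk_spec M24 (shift_mem 1) projInv_mem cubeTwist_mem plS plN
    plS_ok plKT pl_lt.2
  rw [pl_nodes.1] at hgSt
  rw [pl_nodes.2] at hgTt
  have hin := pl_gen_in
  have hS1 := hin.1
  have hT1 := hin.2
  rw [Bool.and_eq_true] at hS1 hT1
  have hgS : InPl gS := ⟨(passM_iff [dM] dM_lt24 gS _ hgSt).2 hS1.1,
    (ptfix_iff gS _ hgSt 8388609).2 hS1.2⟩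
  have hgT : InPl gT := ⟨(passM_iff [dM] dM_lt24 gT _ hgTt).2 hT1.1,
    (ptfix_iff gT _ hgTt 8388609).2 hT1.2⟩
  apply sl_induction
  · refine ⟨1, ⟨one_mem _, ?_⟩, ?_⟩
    · exact ⟨fun m _ => one_smul _ _, fun p _ => rfl⟩
    · rw [slE_one]
      exact idN_tbl
  · rintro u ⟨g, ⟨hgM, hgI⟩, hgt⟩
    refine ⟨g * gS, ⟨mul_mem hgM hgSM, InPl_mul g gS hgI hgS⟩, ?_⟩
    rw [slE_mulS]
    exact mulN_spec _ _ _ _ hgt hgSt
  · rintro u ⟨g, ⟨hgM, hgI⟩, hgt⟩
    refine ⟨g * gT, ⟨mul_mem hgM hgTM, InPl_mul g gT hgI hgT⟩, ?_⟩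
    rw [slE_mulT]
    exact mulN_spec _ _ _ _ hgt hgTt

theorem slE_S : slE slS = plE 0 (-1) 1 0 := rfl

theorem slE_T : slE slT = plE 1 1 0 1 := rfl

theorem slE_N : slE slN = idN := pl_neg

theorem plG_iso : Nonempty (↥plG ≃* Matrix.ProjectiveSpecialLinearGroup (Fin 2) (ZMod 11)) := by
  choose F hFL hFT using pl_exists
  have hF1 : F 1 = 1 := by
    apply tbl_unique _ _ _ (hFT 1)
    rw [slE_one]
    exact idN_tbl
  have hFS : ∀ u, F (u * slS) = F u * F slS := by
    intro u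
    apply tbl_unique _ _ _ (hFT (u * slS))
    rw [slE_mulS, ← slE_S]
    exact mulN_spec _ _ _ _ (hFT u) (hFT slS)
  have hFT' : ∀ u, F (u * slT) = F u * F slT := by
    intro u
    apply tbl_unique _ _ _ (hFT (u * slT))
    rw [slE_mulT, ← slE_T]
    exact mulN_spec _ _ _ _ (hFT u) (hFT slT)
  have hmul : ∀ v u, F (u * v) = F u * F v := by
    apply sl_induction
    · intro u
      rw [mul_one, hF1, mul_one]
    · intro v ih u
      rw [← mul_assoc, hFS, ih, hFS, mul_assoc]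
    · intro v ih u
      rw [← mul_assoc, hFT', ih, hFT', mul_assoc]
  let f : SL11 →* ↥plG := MonoidHom.mk'
    (fun u => ⟨⟨F u, (hFL u).1⟩, (mem_plG _).2 (hFL u).2⟩)
    (fun u v => Subtype.ext (Subtype.ext (hmul v u)))
  have hker : ∀ u : SL11, f u = 1 ↔ (u = 1 ∨ u = slN) := by
    intro u
    constructor
    · intro hu
      have h1 : F u = 1 := congrArg (fun w : ↥plG => ((w : ↥M24) : Equiv.Perm GolayPt)) hu
      have h2 : F u ^ 1 = 1 := by rw [pow_one, h1]
      have h3 := (pow_iff_tbl (F u) _ 1 (hFT u)).1 h2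
      rcases pl_ker _ _ _ _ (sl_det u) h3 with h | h
      · left
        exact sl_ext u 1 (h.1.trans sl_one_ent.1.symm) (h.2.1.trans sl_one_ent.2.1.symm)
          (h.2.2.1.trans sl_one_ent.2.2.1.symm) (h.2.2.2.trans sl_one_ent.2.2.2.symm)
      · right
        exact sl_ext u slN h.1 h.2.1 h.2.2.1 h.2.2.2
    · rintro (rfl | rfl)
      · exact map_one f
      · apply Subtype.ext
        apply Subtype.ext
        change F slN = 1
        apply tbl_unique _ _ _ (hFT slN)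
        rw [slE_N]
        exact idN_tbl
  have hcen : Subgroup.center SL11 = f.ker := by
    ext u
    rw [MonoidHom.mem_ker, hker u, Matrix.SpecialLinearGroup.mem_center_iff]
    constructor
    · rintro ⟨r, hr, hu⟩
      have hr2 : r ^ 2 = 1 := by
        rw [← hr]
        rfl
      have e00 : u.1 0 0 = r := by rw [← hu]; simp
      have e01 : u.1 0 1 = 0 := by rw [← hu]; simp
      have e10 : u.1 1 0 = 0 := by rw [← hu]; simp
      have e11 : u.1 1 1 = r := by rw [← hu]; simp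
      rcases sl_sq r hr2 with h | h
      · left
        rw [h] at e00 e11
        exact sl_ext u 1 (e00.trans sl_one_ent.1.symm) (e01.trans sl_one_ent.2.1.symm)
          (e10.trans sl_one_ent.2.2.1.symm) (e11.trans sl_one_ent.2.2.2.symm)
      · right
        rw [h] at e00 e11
        exact sl_ext u slN e00 e01 e10 e11
    · rintro (rfl | rfl)
      · exact ⟨1, one_pow _, by simp⟩
      · refine ⟨-1, by decide, ?_⟩
        ext i j
        fin_cases i <;> fin_cases j <;> simp [slN]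
  have hkcard : Nat.card ↥f.ker = 2 := by
    rw [Nat.card_eq_two_iff]
    refine ⟨⟨1, one_mem _⟩, ⟨slN, (MonoidHom.mem_ker).2 ((hker slN).2 (Or.inr rfl))⟩, ?_, ?_⟩
    · intro h
      have h' : (1 : SL11) = slN := congrArg Subtype.val h
      have h2 : (1 : SL11).1 0 0 = slN.1 0 0 := by
        rw [← h']
      rw [sl_one_ent.1] at h2
      revert h2
      decide
    · ext w
      simp only [Set.mem_insert_iff, Set.mem_singleton_iff, Set.mem_univ, iff_true]
      rcases (hker w.1).1 ((MonoidHom.mem_ker).1 w.2) with h | h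
      · left
        exact Subtype.ext h
      · right
        exact Subtype.ext h
  have hqcard : Nat.card (SL11 ⧸ f.ker) = 660 := by
    have h1 := Subgroup.card_eq_card_quotient_mul_card_subgroup f.ker
    rw [sl_card, hkcard] at h1
    omega
  have hbij : Function.Bijective (QuotientGroup.kerLift f) := by
    rw [Nat.bijective_iff_injective_and_card]
    exact ⟨QuotientGroup.kerLift_injective f, by rw [hqcard, card_plG]⟩
  exact ⟨((QuotientGroup.quotientMulEquivOfEq hcen).trans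
    (MulEquiv.ofBijective (QuotientGroup.kerLift f) hbij)).symm⟩

theorem s1601 (d : Finset GolayPt) (hd : d ∈ dodecads) (p q : GolayPt) (hp : p ∈ d)
    (hq : q ∉ d) :
    Nonempty (↥(MulAction.stabilizer ↥M24 d ⊓ MulAction.stabilizer ↥M24 p ⊓
      MulAction.stabilizer ↥M24 q) ≃* Matrix.ProjectiveSpecialLinearGroup (Fin 2) (ZMod 11)) := by
  obtain ⟨τ, hτ, rfl, rfl⟩ := dod_flag d hd p hp
  have h23 : ptOf 23 ∉ bitsOf dM := by
    rw [mem_bits_tb dM 23 (by norm_num)]
    decide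
  obtain ⟨h, hh, hxy⟩ := m11_compl_trans [ptOf 23] [τ⁻¹ q] (List.nodup_singleton _)
    (List.nodup_singleton _) (by
      intro z hz
      rw [List.mem_singleton] at hz
      rw [hz]
      exact h23) (by
      intro z hz
      rw [List.mem_singleton] at hz
      rw [hz, smul_inv_mem]
      exact hq) rfl (by simp)
  have e23 : h (ptOf 23) = τ⁻¹ q := hxy 0 (by simp)
  have hσ : τ * h ∈ M24 := mul_mem hτ hh.1
  have hσd : (τ * h) • bitsOf dM = τ • bitsOf dM := by
    rw [mul_smul, hh.2.1 dM (List.mem_singleton_self _)]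
  have hσp : (τ * h) (ptOf 0) = τ (ptOf 0) := by
    rw [Equiv.Perm.mul_apply, hh.2.2 0 (List.mem_singleton_self _)]
  have hσq : (τ * h) (ptOf 23) = q := by
    rw [Equiv.Perm.mul_apply, e23]
    exact τ.apply_symm_apply q
  have hinj : Function.Injective (MulAut.conj (⟨τ * h, hσ⟩ : ↥M24)).toMonoidHom :=
    (MulAut.conj (⟨τ * h, hσ⟩ : ↥M24)).injective
  have e : MulAction.stabilizer ↥M24 (τ • bitsOf dM) ⊓ MulAction.stabilizer ↥M24 (τ (ptOf 0)) ⊓
      MulAction.stabilizer ↥M24 q = plG.map (MulAut.conj (⟨τ * h, hσ⟩ : ↥M24)).toMonoidHom := by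
    unfold plG
    rw [Subgroup.map_inf _ _ _ hinj, Subgroup.map_inf _ _ _ hinj,
      ← MulAction.stabilizer_smul_eq_stabilizer_map_conj,
      ← MulAction.stabilizer_smul_eq_stabilizer_map_conj,
      ← MulAction.stabilizer_smul_eq_stabilizer_map_conj]
    have e1 : (⟨τ * h, hσ⟩ : ↥M24) • bitsOf dM = τ • bitsOf dM := hσd
    have e2 : (⟨τ * h, hσ⟩ : ↥M24) • ptOf 0 = τ (ptOf 0) := hσp
    have e3 : (⟨τ * h, hσ⟩ : ↥M24) • ptOf 23 = q := hσq
    rw [e1, e2, e3]
  rw [e]
  obtain ⟨φ⟩ := plG_iso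
  exact ⟨(plG.equivMapOfInjective _ hinj).symm.trans φ⟩

end Cfsg.Agent.Lib.Helper9.Leech
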