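import Cfsg.Agent.Lib.Helper9.S5B
import Cfsg.Agent.Lib.Helper9.PslData

set_option autoImplicit false
open Cfsg

namespace Cfsg.Agent.Lib.Helper9.Leech

open scoped Pointwise
open Cfsg.Agent.S5393 Cfsg.Agent.S5548

/-! ### data checks for a copy of `PSL(2,11)` inside a dodecad stabiliser -/

def slC (a b c d : ZMod 11) : ℕ := a.val + 11 * b.val + 121 * c.val + 1331 * d.val

def plE (a b c d : ZMod 11) : ℕ :=
  cond (Nat.beq a.val 0) (ent plT0 120 (b.val + 11 * d.val))
    (ent plT1 120 (a.val + 11 * b.val + 121 * c.val))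

def plDp (a b c d : ZMod 11) : ℕ := ent plD 8 (slC a b c d)

set_option maxRecDepth 100000 in
theorem plS_ok : slpChk plS plN = true := by decide +kernel

set_option maxRecDepth 100000 in
theorem pl_nodes : nodeTbl plS plKS = plE 0 (-1) 1 0 ∧ nodeTbl plS plKT = plE 1 1 0 1 := by
  decide +kernel

theorem pl_lt : plKS < plN ∧ plKT < plN := by decide

set_option maxRecDepth 100000 in
theorem pl_gen_in : (passM [dM] (plE 0 (-1) 1 0) && psPt 8388609 (plE 0 (-1) 1 0)) = true ∧
    (passM [dM] (plE 1 1 0 1) && psPt 8388609 (plE 1 1 0 1)) = true := by decide +kernel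

set_option maxRecDepth 100000 in
theorem pl_one : plE 1 0 0 1 = idN := by decide +kernel

set_option maxRecDepth 100000 in
theorem pl_neg : plE (-1) 0 0 (-1) = idN := by decide +kernel

set_option maxRecDepth 100000 in
theorem pl_stepS : ∀ a b c d : ZMod 11, a * d - b * c = 1 →
    plE (a * 0 + b * 1) (a * (-1) + b * 0) (c * 0 + d * 1) (c * (-1) + d * 0) =
      mulN (plE a b c d) (plE 0 (-1) 1 0) := by decide +kernel

set_option maxRecDepth 100000 in
theorem pl_stepT : ∀ a b c d : ZMod 11, a * d - b * c = 1 →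
    plE (a * 1 + b * 0) (a * 1 + b * 1) (c * 1 + d * 0) (c * 1 + d * 1) =
      mulN (plE a b c d) (plE 1 1 0 1) := by decide +kernel

set_option maxRecDepth 100000 in
theorem pl_dep : ∀ a b c d : ZMod 11, a * d - b * c = 1 →
    (a = 1 ∧ b = 0 ∧ c = 0 ∧ d = 1) ∨
    plDp (a * 0 + b * (-1)) (a * 1 + b * 0) (c * 0 + d * (-1)) (c * 1 + d * 0) < plDp a b c d ∨
    plDp (a * 1 + b * 0) (a * (-1) + b * 1) (c * 1 + d * 0) (c * (-1) + d * 1) < plDp a b c d := by
  decide +kernel

set_option maxRecDepth 100000 in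
theorem pl_ker : ∀ a b c d : ZMod 11, a * d - b * c = 1 →
    all24 (fun i => Nat.beq (powFld (plE a b c d) 1 i) i) = true →
      (a = 1 ∧ b = 0 ∧ c = 0 ∧ d = 1) ∨ (a = -1 ∧ b = 0 ∧ c = 0 ∧ d = -1) := by
  decide +kernel

set_option maxRecDepth 100000 in
theorem srchPl : srch (fun d a y => locM [dM] d a y && locPt 8388609 d a y)
    (fun t => passM [dM] t && psPt 8388609 t) srLv 0 idN = 660 := by decide +kernel

theorem sl_card_aux : (Finset.univ.filter (fun q : ZMod 11 × ZMod 11 × ZMod 11 × ZMod 11 =>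
    q.1 * q.2.2.2 - q.2.1 * q.2.2.1 = 1)).card = 1320 := by decide +kernel

end Cfsg.Agent.Lib.Helper9.Leech
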