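import Cfsg.Agent.Lib.Helper9.QtData
import Cfsg.Agent.Lib.Helper9.M12
import Cfsg.Agent.Lib.Helper9.M9
import Cfsg.Agent.Lib.Helper9.Sext

set_option autoImplicit false
open Cfsg

namespace Cfsg.Agent.Lib.Helper9.Leech

open scoped Pointwise
open Cfsg.Agent.S5393 Cfsg.Agent.S5548

/-! ### hexads and quartets of the standard dodecad -/

def hexT (m : ℕ) : Bool := Nat.beq (popc m) 6 && octL.any (fun o => Nat.beq (Nat.land o dM) m)

theorem dM_lt_pow : dM < 2 ^ 24 := by decide

theorem hexOn_iff (m : ℕ) (hm : m < 2 ^ 24) :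
    bitsOf m ∈ hexadsOn (bitsOf dM) ↔ hexT m = true := by
  unfold hexT
  rw [Bool.and_eq_true, List.any_eq_true]
  constructor
  · rintro ⟨hc, o, ho, he⟩
    obtain ⟨n, hn, rfl⟩ := (mem_octads o).1 ho
    rw [card_bitsOf] at hc
    refine ⟨(beq_iff _ _).2 hc, n, hn, (beq_iff _ _).2 ?_⟩
    rw [bitsOf_and] at he
    exact bitsOf_inj _ _ (Nat.and_lt_two_pow _ dM_lt_pow) hm he
  · rintro ⟨hc, n, hn, he⟩
    refine ⟨by rw [card_bitsOf]; exact (beq_iff _ _).1 hc, bitsOf n,
      (mem_octads _).2 ⟨n, hn, rfl⟩, ?_⟩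
    rw [bitsOf_and]
    exact congrArg bitsOf ((beq_iff _ _).1 he)

theorem hexadsOn_smul (g : Equiv.Perm GolayPt) (hg : g ∈ M24) (d h : Finset GolayPt)
    (hh : h ∈ hexadsOn d) : g • h ∈ hexadsOn (g • d) := by
  obtain ⟨hc, o, ho, rfl⟩ := hh
  refine ⟨by rw [Finset.card_smul_finset]; exact hc, g • o, octads_smul g hg o ho, ?_⟩
  rw [Finset.smul_finset_inter]

theorem quartets_smul (g : Equiv.Perm GolayPt) (hg : g ∈ M24) (d : Finset GolayPt)
    (Q : Finset (Finset GolayPt)) (hQ : Q ∈ quartets d) : g • Q ∈ quartets (g • d) := by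
  obtain ⟨h1, h2, h3⟩ := hQ
  refine ⟨by rw [Finset.card_smul_finset]; exact h1, ?_, ?_⟩
  · intro t ht
    obtain ⟨t', ht', rfl⟩ := Finset.mem_smul_finset.1 ht
    exact ⟨by rw [Finset.card_smul_finset]; exact (h2 t' ht').1,
      Finset.smul_finset_subset_smul_finset (h2 t' ht').2⟩
  · intro t ht u hu htu
    obtain ⟨t', ht', rfl⟩ := Finset.mem_smul_finset.1 ht
    obtain ⟨u', hu', rfl⟩ := Finset.mem_smul_finset.1 hu
    rw [← Finset.smul_finset_union]
    exact hexadsOn_smul g hg d _ (h3 t' ht' u' hu' (fun h => htu (by rw [h])))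

def quartChk (c : ℕ) : Bool :=
  validK 4 c && (allBelow (fun i => Nat.beq (popc (ent c 24 i)) 3 &&
      Nat.beq (popc (Nat.land (ent c 24 i) dM)) 3) 4 &&
    allBelow (fun i => allBelow (fun j => Nat.beq i j ||
      hexT (Nat.lor (ent c 24 i) (ent c 24 j))) 4) 4)

theorem quart_of_chk (c : ℕ) (h : quartChk c = true) : semK 4 c ∈ quartets (bitsOf dM) := by
  unfold quartChk at h
  rw [Bool.and_eq_true, Bool.and_eq_true] at h
  obtain ⟨hv, hp, hu⟩ := h
  refine ⟨semK_card 4 c hv, ?_, ?_⟩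
  · intro t ht
    obtain ⟨i, hi, rfl⟩ := (mem_semK 4 c t).1 ht
    have h1 := allBelow_spec _ 4 hp i hi
    rw [Bool.and_eq_true] at h1
    refine ⟨by rw [card_bitsOf]; exact (beq_iff _ _).1 h1.1, ?_⟩
    rw [sub_iff_popc]
    exact ((beq_iff _ _).1 h1.2).trans ((beq_iff _ _).1 h1.1).symm
  · intro t ht u hu' htu
    obtain ⟨i, hi, rfl⟩ := (mem_semK 4 c t).1 ht
    obtain ⟨j, hj, rfl⟩ := (mem_semK 4 c u).1 hu'
    have h1 := allBelow_spec _ 4 (allBelow_spec _ 4 hu i hi) j hj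
    rw [Bool.or_eq_true] at h1
    rcases h1 with h1 | h1
    · exact absurd (by rw [(beq_iff _ _).1 h1]) htu
    · rw [bitsOf_or]
      exact (hexOn_iff _ (Nat.or_lt_two_pow (ent_lt _ 24 _) (ent_lt _ 24 _))).2 h1

set_option maxRecDepth 100000 in
theorem quart_list : allBelow (fun i => forceN (codeAt 4 quartLE i) quartChk) 220 = true := by
  decide +kernel

set_option maxRecDepth 100000 in
theorem quart_fam : famChk 4 quartLE 220 = true := by decide +kernel

theorem q0C_eq : codeAt 4 quartLE 202 = q0C := by decide +kernel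

theorem q0_ents : ent q0C 24 0 = 7 ∧ ent q0C 24 1 = 4120 ∧ ent q0C 24 2 = 8960 ∧
    ent q0C 24 3 = 327744 := by decide +kernel

theorem quart_mem (i : ℕ) (hi : i < 220) : semK 4 (codeAt 4 quartLE i) ∈ quartets (bitsOf dM) := by
  have h := allBelow_spec _ 220 quart_list i hi
  rw [forceN_eq] at h
  exact quart_of_chk _ h

theorem q0_mem : semK 4 q0C ∈ quartets (bitsOf dM) := by
  rw [← q0C_eq]
  exact quart_mem 202 (by decide)

theorem q0_has (i : ℕ) (hi : i < 4) : bitsOf (ent q0C 24 i) ∈ semK 4 q0C :=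
  (mem_semK 4 q0C _).2 ⟨i, hi, rfl⟩

/-! ### a quartet is determined by two of its triples -/

def chkU : Bool := octL.all (fun o => forceN (Nat.land (Nat.land o dM) 16777208) (fun tm =>
    !(Nat.beq (popc (Nat.land o dM)) 6) || (!(Nat.beq (popc tm) 3) ||
      (!(hexT (Nat.lor 4120 tm)) || (Nat.beq tm 8960 || Nat.beq tm 327744)))))

set_option maxRecDepth 100000 in
theorem chkU_ok : chkU = true := by decide +kernel

theorem quart_third (t : Finset GolayPt) (ht : t.card = 3)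
    (h1 : bitsOf 7 ∪ t ∈ hexadsOn (bitsOf dM)) (h2 : bitsOf 4120 ∪ t ∈ hexadsOn (bitsOf dM)) :
    t = bitsOf 8960 ∨ t = bitsOf 327744 := by
  obtain ⟨hc, o, ho, he⟩ := h1
  obtain ⟨n, hn, rfl⟩ := (mem_octads o).1 ho
  have h7 : (bitsOf 7).card = 3 := by rw [card_bitsOf]; decide
  have hdisj : Disjoint (bitsOf 7) t := by
    rw [← Finset.card_union_eq_card_add_card, hc, ht, h7]
  have ht' : t = bitsOf (Nat.land (Nat.land n dM) 16777208) := by
    have e1 : t = (bitsOf n ∩ bitsOf dM) \ bitsOf 7 := by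
      rw [he, Finset.union_sdiff_cancel_left hdisj]
    rw [e1, bitsOf_and, bitsOf_sdiff]
    rfl
  have hp6 : popc (Nat.land n dM) = 6 := by
    rw [← hc, ← he, bitsOf_and, card_bitsOf]
    rfl
  have hp3 : popc (Nat.land (Nat.land n dM) 16777208) = 3 := by
    rw [← card_bitsOf, ← ht', ht]
  have hlt : Nat.land (Nat.land n dM) 16777208 < 2 ^ 24 :=
    Nat.and_lt_two_pow _ (by decide)
  have hhex : hexT (Nat.lor 4120 (Nat.land (Nat.land n dM) 16777208)) = true := by
    refine (hexOn_iff _ (Nat.or_lt_two_pow (by decide) hlt)).1 ?_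
    have e2 : bitsOf (Nat.lor 4120 (Nat.land (Nat.land n dM) 16777208)) = bitsOf 4120 ∪ t := by
      rw [ht', bitsOf_or]
      rfl
    have h2' := h2
    rw [← e2] at h2'
    exact h2'
  have hk := List.all_eq_true.1 chkU_ok n hn
  rw [forceN_eq] at hk
  have hk' : (!(Nat.beq (popc (Nat.land n dM)) 6) ||
      (!(Nat.beq (popc (Nat.land (Nat.land n dM) 16777208)) 3) ||
      (!(hexT (Nat.lor 4120 (Nat.land (Nat.land n dM) 16777208))) ||
        (Nat.beq (Nat.land (Nat.land n dM) 16777208) 8960 ||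
          Nat.beq (Nat.land (Nat.land n dM) 16777208) 327744)))) = true := hk
  rw [(beq_iff _ _).2 hp6, (beq_iff _ _).2 hp3, hhex] at hk'
  simp only [Bool.not_true, Bool.false_or, Bool.or_eq_true] at hk'
  rcases hk' with hk' | hk'
  · left
    rw [ht', (beq_iff _ _).1 hk']
  · right
    rw [ht', (beq_iff _ _).1 hk']

theorem quart_unique0 (X : Finset (Finset GolayPt)) (hX : X ∈ quartets (bitsOf dM))
    (h1 : bitsOf 7 ∈ X) (h2 : bitsOf 4120 ∈ X) : X = semK 4 q0C := by
  obtain ⟨e0, e1, e2, e3⟩ := q0_ents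
  apply Finset.eq_of_subset_of_card_le
  · intro t ht
    by_cases ha : t = bitsOf 7
    · rw [ha, ← e0]
      exact q0_has 0 (by decide)
    by_cases hb : t = bitsOf 4120
    · rw [hb, ← e1]
      exact q0_has 1 (by decide)
    rcases quart_third t (hX.2.1 t ht).1 (hX.2.2 _ h1 t ht (fun h => ha h.symm))
      (hX.2.2 _ h2 t ht (fun h => hb h.symm)) with hc | hc
    · rw [hc, ← e2]
      exact q0_has 2 (by decide)
    · rw [hc, ← e3]
      exact q0_has 3 (by decide)
  · rw [hX.1, q0_mem.1]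

set_option maxRecDepth 100000 in
theorem oct5_chk : octL.all (fun n => !(tb n 0 && (tb n 1 && (tb n 2 && (tb n 3 && tb n 4)))) ||
    Nat.beq (Nat.land n dM) 4127) = true := by decide +kernel

theorem qpair_to_base (t u : Finset GolayPt) (ht : t.card = 3) (hu : u.card = 3)
    (hd : Disjoint t u) (hh : t ∪ u ∈ hexadsOn (bitsOf dM)) :
    ∃ g ∈ M24, g • bitsOf dM = bitsOf dM ∧ g • t = bitsOf 7 ∧ g • u = bitsOf 4120 := by
  obtain ⟨a, b, c, hab, hac, hbc, rfl⟩ := Finset.card_eq_three.1 ht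
  obtain ⟨d, e, f, hde, hdf, hef, rfl⟩ := Finset.card_eq_three.1 hu
  have hsub : ({a, b, c} ∪ {d, e, f} : Finset GolayPt) ⊆ bitsOf dM := by
    obtain ⟨_, o, _, he⟩ := hh
    rw [← he]
    exact Finset.inter_subset_right
  have hd' := Finset.disjoint_left.1 hd
  have had : a ≠ d := fun h => hd' (a := a) (by simp) (by simp [h])
  have hae : a ≠ e := fun h => hd' (a := a) (by simp) (by simp [h])
  have hbd : b ≠ d := fun h => hd' (a := b) (by simp) (by simp [h])
  have hbe : b ≠ e := fun h => hd' (a := b) (by simp) (by simp [h])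
  have hcd : c ≠ d := fun h => hd' (a := c) (by simp) (by simp [h])
  have hce : c ≠ e := fun h => hd' (a := c) (by simp) (by simp [h])
  have hnd : [a, b, c, d, e].Nodup := by
    simp only [List.nodup_cons, List.mem_cons, List.not_mem_nil, or_false, not_or,
      List.nodup_nil, and_true, not_false_eq_true]
    exact ⟨⟨hab, hac, had, hae⟩, ⟨hbc, hbd, hbe⟩, ⟨hcd, hce⟩, hde⟩
  obtain ⟨g, hg, hgi⟩ := m12_to_base [a, b, c, d, e] hnd (by
    intro p hp
    apply hsub
    simp only [List.mem_cons, List.not_mem_nil, or_false] at hp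
    simp only [Finset.mem_union, Finset.mem_insert, Finset.mem_singleton]
    tauto) (by simp)
  have h0 : g a = ptOf 0 := hgi 0 (by simp)
  have h1 : g b = ptOf 1 := hgi 1 (by simp)
  have h2 : g c = ptOf 2 := hgi 2 (by simp)
  have h3 : g d = ptOf 3 := hgi 3 (by simp)
  have h4 : g e = ptOf 4 := hgi 4 (by simp)
  have hgM : g ∈ M24 := hg.1
  have hgd : g • bitsOf dM = bitsOf dM := hg.2.1 dM (by simp)
  have ht1 : g • ({a, b, c} : Finset GolayPt) = bitsOf 7 := by
    rw [bits7, Finset.smul_finset_insert, Finset.smul_finset_insert,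
      Finset.smul_finset_singleton, Equiv.Perm.smul_def, Equiv.Perm.smul_def,
      Equiv.Perm.smul_def, h0, h1, h2]
    simp
  have hh' := hexadsOn_smul g hgM _ _ hh
  rw [hgd] at hh'
  obtain ⟨hc', o, ho, he⟩ := hh'
  obtain ⟨n, hn, rfl⟩ := (mem_octads o).1 ho
  have hin : ∀ p ∈ ({a, b, c} ∪ {d, e, f} : Finset GolayPt), g p ∈ bitsOf n := by
    intro p hp
    have h5 : g • p ∈ g • ({a, b, c} ∪ {d, e, f} : Finset GolayPt) :=
      Finset.smul_mem_smul_finset hp
    rw [← he] at h5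
    exact (Finset.mem_inter.1 h5).1
  have t0 : tb n 0 = true := (mem_bits_tb n 0 (by decide)).1 (h0 ▸ hin a (by simp))
  have t1 : tb n 1 = true := (mem_bits_tb n 1 (by decide)).1 (h1 ▸ hin b (by simp))
  have t2 : tb n 2 = true := (mem_bits_tb n 2 (by decide)).1 (h2 ▸ hin c (by simp))
  have t3 : tb n 3 = true := (mem_bits_tb n 3 (by decide)).1 (h3 ▸ hin d (by simp))
  have t4 : tb n 4 = true := (mem_bits_tb n 4 (by decide)).1 (h4 ▸ hin e (by simp))
  have hk := List.all_eq_true.1 oct5_chk n hn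
  rw [t0, t1, t2, t3, t4] at hk
  have hk' : Nat.land n dM = 4127 := (beq_iff _ _).1 (by simpa using hk)
  have hun : g • ({a, b, c} ∪ {d, e, f} : Finset GolayPt) = bitsOf 4127 := by
    rw [← he, bitsOf_and]
    exact congrArg bitsOf hk'
  refine ⟨g, hgM, hgd, ht1, ?_⟩
  have e1 : ({d, e, f} : Finset GolayPt) = ({a, b, c} ∪ {d, e, f}) \ {a, b, c} :=
    (Finset.union_sdiff_cancel_left hd).symm
  rw [e1, Finset.smul_finset_sdiff, hun, ht1, bitsOf_sdiff]
  rfl

theorem quart_to_base (X : Finset (Finset GolayPt)) (hX : X ∈ quartets (bitsOf dM)) :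
    ∃ g ∈ M24, g • bitsOf dM = bitsOf dM ∧ g • X = semK 4 q0C := by
  obtain ⟨t, htX, u, huX, htu⟩ := Finset.one_lt_card.1 (by rw [hX.1]; norm_num)
  have ht := hX.2.1 t htX
  have hu := hX.2.1 u huX
  have hh := hX.2.2 t htX u huX htu
  have hd : Disjoint t u := by
    rw [← Finset.card_union_eq_card_add_card, hh.1, ht.1, hu.1]
  obtain ⟨g, hg, hgd, hgt, hgu⟩ := qpair_to_base t u ht.1 hu.1 hd hh
  refine ⟨g, hg, hgd, quart_unique0 (g • X) ?_ ?_ ?_⟩
  · have h := quartets_smul g hg _ X hX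
    rw [hgd] at h
    exact h
  · rw [← hgt]
    exact Finset.smul_mem_smul_finset htX
  · rw [← hgu]
    exact Finset.smul_mem_smul_finset huX

end Cfsg.Agent.Lib.Helper9.Leech
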