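import Cfsg.Agent.Lib.Helper9.Qt
import Cfsg.Agent.Lib.Helper9.RankB
import Cfsg.Agent.Lib.Helper9.Syl2

set_option autoImplicit false
open Cfsg

namespace Cfsg.Agent.Lib.Helper9.Leech

open scoped Pointwise
open Cfsg.Agent.S5393 Cfsg.Agent.S5548

/-! ### the stabiliser of the standard quartet, and the number of quartets -/

def InQ (g : Equiv.Perm GolayPt) : Prop :=
  g • bitsOf dM = bitsOf dM ∧ g • semK 4 q0C = semK 4 q0C

def locQ (d a y : ℕ) : Bool := locM [dM] d a y && sameLoc 4 q0C d a y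

def passQ (t : ℕ) : Bool := Nat.beq (pullN t dM) dM && fixK 4 t q0C

set_option maxRecDepth 100000 in
theorem srchQ : srch locQ passQ srLv 0 idN = 432 := by decide +kernel

theorem InQ_iff (g : Equiv.Perm GolayPt) (t : ℕ) (hg : TblP g (tblOf t)) :
    InQ g ↔ passQ t = true := by
  unfold InQ passQ
  rw [Bool.and_eq_true, ← fix_mask_iff g t hg dM dM_lt_pow, ← fixK_iff g t hg 4]

theorem cardQ : {g | g ∈ M24 ∧ InQ g}.ncard = 432 := by
  rw [← srchQ]
  apply m24_count InQ locQ passQ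
  · intro g _ t hg
    exact InQ_iff g t hg
  · intro g _ hΦ d hd a hagree
    unfold locQ
    rw [Bool.and_eq_true]
    exact ⟨locM_sound [dM] g (fun m hm => by
        rw [List.mem_singleton] at hm
        rw [hm]
        exact hΦ.1) d hd a, sameLoc_sound g 4 q0C hΦ.2 d hd a hagree⟩

theorem mem_m12S (g : Equiv.Perm GolayPt) :
    g ∈ cfgSub [dM] [] ↔ g ∈ M24 ∧ g • bitsOf dM = bitsOf dM := by
  constructor
  · intro h
    exact ⟨h.1, h.2.1 dM (by simp)⟩
  · rintro ⟨h1, h2⟩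
    refine ⟨h1, ?_, ?_⟩
    · intro m hm
      rw [List.mem_singleton] at hm
      rw [hm]
      exact h2
    · intro j hj
      exact absurd hj (by simp)

theorem q0_orbit :
    MulAction.orbit ↥(cfgSub [dM] []) (semK 4 q0C) = quartets (bitsOf dM) := by
  ext X
  rw [MulAction.mem_orbit_iff]
  constructor
  · rintro ⟨⟨g, hg⟩, rfl⟩
    have hg' := (mem_m12S g).1 hg
    have h := quartets_smul g hg'.1 _ _ q0_mem
    rw [hg'.2] at h
    exact h
  · intro hX
    obtain ⟨g, hg, hgd, hgX⟩ := quart_to_base X hX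
    refine ⟨⟨g⁻¹, inv_mem ((mem_m12S g).2 ⟨hg, hgd⟩)⟩, ?_⟩
    change g⁻¹ • semK 4 q0C = X
    rw [← hgX, inv_smul_smul]

theorem q0_stab_card :
    Nat.card ↥(MulAction.stabilizer ↥(cfgSub [dM] []) (semK 4 q0C)) = 432 := by
  rw [← cardQ, ← Nat.card_coe_set_eq]
  apply Nat.card_congr
  exact
    { toFun := fun n => ⟨(n : ↥(cfgSub [dM] [])).1, ((mem_m12S _).1 (n : ↥(cfgSub [dM] [])).2).1,
        ((mem_m12S _).1 (n : ↥(cfgSub [dM] [])).2).2, MulAction.mem_stabilizer_iff.1 n.2⟩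
      invFun := fun g => ⟨⟨g.1, (mem_m12S _).2 ⟨g.2.1, g.2.2.1⟩⟩,
        MulAction.mem_stabilizer_iff.2 g.2.2.2⟩
      left_inv := fun _ => rfl
      right_inv := fun _ => rfl }

theorem quart_card0 : (quartets (bitsOf dM)).ncard = 220 := by
  have h1 := MulAction.index_stabilizer ↥(cfgSub [dM] []) (semK 4 q0C)
  have h2 := Subgroup.card_mul_index (MulAction.stabilizer ↥(cfgSub [dM] []) (semK 4 q0C))
  rw [q0_stab_card, card_m12, h1, q0_orbit] at h2
  omega

theorem quart_trans0 (X Y : Finset (Finset GolayPt)) (hX : X ∈ quartets (bitsOf dM))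
    (hY : Y ∈ quartets (bitsOf dM)) :
    ∃ g ∈ M24, g • bitsOf dM = bitsOf dM ∧ g • X = Y := by
  obtain ⟨g, hg, hgd, hgX⟩ := quart_to_base X hX
  obtain ⟨g', hg', hgd', hgY⟩ := quart_to_base Y hY
  refine ⟨g'⁻¹ * g, mul_mem (inv_mem hg') hg, ?_, ?_⟩
  · rw [mul_smul, hgd, inv_smul_eq_iff, hgd']
  · rw [mul_smul, hgX, inv_smul_eq_iff, hgY]

/-! ### transport to an arbitrary dodecad -/

theorem quartets_pull (σ : Equiv.Perm GolayPt) (hσ : σ ∈ M24) (d : Finset GolayPt)
    (X : Finset (Finset GolayPt)) : X ∈ quartets (σ • d) ↔ σ⁻¹ • X ∈ quartets d := by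
  constructor
  · intro h
    have h1 := quartets_smul σ⁻¹ (inv_mem hσ) _ X h
    rw [inv_smul_smul] at h1
    exact h1
  · intro h
    have h1 := quartets_smul σ hσ _ _ h
    rw [smul_inv_smul] at h1
    exact h1

theorem s1597 (d : Finset GolayPt) (hd : d ∈ dodecads) :
    (quartets d).ncard = 220 ∧ ∀ Q ∈ quartets d, ∀ Q' ∈ quartets d,
      ∃ g : Equiv.Perm GolayPt, g ∈ M24 ∧ g • d = d ∧ g • Q = Q' := by
  obtain ⟨σ, hσ, rfl⟩ := dod_to_dM d hd
  constructor
  · have h1 : quartets (σ • bitsOf dM) = (fun X => σ • X) '' quartets (bitsOf dM) := by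
      ext X
      rw [quartets_pull σ hσ, Set.mem_image]
      constructor
      · intro h
        exact ⟨σ⁻¹ • X, h, smul_inv_smul σ X⟩
      · rintro ⟨Y, hY, rfl⟩
        rw [inv_smul_smul]
        exact hY
    rw [h1, Set.ncard_image_of_injective _ (MulAction.injective σ), quart_card0]
  · intro Q hQ Q' hQ'
    obtain ⟨g, hg, hgd, hgQ⟩ := quart_trans0 _ _ ((quartets_pull σ hσ _ Q).1 hQ)
      ((quartets_pull σ hσ _ Q').1 hQ')
    refine ⟨σ * g * σ⁻¹, mul_mem (mul_mem hσ hg) (inv_mem hσ), ?_, ?_⟩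
    · rw [mul_smul, mul_smul, inv_smul_smul, hgd]
    · rw [mul_smul, mul_smul, hgQ, smul_inv_smul]

theorem s1596 (d : Finset GolayPt) (hd : d ∈ dodecads) (t u : Finset GolayPt)
    (ht : t.card = 3) (hu : u.card = 3) (_htu : Disjoint t u) (hh : t ∪ u ∈ hexadsOn d) :
    ∃! Q : Finset (Finset GolayPt), Q ∈ quartets d ∧ t ∈ Q ∧ u ∈ Q := by
  obtain ⟨σ, hσ, rfl⟩ := dod_to_dM d hd
  have hh' := hexadsOn_smul σ⁻¹ (inv_mem hσ) _ _ hh
  rw [inv_smul_smul, Finset.smul_finset_union] at hh'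
  have hdis : Disjoint (σ⁻¹ • t) (σ⁻¹ • u) := by
    rw [← Finset.card_union_eq_card_add_card, hh'.1, Finset.card_smul_finset,
      Finset.card_smul_finset, ht, hu]
  obtain ⟨g, hg, hgd, hgt, hgu⟩ := qpair_to_base (σ⁻¹ • t) (σ⁻¹ • u)
    (by rw [Finset.card_smul_finset]; exact ht) (by rw [Finset.card_smul_finset]; exact hu)
    hdis hh'
  obtain ⟨e0, e1, _, _⟩ := q0_ents
  have key : ∀ Q : Finset (Finset GolayPt), (Q ∈ quartets (σ • bitsOf dM) ∧ t ∈ Q ∧ u ∈ Q) ↔
      Q = σ • g⁻¹ • semK 4 q0C := by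
    intro Q
    constructor
    · rintro ⟨hQ, htQ, huQ⟩
      have h1 := (quartets_pull σ hσ _ Q).1 hQ
      have h2 := quartets_smul g hg _ _ h1
      rw [hgd] at h2
      have h3 := quart_unique0 _ h2 (by
        rw [← hgt]
        exact Finset.smul_mem_smul_finset (Finset.smul_mem_smul_finset htQ)) (by
        rw [← hgu]
        exact Finset.smul_mem_smul_finset (Finset.smul_mem_smul_finset huQ))
      rw [← h3, inv_smul_smul, smul_inv_smul]
    · rintro rfl
      refine ⟨?_, ?_, ?_⟩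
      · rw [quartets_pull σ hσ, inv_smul_smul]
        have h1 := quartets_smul g⁻¹ (inv_mem hg) _ _ q0_mem
        rw [inv_smul_eq_iff.2 hgd.symm] at h1
        exact h1
      · have h1 : t = σ • g⁻¹ • bitsOf 7 := by
          rw [← hgt, inv_smul_smul, smul_inv_smul]
        rw [h1, ← e0]
        exact Finset.smul_mem_smul_finset (Finset.smul_mem_smul_finset (q0_has 0 (by decide)))
      · have h1 : u = σ • g⁻¹ • bitsOf 4120 := by
          rw [← hgu, inv_smul_smul, smul_inv_smul]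
        rw [h1, ← e1]
        exact Finset.smul_mem_smul_finset (Finset.smul_mem_smul_finset (q0_has 1 (by decide)))
  exact ⟨σ • g⁻¹ • semK 4 q0C, (key _).2 rfl, fun Q hQ => (key Q).1 hQ⟩

end Cfsg.Agent.Lib.Helper9.Leech
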