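import Cfsg.Agent.Lib.Helper9.Qt2
import Cfsg.Agent.Lib.Helper9.QtOrbData
import Cfsg.Agent.Lib.Helper9.Cfg
import Cfsg.Agent.Lib.Helper9.Code4

set_option autoImplicit false
open Cfsg

namespace Cfsg.Agent.Lib.Helper9.Leech

open scoped Pointwise
open Cfsg.Agent.S5393 Cfsg.Agent.S5548

/-! ### orbit classes of a stabiliser on a family closed under that stabiliser -/

theorem orbit_classesW (B : Finset (Finset GolayPt)) (Fam : Set (Finset (Finset GolayPt)))
    (k LE N : ℕ) (hF : ∀ X, X ∈ Fam ↔ ∃ i < N, semK k (codeAt k LE i) = X)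
    (hcl : ∀ g ∈ M24, g • B = B → ∀ X ∈ Fam, g • X ∈ Fam)
    (hchk : famChk k LE N = true)
    (T : ℕ → ℕ) (hT : ∀ gi, ∃ g ∈ M24, g • B = B ∧ TblP g (tblOf (T gi)))
    (E W : ℕ) (htree : treeOKN (stepKO k) T (decK k) (ent E W) N = true)
    (hcodes : treeCodes k E W N LE = true)
    (ι : Finset (Finset GolayPt) → ℕ)
    (hι : ∀ g ∈ M24, g • B = B → ∀ X, ι (g • X) = ι X)
    (roots : List (ℕ × ℕ))
    (hroots : allBelow (fun i => roots.any (fun rv => Nat.beq (rootAt k E W i) rv.1)) N = true)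
    (hlt : ∀ rv ∈ roots, rv.1 < N)
    (hval : ∀ rv ∈ roots, ι (semK k (codeAt k LE rv.1)) = rv.2)
    (hnd1 : (roots.map Prod.fst).Nodup) (hnd2 : (roots.map Prod.snd).Nodup) :
    OrbSpec B Fam (roots.map (fun rv => cntRoot k E W N rv.1)) ∧
    (∀ rv ∈ roots, {X | X ∈ Fam ∧ ι X = rv.2}.ncard = cntRoot k E W N rv.1) ∧
    (∀ X ∈ Fam, ∀ Y ∈ Fam, ι X = ι Y → SR B X Y) := by
  have hkt := ktree (M24 ⊓ MulAction.stabilizer (Equiv.Perm GolayPt) B) k T (by
    intro gi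
    obtain ⟨g, hg, hb, ht⟩ := hT gi
    exact ⟨g, ⟨hg, MulAction.mem_stabilizer_iff.2 hb⟩, ht⟩) E W N LE htree hcodes
  have NF : ∀ i < N, ∃ rv ∈ roots, rv.1 = rootAt k E W i ∧
      SR B (semK k (codeAt k LE rv.1)) (semK k (codeAt k LE i)) ∧
      ι (semK k (codeAt k LE i)) = rv.2 := by
    intro i hi
    obtain ⟨rv, hrv, hre⟩ := List.any_eq_true.1 (allBelow_spec _ N hroots i hi)
    have hre' : rootAt k E W i = rv.1 := Nat.eq_of_beq_eq_true hre
    obtain ⟨_, g, hg, he⟩ := hkt i hi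
    rw [hre'] at he
    refine ⟨rv, hrv, hre'.symm, ⟨g, hg.1, MulAction.mem_stabilizer_iff.1 hg.2, he⟩, ?_⟩
    rw [← he, hι g hg.1 (MulAction.mem_stabilizer_iff.1 hg.2), hval rv hrv]
  have C2 : ∀ rv ∈ roots, ∀ X, SR B (semK k (codeAt k LE rv.1)) X ↔ (X ∈ Fam ∧ ι X = rv.2) := by
    intro rv hrv X
    constructor
    · rintro ⟨g, hg, hb, rfl⟩
      exact ⟨hcl g hg hb _ ((hF _).2 ⟨rv.1, hlt rv hrv, rfl⟩), by rw [hι g hg hb, hval rv hrv]⟩
    · rintro ⟨hX, hv⟩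
      obtain ⟨i, hi, rfl⟩ := (hF X).1 hX
      obtain ⟨rv', hrv', _, hs, hv'⟩ := NF i hi
      have h1 : rv' = rv := List.inj_on_of_nodup_map hnd2 hrv' hrv (by rw [← hv', hv])
      rw [← h1]
      exact hs
  have C3 : ∀ rv ∈ roots, {X | X ∈ Fam ∧ ι X = rv.2}.ncard = cntRoot k E W N rv.1 := by
    intro rv hrv
    unfold cntRoot
    apply ncard_famG Fam N (fun i => semK k (codeAt k LE i)) hF
      (fun i hi j hj hij => fam_inj k LE N hchk i j hi hj hij)
    intro i hi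
    obtain ⟨rv', hrv', hr', _, hv'⟩ := NF i hi
    constructor
    · intro hv
      have h2 : rv' = rv := List.inj_on_of_nodup_map hnd2 hrv' hrv (by rw [← hv', hv])
      rw [← hr', h2]
      exact Nat.beq_refl _
    · intro hq
      have h2 : rv' = rv := List.inj_on_of_nodup_map hnd1 hrv' hrv (by
        rw [hr']
        exact Nat.eq_of_beq_eq_true hq)
      rw [hv', h2]
  refine ⟨⟨roots.map (fun rv => semK k (codeAt k LE rv.1)), ?_, ?_⟩, C3, ?_⟩
  · rw [List.forall₂_map_left_iff, List.forall₂_map_right_iff, List.forall₂_same]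
    intro rv hrv
    refine ⟨(hF _).2 ⟨rv.1, hlt rv hrv, rfl⟩, ?_⟩
    have h1 : {Y | SR B (semK k (codeAt k LE rv.1)) Y} = {Y | Y ∈ Fam ∧ ι Y = rv.2} := by
      ext Y
      exact C2 rv hrv Y
    rw [h1]
    exact C3 rv hrv
  · intro Y
    constructor
    · intro hY
      obtain ⟨i, hi, rfl⟩ := (hF Y).1 hY
      obtain ⟨rv, hrv, _, hs, _⟩ := NF i hi
      exact ⟨_, List.mem_map.2 ⟨rv, hrv, rfl⟩, hs⟩
    · rintro ⟨X, hX, hs⟩
      obtain ⟨rv, hrv, rfl⟩ := List.mem_map.1 hX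
      exact ((C2 rv hrv Y).1 hs).1
  · intro X hX Y hY hXY
    obtain ⟨i, hi, rfl⟩ := (hF X).1 hX
    obtain ⟨rv, hrv, _, hs, hv⟩ := NF i hi
    have h1 := (C2 rv hrv Y).2 ⟨hY, by rw [← hXY, hv]⟩
    exact SR_trans B _ _ _ (SR_symm B _ _ hs) h1

theorem orbit_cfgW (f : ℕ → ℕ) (kb a0 : ℕ) (hva : validK kb a0 = true)
    (Fam : Set (Finset (Finset GolayPt)))
    (k LE N : ℕ) (hF : ∀ X, X ∈ Fam ↔ ∃ i < N, semK k (codeAt k LE i) = X)
    (hcl : ∀ g ∈ M24, g • semK kb a0 = semK kb a0 → ∀ X ∈ Fam, g • X ∈ Fam)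
    (hchk : famChk k LE N = true)
    (S n : ℕ) (hS : slpChk S n = true) (d : ℕ × ℕ) (kh : List (ℕ × ℕ))
    (hk : (d :: kh).all (fun jp => Nat.blt jp.1 n &&
      stepK kb (nodeTbl S jp.1) a0 a0 jp.2) = true)
    (E W : ℕ)
    (htree : treeOKN (stepKO k) (fun gi => nodeTbl S (kh.getD gi d).1) (decK k) (ent E W) N
      = true)
    (hcodes : treeCodes k E W N LE = true)
    (roots : List (ℕ × ℕ))
    (hroots : allBelow (fun i => roots.any (fun rv => Nat.beq (rootAt k E W i) rv.1)) N = true)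
    (hval : roots.all (fun rv => Nat.blt rv.1 N &&
      Nat.beq (pinvN f kb k a0 (codeAt k LE rv.1)) rv.2) = true)
    (hnd1 : (roots.map Prod.fst).Nodup) (hnd2 : (roots.map Prod.snd).Nodup) :
    OrbSpec (semK kb a0) Fam (roots.map (fun rv => cntRoot k E W N rv.1)) ∧
    (∀ rv ∈ roots, {X | X ∈ Fam ∧ pinv f (semK kb a0) X = rv.2}.ncard =
      cntRoot k E W N rv.1) ∧
    (∀ X ∈ Fam, ∀ Y ∈ Fam, pinv f (semK kb a0) X = pinv f (semK kb a0) Y →
      SR (semK kb a0) X Y) := by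
  rw [List.all_eq_true] at hval
  apply orbit_classesW (semK kb a0) Fam k LE N hF hcl hchk _
    (gensB_valid S n hS kb a0 d kh hk) E W htree hcodes (fun X => pinv f (semK kb a0) X) ?_
    roots hroots ?_ ?_ hnd1 hnd2
  · intro g _ hb X
    have h1 := pinv_smul f g (semK kb a0) X
    rw [hb] at h1
    exact h1
  · intro rv hrv
    have h1 := hval rv hrv
    rw [Bool.and_eq_true] at h1
    exact Nat.le_of_ble_eq_true h1.1
  · intro rv hrv
    have h1 := hval rv hrv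
    rw [Bool.and_eq_true] at h1
    have h2 : rv.1 < N := Nat.le_of_ble_eq_true h1.1
    change pinv f (semK kb a0) (semK k (codeAt k LE rv.1)) = rv.2
    rw [pinv_code f kb k a0 _ hva (famChk_valid k LE N hchk rv.1 h2)]
    exact Nat.eq_of_beq_eq_true h1.2

/-! ### the quartets of the standard dodecad as an explicit family -/

theorem mem_quart0 (X : Finset (Finset GolayPt)) :
    X ∈ quartets (bitsOf dM) ↔ ∃ i < 220, semK 4 (codeAt 4 quartLE i) = X := by
  have hsub : {X | ∃ i < 220, semK 4 (codeAt 4 quartLE i) = X} ⊆ quartets (bitsOf dM) := by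
    rintro X ⟨i, hi, rfl⟩
    exact quart_mem i hi
  have hcard : {X | ∃ i < 220, semK 4 (codeAt 4 quartLE i) = X}.ncard = 220 := by
    have h1 : {X | ∃ i < 220, semK 4 (codeAt 4 quartLE i) = X} =
        (fun i => semK 4 (codeAt 4 quartLE i)) '' ((Finset.range 220 : Finset ℕ) : Set ℕ) := by
      ext X
      constructor
      · rintro ⟨i, hi, rfl⟩
        exact ⟨i, Finset.mem_range.2 hi, rfl⟩
      · rintro ⟨i, hi, rfl⟩
        exact ⟨i, Finset.mem_range.1 hi, rfl⟩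
    rw [h1, Set.ncard_image_of_injOn, Set.ncard_coe_finset, Finset.card_range]
    intro i hi j hj hij
    exact fam_inj 4 quartLE 220 quart_fam i j (Finset.mem_range.1 hi) (Finset.mem_range.1 hj) hij
  have heq := Set.eq_of_subset_of_ncard_le hsub (by rw [hcard, quart_card0]) (Set.toFinite _)
  rw [← heq]
  rfl

set_option maxRecDepth 100000 in
theorem qtS_ok : slpChk qtS qtN = true := by decide +kernel

set_option maxRecDepth 100000 in
theorem qtA_valid : validK 5 qtA = true := by decide +kernel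

set_option maxRecDepth 100000 in
theorem qt_k : ((0, 274960) :: qtKH).all (fun jp => Nat.blt jp.1 qtN &&
    stepK 5 (nodeTbl qtS jp.1) qtA qtA jp.2) = true := by decide +kernel

set_option maxRecDepth 100000 in
theorem qt_tree : treeOKN (stepKO 4) (fun gi => nodeTbl qtS (qtKH.getD gi (0, 274960)).1)
    (decK 4) (ent qtE 160) 220 = true := by decide +kernel

set_option maxRecDepth 100000 in
theorem qt_codes : treeCodes 4 qtE 160 220 quartLE = true := by decide +kernel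

set_option maxRecDepth 100000 in
theorem qt_roots : allBelow (fun i => qtRoots.any (fun rv =>
    Nat.beq (rootAt 4 qtE 160 i) rv.1)) 220 = true := by decide +kernel

set_option maxRecDepth 100000 in
theorem qt_val : qtRoots.all (fun rv => Nat.blt rv.1 220 &&
    Nat.beq (pinvN nzN 5 4 qtA (codeAt 4 quartLE rv.1)) rv.2) = true := by decide +kernel

set_option maxRecDepth 100000 in
theorem qt_cnt : qtRoots.map (fun rv => cntRoot 4 qtE 160 220 rv.1) = [1, 12, 27, 72, 108] := by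
  decide +kernel

theorem qtA_ents : (∀ i < 4, ent qtA 24 i = ent q0C 24 i) ∧ ent qtA 24 4 = dM := by
  decide +kernel

theorem qtA_eq : semK 5 qtA = insert (bitsOf dM) (semK 4 q0C) := by
  obtain ⟨h1, h2⟩ := qtA_ents
  ext t
  rw [mem_semK, Finset.mem_insert, mem_semK]
  constructor
  · rintro ⟨i, hi, rfl⟩
    rcases Nat.lt_succ_iff_lt_or_eq.1 hi with h | h
    · exact Or.inr ⟨i, h, by rw [h1 i h]⟩
    · left
      rw [h, h2]
  · rintro (rfl | ⟨i, hi, rfl⟩)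
    · exact ⟨4, by decide, by rw [h2]⟩
    · exact ⟨i, by omega, by rw [h1 i hi]⟩

theorem qtA_fix (g : Equiv.Perm GolayPt) : g • semK 5 qtA = semK 5 qtA ↔
    (g • bitsOf dM = bitsOf dM ∧ g • semK 4 q0C = semK 4 q0C) := by
  rw [qtA_eq, Finset.smul_finset_insert]
  have hc12 : (bitsOf dM).card = 12 := by
    rw [card_bitsOf]
    decide +kernel
  have hc3 : ∀ t ∈ semK 4 q0C, t.card = 3 := fun t ht => (q0_mem.2.1 t ht).1
  constructor
  · intro h
    have hd : g • bitsOf dM = bitsOf dM := by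
      have h1 : g • bitsOf dM ∈ insert (bitsOf dM) (semK 4 q0C) := by
        rw [← h]
        exact Finset.mem_insert_self _ _
      rcases Finset.mem_insert.1 h1 with h2 | h2
      · exact h2
      · have h3 := hc3 _ h2
        rw [Finset.card_smul_finset, hc12] at h3
        exact absurd h3 (by decide)
    refine ⟨hd, ?_⟩
    apply Finset.eq_of_subset_of_card_le
    · intro t ht
      obtain ⟨t', ht', rfl⟩ := Finset.mem_smul_finset.1 ht
      have h1 : g • t' ∈ insert (bitsOf dM) (semK 4 q0C) := by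
        rw [← h]
        exact Finset.mem_insert_of_mem (Finset.smul_mem_smul_finset ht')
      rcases Finset.mem_insert.1 h1 with h2 | h2
      · have h3 := hc3 t' ht'
        rw [← Finset.card_smul_finset g, h2, hc12] at h3
        exact absurd h3 (by decide)
      · exact h2
    · rw [Finset.card_smul_finset]
  · rintro ⟨h1, h2⟩
    rw [h1, h2]

theorem qt_cl : ∀ g ∈ M24, g • semK 5 qtA = semK 5 qtA → ∀ X ∈ quartets (bitsOf dM),
    g • X ∈ quartets (bitsOf dM) := by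
  intro g hg hfix X hX
  have h := quartets_smul g hg _ X hX
  rw [((qtA_fix g).1 hfix).1] at h
  exact h

theorem qt_spec : OrbSpec (semK 5 qtA) (quartets (bitsOf dM)) [1, 12, 27, 72, 108] := by
  rw [← qt_cnt]
  exact (orbit_cfgW nzN 5 qtA qtA_valid (quartets (bitsOf dM)) 4 quartLE 220 mem_quart0 qt_cl
    quart_fam qtS qtN qtS_ok (0, 274960) qtKH qt_k qtE 160 qt_tree qt_codes qtRoots qt_roots
    qt_val (by decide) (by decide)).1

/-! ### orbits of a subgroup given as a stabiliser -/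

section SRelK

variable {β γ : Type*} [MulAction (Equiv.Perm GolayPt) β] [MulAction (Equiv.Perm GolayPt) γ]

theorem orbitK_eq (K : Subgroup ↥M24) (b : β)
    (hK : ∀ x : ↥M24, x ∈ K ↔ (x : Equiv.Perm GolayPt) • b = b) (X : γ) :
    MulAction.orbit ↥K X = {Y | SR b X Y} := by
  ext Y
  rw [MulAction.mem_orbit_iff]
  constructor
  · rintro ⟨⟨⟨g, hg⟩, hgK⟩, rfl⟩
    exact ⟨g, hg, (hK ⟨g, hg⟩).1 hgK, rfl⟩
  · rintro ⟨g, hg, hgb, rfl⟩
    exact ⟨⟨⟨g, hg⟩, (hK _).2 hgb⟩, rfl⟩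

theorem orbit_selfQ (b : β) (Q : γ) (hQ : ∀ g ∈ M24, g • b = b → g • Q = Q) (X : γ)
    (h : SR b X Q) : {Y | SR b X Y} = {Q} := by
  have hself : ∀ Y, SR b Q Y ↔ Y = Q := by
    intro Y
    constructor
    · rintro ⟨g, hg, hb, hY⟩
      rw [← hY, hQ g hg hb]
    · rintro rfl
      exact SR_refl b Y
  ext Y
  rw [Set.mem_singleton_iff, ← hself Y]
  constructor
  · intro hY
    exact SR_trans b _ _ _ (SR_symm b _ _ h) hY
  · intro hY
    exact SR_trans b _ _ _ h hY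

theorem OrbSpec_conj2 (σ : Equiv.Perm GolayPt) (hσ : σ ∈ M24) (b : β) (Fam Fam' : Set γ)
    (hF : ∀ X, X ∈ Fam' ↔ σ⁻¹ • X ∈ Fam) (ns : List ℕ) (h : OrbSpec b Fam ns) :
    OrbSpec (σ • b) Fam' ns := by
  obtain ⟨Xs, h1, h2⟩ := h
  refine ⟨Xs.map (fun X => σ • X), ?_, ?_⟩
  · rw [List.forall₂_map_left_iff]
    refine h1.imp ?_
    rintro X n ⟨hX, hn⟩
    refine ⟨(hF _).2 (by rw [inv_smul_smul]; exact hX), ?_⟩
    rw [← hn]
    exact ncard_conj σ {Y | SR b X Y} {Y | SR (σ • b) (σ • X) Y}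
      (fun s => (SR_conj σ hσ b X s).symm)
  · intro Y
    rw [hF Y, h2]
    constructor
    · rintro ⟨X, hX, hs⟩
      refine ⟨σ • X, List.mem_map.2 ⟨X, hX, rfl⟩, ?_⟩
      have h3 := (SR_conj σ hσ b X (σ⁻¹ • Y)).2 hs
      rw [smul_inv_smul] at h3
      exact h3
    · rintro ⟨X', hX', hs⟩
      obtain ⟨X, hX, rfl⟩ := List.mem_map.1 hX'
      refine ⟨X, hX, ?_⟩
      rw [← SR_conj σ hσ b X (σ⁻¹ • Y), smul_inv_smul]
      exact hs

theorem orb1_4K (K : Subgroup ↥M24) (b : β)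
    (hK : ∀ x : ↥M24, x ∈ K ↔ (x : Equiv.Perm GolayPt) • b = b) (Q : γ)
    (hQ : ∀ g ∈ M24, g • b = b → g • Q = Q)
    (Fam : Set γ) (hb : Q ∈ Fam) (n1 n2 n3 n4 : ℕ) (hn1 : n1 ≠ 1)
    (hn2 : n2 ≠ 1) (hn3 : n3 ≠ 1) (hn4 : n4 ≠ 1) (h : OrbSpec b Fam [1, n1, n2, n3, n4]) :
    ∃ X₁ ∈ Fam, ∃ X₂ ∈ Fam, ∃ X₃ ∈ Fam, ∃ X₄ ∈ Fam,
      (MulAction.orbit ↥K X₁).ncard = n1 ∧
      (MulAction.orbit ↥K X₂).ncard = n2 ∧
      (MulAction.orbit ↥K X₃).ncard = n3 ∧
      (MulAction.orbit ↥K X₄).ncard = n4 ∧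
      Fam = {Q} ∪ MulAction.orbit ↥K X₁ ∪
        MulAction.orbit ↥K X₂ ∪
        MulAction.orbit ↥K X₃ ∪
        MulAction.orbit ↥K X₄ := by
  obtain ⟨Xs, hf, hc⟩ := h
  obtain ⟨X0, l0, h0, hf0, rfl⟩ := List.forall₂_cons_right_iff.1 hf
  obtain ⟨X1, l1, h1, hf1, rfl⟩ := List.forall₂_cons_right_iff.1 hf0
  obtain ⟨X2, l2, h2, hf2, rfl⟩ := List.forall₂_cons_right_iff.1 hf1
  obtain ⟨X3, l3, h3, hf3, rfl⟩ := List.forall₂_cons_right_iff.1 hf2
  obtain ⟨X4, l4, h4, hf4, rfl⟩ := List.forall₂_cons_right_iff.1 hf3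
  rw [List.forall₂_nil_right_iff] at hf4
  subst hf4
  have hone : ∀ X n, {Y | SR b X Y}.ncard = n → n ≠ 1 → ¬ SR b X Q := by
    intro X n hX hn hs
    rw [orbit_selfQ b Q hQ X hs, Set.ncard_singleton] at hX
    exact hn hX.symm
  have hX0 : {Y | SR b X0 Y} = {Q} := by
    apply orbit_selfQ b Q hQ
    obtain ⟨X, hX, hs⟩ := (hc Q).1 hb
    simp only [List.mem_cons, List.not_mem_nil, or_false] at hX
    rcases hX with rfl | rfl | rfl | rfl | rfl
    · exact hs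
    · exact absurd hs (hone _ _ h1.2 hn1)
    · exact absurd hs (hone _ _ h2.2 hn2)
    · exact absurd hs (hone _ _ h3.2 hn3)
    · exact absurd hs (hone _ _ h4.2 hn4)
  refine ⟨X1, h1.1, X2, h2.1, X3, h3.1, X4, h4.1, ?_⟩
  rw [orbitK_eq K b hK, orbitK_eq K b hK, orbitK_eq K b hK, orbitK_eq K b hK]
  refine ⟨h1.2, h2.2, h3.2, h4.2, ?_⟩
  rw [← hX0]
  ext Y
  rw [hc Y]
  simp only [List.mem_cons, List.not_mem_nil, or_false, Set.mem_union, Set.mem_ofPred_eq]
  constructor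
  · rintro ⟨X, hX | hX | hX | hX | hX, hs⟩
    · exact Or.inl (Or.inl (Or.inl (Or.inl (hX ▸ hs))))
    · exact Or.inl (Or.inl (Or.inl (Or.inr (hX ▸ hs))))
    · exact Or.inl (Or.inl (Or.inr (hX ▸ hs)))
    · exact Or.inl (Or.inr (hX ▸ hs))
    · exact Or.inr (hX ▸ hs)
  · rintro ((((hs | hs) | hs) | hs) | hs)
    · exact ⟨X0, Or.inl rfl, hs⟩
    · exact ⟨X1, Or.inr (Or.inl rfl), hs⟩
    · exact ⟨X2, Or.inr (Or.inr (Or.inl rfl)), hs⟩
    · exact ⟨X3, Or.inr (Or.inr (Or.inr (Or.inl rfl))), hs⟩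
    · exact ⟨X4, Or.inr (Or.inr (Or.inr (Or.inr rfl))), hs⟩

end SRelK

theorem quart_base_pair (d : Finset GolayPt) (hd : d ∈ dodecads) (Q : Finset (Finset GolayPt))
    (hQ : Q ∈ quartets d) :
    ∃ τ ∈ M24, τ • bitsOf dM = d ∧ τ • semK 4 q0C = Q := by
  obtain ⟨σ, hσ, rfl⟩ := dod_to_dM d hd
  obtain ⟨g, hg, hgd, hgQ⟩ := quart_to_base (σ⁻¹ • Q) ((quartets_pull σ hσ _ Q).1 hQ)
  refine ⟨σ * g⁻¹, mul_mem hσ (inv_mem hg), ?_, ?_⟩
  · rw [mul_smul, inv_smul_eq_iff.2 hgd.symm]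
  · rw [mul_smul, ← hgQ, inv_smul_smul, smul_inv_smul]

theorem s1599 (d : Finset GolayPt) (hd : d ∈ dodecads) (Q : Finset (Finset GolayPt))
    (hQ : Q ∈ quartets d) :
    ∃ X₁ ∈ quartets d, ∃ X₂ ∈ quartets d, ∃ X₃ ∈ quartets d, ∃ X₄ ∈ quartets d,
      (MulAction.orbit ↥(MulAction.stabilizer M24 d ⊓ MulAction.stabilizer M24 Q) X₁).ncard = 12 ∧
      (MulAction.orbit ↥(MulAction.stabilizer M24 d ⊓ MulAction.stabilizer M24 Q) X₂).ncard = 27 ∧
      (MulAction.orbit ↥(MulAction.stabilizer M24 d ⊓ MulAction.stabilizer M24 Q) X₃).ncard = 72 ∧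
      (MulAction.orbit ↥(MulAction.stabilizer M24 d ⊓ MulAction.stabilizer M24 Q) X₄).ncard = 108 ∧
      quartets d = {Q} ∪
        MulAction.orbit ↥(MulAction.stabilizer M24 d ⊓ MulAction.stabilizer M24 Q) X₁ ∪
        MulAction.orbit ↥(MulAction.stabilizer M24 d ⊓ MulAction.stabilizer M24 Q) X₂ ∪
        MulAction.orbit ↥(MulAction.stabilizer M24 d ⊓ MulAction.stabilizer M24 Q) X₃ ∪
        MulAction.orbit ↥(MulAction.stabilizer M24 d ⊓ MulAction.stabilizer M24 Q) X₄ := by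
  obtain ⟨τ, hτ, hτd, hτQ⟩ := quart_base_pair d hd Q hQ
  have hspec : OrbSpec ((d, Q) : Finset GolayPt × Finset (Finset GolayPt)) (quartets d)
      [1, 12, 27, 72, 108] := by
    have h1 := OrbSpec_congr (semK 5 qtA)
      ((bitsOf dM, semK 4 q0C) : Finset GolayPt × Finset (Finset GolayPt))
      (fun g => by rw [qtA_fix, Prod.smul_mk, Prod.mk.injEq]) _ _ qt_spec
    have h2 := OrbSpec_conj2 τ hτ _ (quartets (bitsOf dM)) (quartets d) (fun X => by
      rw [← hτd]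
      exact quartets_pull τ hτ _ X) _ h1
    rw [Prod.smul_mk, hτd, hτQ] at h2
    exact h2
  exact orb1_4K (MulAction.stabilizer M24 d ⊓ MulAction.stabilizer M24 Q) (d, Q) (fun x => by
      rw [Subgroup.mem_inf, MulAction.mem_stabilizer_iff, MulAction.mem_stabilizer_iff,
        Prod.smul_mk, Prod.mk.injEq]
      rfl) Q (fun g _ hb => (Prod.mk.inj hb).2) (quartets d) hQ 12 27 72 108 (by decide)
    (by decide) (by decide) (by decide) hspec

end Cfsg.Agent.Lib.Helper9.Leech
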