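import Cfsg.Agent.Lib.Helper9.QtGLA
import Cfsg.Agent.Lib.Helper9.QtOrb

set_option autoImplicit false
open Cfsg

namespace Cfsg.Agent.Lib.Helper9.Leech

open scoped Pointwise
open Cfsg.Agent.S5393 Cfsg.Agent.S5548

/-! ### the stabiliser of the standard dodecad and quartet -/

def qG : Subgroup ↥M24 :=
  MulAction.stabilizer ↥M24 (bitsOf dM) ⊓ MulAction.stabilizer ↥M24 (semK 4 q0C)

theorem mem_qG (x : ↥M24) : x ∈ qG ↔ InQ (x : Equiv.Perm GolayPt) := by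
  unfold qG InQ
  rw [Subgroup.mem_inf, MulAction.mem_stabilizer_iff, MulAction.mem_stabilizer_iff]
  rfl

theorem card_qG : Nat.card ↥qG = 432 := by
  rw [card_sub_eq qG InQ mem_qG]
  exact cardQ

theorem qt_count (Θ : Equiv.Perm GolayPt → Prop) (θ : ℕ → Bool)
    (hθ : ∀ g t, TblP g (tblOf t) → (Θ g ↔ θ t = true)) :
    {g | g ∈ M24 ∧ (InQ g ∧ Θ g)}.ncard = srch locQ (fun t => passQ t && θ t) srLv 0 idN := by
  apply m24_count (fun g => InQ g ∧ Θ g) locQ (fun t => passQ t && θ t)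
  · intro g _ t hg
    rw [Bool.and_eq_true]
    exact and_congr (InQ_iff g t hg) (hθ g t hg)
  · intro g _ hΦ d hd a hagree
    unfold locQ
    rw [Bool.and_eq_true]
    exact ⟨locM_sound [dM] g (fun m hm => by
        rw [List.mem_singleton] at hm
        rw [hm]
        exact hΦ.1.1) d hd a, sameLoc_sound g 4 q0C hΦ.1.2 d hd a hagree⟩

theorem InQ_conj (g n : Equiv.Perm GolayPt) (hg : InQ g) (hn : InQ n) : InQ (g * n * g⁻¹) := by
  have h1 : g⁻¹ • bitsOf dM = bitsOf dM := by rw [inv_smul_eq_iff, hg.1]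
  have h2 : g⁻¹ • semK 4 q0C = semK 4 q0C := by rw [inv_smul_eq_iff, hg.2]
  exact ⟨by rw [mul_smul, mul_smul, h1, hn.1, hg.1], by rw [mul_smul, mul_smul, h2, hn.2, hg.2]⟩

def qNsub (y1 y2 : Equiv.Perm GolayPt) : Subgroup ↥qG where
  carrier := {x | Commute ((x : ↥M24) : Equiv.Perm GolayPt) y1 ∧
    Commute ((x : ↥M24) : Equiv.Perm GolayPt) y2}
  mul_mem' := fun ha hb => ⟨Commute.mul_left ha.1 hb.1, Commute.mul_left ha.2 hb.2⟩
  one_mem' := ⟨Commute.one_left y1, Commute.one_left y2⟩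
  inv_mem' := fun ha => ⟨Commute.inv_left ha.1, Commute.inv_left ha.2⟩

theorem gl_det (u : GL (Fin 2) (ZMod 3)) :
    (u : Matrix (Fin 2) (Fin 2) (ZMod 3)) 0 0 * (u : Matrix (Fin 2) (Fin 2) (ZMod 3)) 1 1 -
      (u : Matrix (Fin 2) (Fin 2) (ZMod 3)) 0 1 * (u : Matrix (Fin 2) (Fin 2) (ZMod 3)) 1 0 ≠ 0 := by
  rw [← Matrix.det_fin_two]
  exact (Matrix.isUnits_det_units u).ne_zero

def glCode (u : GL (Fin 2) (ZMod 3)) : ℕ :=
  glC ((u : Matrix (Fin 2) (Fin 2) (ZMod 3)) 0 0) ((u : Matrix (Fin 2) (Fin 2) (ZMod 3)) 0 1)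
    ((u : Matrix (Fin 2) (Fin 2) (ZMod 3)) 1 0) ((u : Matrix (Fin 2) (Fin 2) (ZMod 3)) 1 1)

theorem glCode_mul (u v : GL (Fin 2) (ZMod 3)) :
    glT.getD (glCode (u * v)) 0 = mulN (glT.getD (glCode u) 0) (glT.getD (glCode v) 0) := by
  have e := gl_mul _ _ _ _ _ _ _ _ (gl_det u) (gl_det v)
  unfold glCode
  rw [← e, Units.val_mul, Matrix.mul_apply, Matrix.mul_apply, Matrix.mul_apply, Matrix.mul_apply,
    Fin.sum_univ_two, Fin.sum_univ_two, Fin.sum_univ_two, Fin.sum_univ_two]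

instance fact_prime_three : Fact (Nat.Prime 3) := ⟨by norm_num⟩

theorem gl_card : Nat.card (GL (Fin 2) (ZMod 3)) = 48 := by
  have h := Matrix.card_GL_field (𝔽 := ZMod 3) 2
  rw [h]
  simp [Fin.prod_univ_two, ZMod.card]

theorem qG_struct : ∃ (N : Subgroup ↥qG) (_ : N.Normal), Nat.card N = 9 ∧
    Nonempty (↥qG ⧸ N ≃* GL (Fin 2) (ZMod 3)) := by
  obtain ⟨y1, _, hy1t⟩ := slpChk_spec M24 (shift_mem 1) projInv_mem cubeTwist_mem glS glN
    glS_ok qn1K (by decide)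
  obtain ⟨y2, _, hy2t⟩ := slpChk_spec M24 (shift_mem 1) projInv_mem cubeTwist_mem glS glN
    glS_ok qn2K (by decide)
  rw [qn_tbl.1] at hy1t
  rw [qn_tbl.2] at hy2t
  have hθ1 : ∀ g t, TblP g (tblOf t) → ((g * y1 = y1 * g ∧ g * y2 = y2 * g) ↔ cmQ t = true) :=
    fun g t hg => by
      unfold cmQ
      rw [Bool.and_eq_true]
      exact and_congr (comm_iff_tbl g y1 t qn1T hg hy1t) (comm_iff_tbl g y2 t qn2T hg hy2t)
  have hθ2 : ∀ g t, TblP g (tblOf t) →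
      (((∀ s ∈ semK 4 q0C, g • s = s) ∧ g ^ 3 = 1) ↔ fxQ t = true) := fun g t hg => by
    unfold fxQ
    rw [Bool.and_eq_true]
    refine and_congr ?_ (pow_iff_tbl g t 3 hg)
    constructor
    · intro h
      apply allBelow_of
      intro i hi
      exact (fix_mask_iff g t hg _ (ent_lt _ 24 _)).1 (h _ (q0_has i hi))
    · intro h s hs
      obtain ⟨i, hi, rfl⟩ := (mem_semK 4 q0C s).1 hs
      exact (fix_mask_iff g t hg _ (ent_lt _ 24 _)).2 (allBelow_spec _ 4 h i hi)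
  have ca := qt_count _ cmQ hθ1
  rw [srchQA] at ca
  have cb := qt_count (fun g => (g * y1 = y1 * g ∧ g * y2 = y2 * g) ∧
      ((∀ s ∈ semK 4 q0C, g • s = s) ∧ g ^ 3 = 1)) (fun t => cmQ t && fxQ t)
    (fun g t hg => by
      rw [Bool.and_eq_true]
      exact and_congr (hθ1 g t hg) (hθ2 g t hg))
  rw [srchQB] at cb
  have cc := qt_count _ fxQ hθ2
  rw [srchQC] at cc
  have hAB : ∀ g, (g ∈ M24 ∧ (InQ g ∧ (g * y1 = y1 * g ∧ g * y2 = y2 * g))) →
      ((∀ s ∈ semK 4 q0C, g • s = s) ∧ g ^ 3 = 1) := by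
    apply imp_of_ncard
    rw [ca, ← cb]
    congr 1
    ext g
    constructor
    · rintro ⟨⟨h1, h2, h3⟩, h4⟩
      exact ⟨h1, h2, h3, h4⟩
    · rintro ⟨h1, h2, h3, h4⟩
      exact ⟨⟨h1, h2, h3⟩, h4⟩
  have hCB : ∀ g, (g ∈ M24 ∧ (InQ g ∧ ((∀ s ∈ semK 4 q0C, g • s = s) ∧ g ^ 3 = 1))) →
      (g * y1 = y1 * g ∧ g * y2 = y2 * g) := by
    apply imp_of_ncard
    rw [cc, ← cb]
    congr 1
    ext g
    constructor
    · rintro ⟨⟨h1, h2, h3⟩, h4⟩
      exact ⟨h1, h2, h4, h3⟩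
    · rintro ⟨h1, h2, h3, h4⟩
      exact ⟨⟨h1, h2, h4⟩, h3⟩
  have hnorm : (qNsub y1 y2).Normal := by
    refine ⟨?_⟩
    intro n hn g
    have hnQ : InQ ((n : ↥M24) : Equiv.Perm GolayPt) := (mem_qG (n : ↥M24)).1 n.2
    have hgQ : InQ ((g : ↥M24) : Equiv.Perm GolayPt) := (mem_qG (g : ↥M24)).1 g.2
    have h1 := hAB _ ⟨(n : ↥M24).2, hnQ, hn.1, hn.2⟩
    have hcQ := InQ_conj _ _ hgQ hnQ
    have hfix : ∀ s ∈ semK 4 q0C, (((g : ↥M24) : Equiv.Perm GolayPt) *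
        ((n : ↥M24) : Equiv.Perm GolayPt) * ((g : ↥M24) : Equiv.Perm GolayPt)⁻¹) • s = s := by
      intro s hs
      have hs' : ((g : ↥M24) : Equiv.Perm GolayPt)⁻¹ • s ∈ semK 4 q0C := by
        have h2 := Finset.smul_mem_smul_finset (a := ((g : ↥M24) : Equiv.Perm GolayPt)⁻¹) hs
        rw [inv_smul_eq_iff.2 hgQ.2.symm] at h2
        exact h2
      rw [mul_smul, mul_smul, h1.1 _ hs', smul_inv_smul]
    have hcube : (((g : ↥M24) : Equiv.Perm GolayPt) * ((n : ↥M24) : Equiv.Perm GolayPt) *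
        ((g : ↥M24) : Equiv.Perm GolayPt)⁻¹) ^ 3 = 1 := by
      rw [conj_pow, h1.2, mul_one, mul_inv_cancel]
    have h3 := hCB _ ⟨mul_mem (mul_mem (g : ↥M24).2 (n : ↥M24).2) (inv_mem (g : ↥M24).2),
      hcQ, hfix, hcube⟩
    exact ⟨h3.1, h3.2⟩
  have hcard : Nat.card ↥(qNsub y1 y2) = 9 := by
    rw [← ca, ← Nat.card_coe_set_eq]
    apply Nat.card_congr
    exact
      { toFun := fun x => ⟨((x.1 : ↥M24) : Equiv.Perm GolayPt), (x.1 : ↥M24).2,
          (mem_qG (x.1 : ↥M24)).1 x.1.2, x.2.1, x.2.2⟩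
        invFun := fun z => ⟨⟨⟨z.1, z.2.1⟩, (mem_qG _).2 z.2.2.1⟩, z.2.2.2.1, z.2.2.2.2⟩
        left_inv := fun _ => rfl
        right_inv := fun _ => rfl }
  refine ⟨qNsub y1 y2, hnorm, hcard, ?_⟩
  have ex : ∀ u : GL (Fin 2) (ZMod 3), ∃ g : Equiv.Perm GolayPt,
      g ∈ M24 ∧ TblP g (tblOf (glT.getD (glCode u) 0)) := fun u => by
    have h := gl_in _ _ _ _ (gl_det u)
    rw [Bool.and_eq_true, Bool.and_eq_true] at h
    have h2 : nodeTbl glS (glK.getD (glCode u) 0) = glT.getD (glCode u) 0 :=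
      Nat.eq_of_beq_eq_true h.1.2
    rw [← h2]
    exact slpChk_spec M24 (shift_mem 1) projInv_mem cubeTwist_mem glS glN glS_ok _
      (Nat.le_of_ble_eq_true h.1.1)
  choose F hFM hFT using ex
  have hFQ : ∀ u, InQ (F u) := fun u => by
    have h := gl_in _ _ _ _ (gl_det u)
    rw [Bool.and_eq_true] at h
    exact (InQ_iff (F u) _ (hFT u)).2 h.2
  have hmul : ∀ u v, F (u * v) = F u * F v := by
    intro u v
    apply tbl_unique _ _ _ (hFT (u * v))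
    rw [glCode_mul u v]
    exact mulN_spec _ _ _ _ (hFT u) (hFT v)
  let f : GL (Fin 2) (ZMod 3) →* ↥qG := MonoidHom.mk'
    (fun u => ⟨⟨F u, hFM u⟩, (mem_qG _).2 (hFQ u)⟩)
    (fun u v => Subtype.ext (Subtype.ext (hmul u v)))
  let ψ : GL (Fin 2) (ZMod 3) →* ↥qG ⧸ qNsub y1 y2 := (QuotientGroup.mk' (qNsub y1 y2)).comp f
  have hinj : Function.Injective ψ := by
    rw [injective_iff_map_eq_one]
    intro u hu
    have h1 : f u ∈ qNsub y1 y2 := (QuotientGroup.eq_one_iff _).1 hu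
    have h2 : cmQ (glT.getD (glCode u) 0) = true := (hθ1 (F u) _ (hFT u)).1 ⟨h1.1, h1.2⟩
    obtain ⟨e1, e2, e3, e4⟩ := gl_inj _ _ _ _ (gl_det u) h2
    apply Units.ext
    ext i j
    fin_cases i <;> fin_cases j
    · exact e1
    · exact e2
    · exact e3
    · exact e4
  have hbij : Function.Bijective ψ := by
    rw [Nat.bijective_iff_injective_and_card]
    refine ⟨hinj, ?_⟩
    have h1 := Subgroup.card_eq_card_quotient_mul_card_subgroup (qNsub y1 y2)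
    rw [card_qG, hcard] at h1
    rw [gl_card]
    omega
  exact ⟨(MulEquiv.ofBijective ψ hbij).symm⟩

end Cfsg.Agent.Lib.Helper9.Leech
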