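import Cfsg.Agent.Lib.Helper9.QtGL

set_option autoImplicit false
open Cfsg

namespace Cfsg.Agent.Lib.Helper9.Leech

open scoped Pointwise
open Cfsg.Agent.S5393 Cfsg.Agent.S5548

/-! ### the quartet stabiliser is transitive on the dodecad -/

set_option maxRecDepth 100000 in
theorem qtPT_chk : ∀ j < 24, tb dM j = true →
    ((Nat.blt (qtPT.getD j (0, 0)).1 qtN && passQ (nodeTbl qtS (qtPT.getD j (0, 0)).1)) &&
      Nat.beq (fld (nodeTbl qtS (qtPT.getD j (0, 0)).1) 0) j) = true := by decide +kernel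

theorem qG_pt (p : GolayPt) (hp : p ∈ bitsOf dM) : ∃ g ∈ M24, InQ g ∧ g (ptOf 0) = p := by
  have h1 : tb dM (idx p) = true := by
    rw [tb_eq]
    exact (mem_bitsOf dM p).1 hp
  have h := qtPT_chk (idx p) (idx_lt p) h1
  rw [Bool.and_eq_true, Bool.and_eq_true] at h
  obtain ⟨g, hg, ht⟩ := slpChk_spec M24 (shift_mem 1) projInv_mem cubeTwist_mem qtS qtN qtS_ok _
    (Nat.le_of_ble_eq_true h.1.1)
  refine ⟨g, hg, (InQ_iff g _ ht).2 h.1.2, ?_⟩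
  apply idx_inj
  rw [TblP_idx g _ ht, idx_ptOf 0 (by norm_num)]
  exact Nat.eq_of_beq_eq_true h.2

theorem quot_iso_of_equiv {H H' : Type*} [Group H] [Group H'] (e : H ≃* H') (c : ℕ)
    {K : Type*} [Group K]
    (h : ∃ (N : Subgroup H) (_ : N.Normal), Nat.card N = c ∧ Nonempty (H ⧸ N ≃* K)) :
    ∃ (N : Subgroup H') (_ : N.Normal), Nat.card N = c ∧ Nonempty (H' ⧸ N ≃* K) := by
  obtain ⟨N, hN, hc, ⟨φ⟩⟩ := h
  have hN' : (N.map e.toMonoidHom).Normal := Subgroup.Normal.map hN _ e.surjective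
  refine ⟨N.map e.toMonoidHom, hN', ?_, ?_⟩
  · rw [← hc]
    exact Nat.card_congr (N.equivMapOfInjective _ e.injective).toEquiv.symm
  · exact ⟨(QuotientGroup.congr N (N.map e.toMonoidHom) e rfl).symm.trans φ⟩

theorem s1598 (d : Finset GolayPt) (hd : d ∈ dodecads) (Q : Finset (Finset GolayPt))
    (hQ : Q ∈ quartets d) :
    Nat.card ↥(MulAction.stabilizer ↥M24 d ⊓ MulAction.stabilizer ↥M24 Q) = 432 ∧
    (∃ (N : Subgroup ↥(MulAction.stabilizer ↥M24 d ⊓ MulAction.stabilizer ↥M24 Q))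
      (_ : N.Normal), Nat.card N = 9 ∧
      Nonempty (↥(MulAction.stabilizer ↥M24 d ⊓ MulAction.stabilizer ↥M24 Q) ⧸ N ≃*
        GL (Fin 2) (ZMod 3))) ∧
    ∀ p ∈ d, ∀ q ∈ d, ∃ g ∈ (MulAction.stabilizer ↥M24 d ⊓ MulAction.stabilizer ↥M24 Q),
      ((g : ↥M24) : Equiv.Perm GolayPt) p = q := by
  obtain ⟨τ, hτ, rfl, rfl⟩ := quart_base_pair d hd Q hQ
  have hinj : Function.Injective (MulAut.conj (⟨τ, hτ⟩ : ↥M24)).toMonoidHom :=
    (MulAut.conj (⟨τ, hτ⟩ : ↥M24)).injective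
  have e : MulAction.stabilizer ↥M24 (τ • bitsOf dM) ⊓
      MulAction.stabilizer ↥M24 (τ • semK 4 q0C) =
      qG.map (MulAut.conj (⟨τ, hτ⟩ : ↥M24)).toMonoidHom := by
    unfold qG
    rw [Subgroup.map_inf _ _ _ hinj, ← MulAction.stabilizer_smul_eq_stabilizer_map_conj,
      ← MulAction.stabilizer_smul_eq_stabilizer_map_conj]
    rfl
  refine ⟨?_, ?_, ?_⟩
  · rw [e, ← Nat.card_congr (qG.equivMapOfInjective _ hinj).toEquiv]
    exact card_qG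
  · rw [e]
    exact quot_iso_of_equiv (qG.equivMapOfInjective _ hinj) 9 qG_struct
  · intro p hp q hq
    obtain ⟨g1, hg1, hg1Q, hg1p⟩ := qG_pt (τ⁻¹ p) ((smul_inv_mem τ _ p).2 hp)
    obtain ⟨g2, hg2, hg2Q, hg2q⟩ := qG_pt (τ⁻¹ q) ((smul_inv_mem τ _ q).2 hq)
    have hk : InQ (g2 * g1⁻¹) := by
      have h1 : g1⁻¹ • bitsOf dM = bitsOf dM := by rw [inv_smul_eq_iff, hg1Q.1]
      have h2 : g1⁻¹ • semK 4 q0C = semK 4 q0C := by rw [inv_smul_eq_iff, hg1Q.2]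
      exact ⟨by rw [mul_smul, h1, hg2Q.1], by rw [mul_smul, h2, hg2Q.2]⟩
    refine ⟨⟨τ * (g2 * g1⁻¹) * τ⁻¹, mul_mem (mul_mem hτ (mul_mem hg2 (inv_mem hg1)))
      (inv_mem hτ)⟩, ?_, ?_⟩
    · rw [Subgroup.mem_inf, MulAction.mem_stabilizer_iff, MulAction.mem_stabilizer_iff]
      constructor
      · change (τ * (g2 * g1⁻¹) * τ⁻¹) • τ • bitsOf dM = τ • bitsOf dM
        rw [mul_smul, mul_smul, inv_smul_smul, hk.1]
      · change (τ * (g2 * g1⁻¹) * τ⁻¹) • τ • semK 4 q0C = τ • semK 4 q0C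
        rw [mul_smul, mul_smul, inv_smul_smul, hk.2]
    · change (τ * (g2 * g1⁻¹) * τ⁻¹) p = q
      rw [Equiv.Perm.mul_apply, Equiv.Perm.mul_apply, Equiv.Perm.mul_apply, ← hg1p]
      change τ (g2 (g1.symm (g1 (ptOf 0)))) = q
      rw [Equiv.symm_apply_apply, hg2q]
      exact τ.apply_symm_apply q

end Cfsg.Agent.Lib.Helper9.Leech
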