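import Cfsg.Agent.Lib.Helper9.Qt2
import Cfsg.Agent.Lib.Helper9.QtGLData

set_option autoImplicit false
open Cfsg

namespace Cfsg.Agent.Lib.Helper9.Leech

open scoped Pointwise
open Cfsg.Agent.S5393 Cfsg.Agent.S5548

/-! ### data checks for the quartet stabiliser `3^2 : GL(2,3)` -/

set_option maxRecDepth 100000 in
theorem glS_ok : slpChk glS glN = true := by decide +kernel

set_option maxRecDepth 100000 in
theorem qn_tbl : nodeTbl glS qn1K = qn1T ∧ nodeTbl glS qn2K = qn2T := by decide +kernel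

theorem qn_lt : qn1K ≤ glN ∧ qn2K ≤ glN := by decide

def cmQ (t : ℕ) : Bool :=
  all24 (fun i => Nat.beq (fld t (fld qn1T i)) (fld qn1T (fld t i))) &&
    all24 (fun i => Nat.beq (fld t (fld qn2T i)) (fld qn2T (fld t i)))

def fxQ (t : ℕ) : Bool :=
  allBelow (fun i => Nat.beq (pullN t (ent q0C 24 i)) (ent q0C 24 i)) 4 &&
    all24 (fun i => Nat.beq (powFld t 3 i) i)

set_option maxRecDepth 100000 in
theorem srchQA : srch locQ (fun t => passQ t && cmQ t) srLv 0 idN = 9 := by decide +kernel

set_option maxRecDepth 100000 in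
theorem srchQB : srch locQ (fun t => passQ t && (cmQ t && fxQ t)) srLv 0 idN = 9 := by
  decide +kernel

set_option maxRecDepth 100000 in
theorem srchQC : srch locQ (fun t => passQ t && fxQ t) srLv 0 idN = 9 := by decide +kernel

def glC (a b c d : ZMod 3) : ℕ := a.val + 3 * b.val + 9 * c.val + 27 * d.val

set_option maxRecDepth 100000 in
theorem gl_mul : ∀ a b c d a' b' c' d' : ZMod 3, a * d - b * c ≠ 0 → a' * d' - b' * c' ≠ 0 →
    glT.getD (glC (a * a' + b * c') (a * b' + b * d') (c * a' + d * c') (c * b' + d * d')) 0 =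
      mulN (glT.getD (glC a b c d) 0) (glT.getD (glC a' b' c' d') 0) := by decide +kernel

set_option maxRecDepth 100000 in
theorem gl_in : ∀ a b c d : ZMod 3, a * d - b * c ≠ 0 →
    ((Nat.blt (glK.getD (glC a b c d) 0) glN &&
      Nat.beq (nodeTbl glS (glK.getD (glC a b c d) 0)) (glT.getD (glC a b c d) 0)) &&
      passQ (glT.getD (glC a b c d) 0)) = true := by decide +kernel

set_option maxRecDepth 100000 in
theorem gl_inj : ∀ a b c d : ZMod 3, a * d - b * c ≠ 0 →
    cmQ (glT.getD (glC a b c d) 0) = true → (a = 1 ∧ b = 0 ∧ c = 0 ∧ d = 1) := by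
  decide +kernel

end Cfsg.Agent.Lib.Helper9.Leech
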