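import Cfsg.Agent.Lib.Helper9.QtGL2
import Cfsg.Agent.Lib.Helper9.S5Data

set_option autoImplicit false
open Cfsg

namespace Cfsg.Agent.Lib.Helper9.Leech

open scoped Pointwise
open Cfsg.Agent.S5393 Cfsg.Agent.S5548

/-! ### permutations of five points as base-5 codes; data checks for a copy of `S5` -/

def dg5 (t i : ℕ) : ℕ := Nat.mod (Nat.div t (Nat.pow 5 i)) 5

def en5 (R : ℕ → Bool) : ℕ → ℕ → ℕ → ℕ → Bool
  | 0, _, _, acc => R acc
  | n + 1, k, used, acc =>
      allBelow (fun a => tb used a ||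
        en5 R n (Nat.succ k) (Nat.lor used (Nat.pow 2 a))
          (Nat.add acc (Nat.mul a (Nat.pow 5 k)))) 5

def comp5 (c1 c2 : ℕ) : ℕ := hornerL 5 ((List.range 5).map (fun i => dg5 c1 (dg5 c2 i)))

set_option maxRecDepth 100000 in
theorem s5S_ok : slpChk s5S s5N = true := by decide +kernel

set_option maxRecDepth 100000 in
theorem s5_mul : en5 (fun c1 => en5 (fun c2 => Nat.beq (ent s5T 120 (comp5 c1 c2))
    (mulN (ent s5T 120 c1) (ent s5T 120 c2))) 5 0 0 0) 5 0 0 0 = true := by decide +kernel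

set_option maxRecDepth 100000 in
theorem s5_in : en5 (fun c => (Nat.blt (ent s5K 16 c) s5N &&
    Nat.beq (nodeTbl s5S (ent s5K 16 c)) (ent s5T 120 c)) &&
    (passM [dM, 8388640] (ent s5T 120 c) && psPt 1 (ent s5T 120 c))) 5 0 0 0 = true := by
  decide +kernel

set_option maxRecDepth 100000 in
theorem s5_inj : en5 (fun c => !(all24 (fun i => Nat.beq (powFld (ent s5T 120 c) 1 i) i)) ||
    Nat.beq c 2930) 5 0 0 0 = true := by decide +kernel

set_option maxRecDepth 100000 in
theorem srchS5 : srch (fun d a y => locM [dM, 8388640] d a y && locPt 1 d a y)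
    (fun t => passM [dM, 8388640] t && psPt 1 t) srLv 0 idN = 120 := by decide +kernel

end Cfsg.Agent.Lib.Helper9.Leech
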