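import Cfsg.Agent.Lib.Helper9.S5A

set_option autoImplicit false
open Cfsg

namespace Cfsg.Agent.Lib.Helper9.Leech

open scoped Pointwise
open Cfsg.Agent.S5393 Cfsg.Agent.S5548

/-! ### codes of permutations of five points -/

def f5 (x : Equiv.Perm (Fin 5)) (i : ℕ) : ℕ := (x ⟨i % 5, Nat.mod_lt _ (by norm_num)⟩).val

theorem f5_lt (x : Equiv.Perm (Fin 5)) (i : ℕ) : f5 x i < 5 := (x _).isLt

theorem f5_fin (x : Equiv.Perm (Fin 5)) (i : Fin 5) : f5 x i.val = (x i).val := by
  unfold f5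
  congr 2
  exact Fin.ext (Nat.mod_eq_of_lt i.isLt)

theorem f5_inj (x : Equiv.Perm (Fin 5)) (i j : ℕ) (hi : i < 5) (hj : j < 5)
    (h : f5 x i = f5 x j) : i = j := by
  have h1 := f5_fin x ⟨i, hi⟩
  have h2 := f5_fin x ⟨j, hj⟩
  have h3 : x ⟨i, hi⟩ = x ⟨j, hj⟩ := Fin.ext (by rw [← h1, ← h2]; exact h)
  have h4 := x.injective h3
  exact congrArg Fin.val h4

def tb5 (x : Equiv.Perm (Fin 5)) : ℕ := hornerL 5 ((List.range 5).map (f5 x))

theorem dg5_tb5 (x : Equiv.Perm (Fin 5)) (i : Fin 5) : dg5 (tb5 x) i.val = (x i).val := by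
  change tb5 x / 5 ^ i.val % 5 = _
  rw [tb5, horner_digit 5 (by norm_num) _ _ i.val (by simp)]
  · rw [List.getD_eq_getElem?_getD, List.getElem?_map, List.getElem?_range i.isLt]
    exact f5_fin x i
  · intro c hc
    rw [List.mem_map] at hc
    obtain ⟨a, _, rfl⟩ := hc
    exact f5_lt x a

theorem hornerL_snoc5 (B : ℕ) (c : ℕ) : ∀ (l : List ℕ),
    hornerL B (l ++ [c]) = hornerL B l + c * B ^ l.length := by
  intro l
  induction l with
  | nil => simp [hornerL]
  | cons a r ih =>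
    change a + B * hornerL B (r ++ [c]) = a + B * hornerL B r + c * B ^ (r.length + 1)
    rw [ih]
    ring

theorem en5_sound (R : ℕ → Bool) (x : Equiv.Perm (Fin 5)) : ∀ (n k used acc : ℕ), k + n = 5 →
    en5 R n k used acc = true →
    (∀ a, tb used a = true → ∃ i < k, f5 x i = a) →
    acc = hornerL 5 ((List.range k).map (f5 x)) → R (tb5 x) = true := by
  intro n
  induction n with
  | zero =>
    intro k used acc hk h _ hacc
    have hk5 : k = 5 := by omega
    subst hk5
    rw [hacc] at h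
    exact h
  | succ n ih =>
    intro k used acc hk h hused hacc
    have hk5 : k < 5 := by omega
    have h1 := allBelow_spec _ 5 h (f5 x k) (f5_lt x k)
    have h2 : tb used (f5 x k) = true ∨ en5 R n (Nat.succ k) (Nat.lor used (Nat.pow 2 (f5 x k)))
          (Nat.add acc (Nat.mul (f5 x k) (Nat.pow 5 k))) = true := by
      rw [← Bool.or_eq_true]
      exact h1
    rcases h2 with h2 | h2
    · obtain ⟨i, hi, hix⟩ := hused _ h2
      have := f5_inj x i k (by omega) hk5 hix
      omega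
    · refine ih (k + 1) _ _ (by omega) h2 ?_ ?_
      · intro a ha
        rw [tb_eq] at ha
        have ha' : (used ||| 2 ^ (f5 x k)).testBit a = true := ha
        rw [Nat.testBit_or, Bool.or_eq_true] at ha'
        rcases ha' with ha' | ha'
        · rw [← tb_eq] at ha'
          obtain ⟨i, hi, hix⟩ := hused a ha'
          exact ⟨i, by omega, hix⟩
        · rw [Nat.testBit_two_pow] at ha'
          exact ⟨k, by omega, by simpa using ha'⟩
      · rw [List.range_succ, List.map_append, List.map_singleton, hornerL_snoc5, ← hacc]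
        simp only [List.length_map, List.length_range]
        rfl

theorem en5_all (R : ℕ → Bool) (h : en5 R 5 0 0 0 = true) (x : Equiv.Perm (Fin 5)) :
    R (tb5 x) = true :=
  en5_sound R x 5 0 0 0 rfl h
    (fun a ha => by rw [tb_eq, Nat.zero_testBit] at ha; exact absurd ha (by simp)) rfl

theorem tb5_mul (x y : Equiv.Perm (Fin 5)) : tb5 (x * y) = comp5 (tb5 x) (tb5 y) := by
  unfold comp5
  rw [tb5]
  congr 1
  apply List.map_congr_left
  intro i hi
  have hi5 : i < 5 := List.mem_range.1 hi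
  have h1 := dg5_tb5 y ⟨i, hi5⟩
  have h2 := dg5_tb5 x (y ⟨i, hi5⟩)
  have h3 := f5_fin (x * y) ⟨i, hi5⟩
  change dg5 (tb5 y) i = _ at h1
  change f5 (x * y) i = _ at h3
  rw [h1, h2, h3]
  rfl

theorem tb5_one : tb5 1 = 2930 := by decide

theorem tb5_inj (x y : Equiv.Perm (Fin 5)) (h : tb5 x = tb5 y) : x = y := by
  ext i
  rw [← dg5_tb5 x i, ← dg5_tb5 y i, h]

/-! ### the stabiliser of a pair in the smallest Mathieu group -/

def In5 (g : Equiv.Perm GolayPt) : Prop :=
  (∀ m ∈ [dM, 8388640], g • bitsOf m = bitsOf m) ∧ ∀ p ∈ bitsOf 1, g p = p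

def s5H : Subgroup ↥M24 :=
  MulAction.stabilizer ↥M24 (bitsOf dM) ⊓ MulAction.stabilizer ↥M24 (ptOf 0) ⊓
    MulAction.stabilizer ↥M24 ({ptOf 23, ptOf 5} : Finset GolayPt)

theorem bits1 : bitsOf 1 = {ptOf 0} := by
  rw [bitsOf_list]
  have h1 : (List.range 24).filter (fun j => (1 : ℕ).testBit j) = [0] := by decide
  rw [h1]
  rfl

theorem bits_pair : bitsOf 8388640 = {ptOf 23, ptOf 5} := by
  have h := bitsOf_mask2 (ptOf 23) (ptOf 5)
  rw [idx_ptOf 23 (by norm_num), idx_ptOf 5 (by norm_num)] at h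
  exact h

theorem mem_s5H (x : ↥M24) : x ∈ s5H ↔ In5 (x : Equiv.Perm GolayPt) := by
  unfold s5H In5
  rw [Subgroup.mem_inf, Subgroup.mem_inf, MulAction.mem_stabilizer_iff,
    MulAction.mem_stabilizer_iff, MulAction.mem_stabilizer_iff, bits1, ← bits_pair]
  constructor
  · rintro ⟨⟨h1, h2⟩, h3⟩
    refine ⟨?_, ?_⟩
    · intro m hm
      simp only [List.mem_cons, List.not_mem_nil, or_false] at hm
      rcases hm with rfl | rfl
      · exact h1
      · exact h3
    · intro p hp
      rw [Finset.mem_singleton] at hp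
      rw [hp]
      exact h2
  · rintro ⟨h1, h2⟩
    exact ⟨⟨h1 dM (by simp), h2 _ (Finset.mem_singleton_self _)⟩, h1 8388640 (by simp)⟩

theorem s5_lt24 : ∀ m ∈ [dM, 8388640], m < 2 ^ 24 := by decide

theorem card_s5H : Nat.card ↥s5H = 120 := by
  rw [card_sub_eq s5H In5 mem_s5H, ← srchS5]
  exact masks_count' [dM, 8388640] s5_lt24 (fun g => ∀ p ∈ bitsOf 1, g p = p) (psPt 1)
    (fun g t hg => ptfix_iff g t hg 1) (locPt 1) (fun g h d hd a => locPt_sound 1 g h d hd a)

theorem s5H_iso : Nonempty (↥s5H ≃* Equiv.Perm (Fin 5)) := by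
  have ex : ∀ u : Equiv.Perm (Fin 5), ∃ g : Equiv.Perm GolayPt,
      g ∈ M24 ∧ TblP g (tblOf (ent s5T 120 (tb5 u))) := fun u => by
    have h := en5_all _ s5_in u
    rw [Bool.and_eq_true, Bool.and_eq_true] at h
    have h2 : nodeTbl s5S (ent s5K 16 (tb5 u)) = ent s5T 120 (tb5 u) :=
      Nat.eq_of_beq_eq_true h.1.2
    rw [← h2]
    exact slpChk_spec M24 (shift_mem 1) projInv_mem cubeTwist_mem s5S s5N s5S_ok _
      (Nat.le_of_ble_eq_true h.1.1)
  choose F hFM hFT using ex
  have hFQ : ∀ u, In5 (F u) := fun u => by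
    have h := en5_all _ s5_in u
    rw [Bool.and_eq_true] at h
    have h2 := h.2
    rw [Bool.and_eq_true] at h2
    exact ⟨(passM_iff [dM, 8388640] s5_lt24 (F u) _ (hFT u)).2 h2.1,
      (ptfix_iff (F u) _ (hFT u) 1).2 h2.2⟩
  have hmul : ∀ u v, F (u * v) = F u * F v := by
    intro u v
    apply tbl_unique _ _ _ (hFT (u * v))
    have h := en5_all _ (en5_all _ s5_mul u) v
    rw [tb5_mul u v, Nat.eq_of_beq_eq_true h]
    exact mulN_spec _ _ _ _ (hFT u) (hFT v)
  let f : Equiv.Perm (Fin 5) →* ↥s5H := MonoidHom.mk'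
    (fun u => ⟨⟨F u, hFM u⟩, (mem_s5H _).2 (hFQ u)⟩)
    (fun u v => Subtype.ext (Subtype.ext (hmul u v)))
  have hinj : Function.Injective f := by
    rw [injective_iff_map_eq_one]
    intro u hu
    have h1 : F u = 1 := congrArg (fun z : ↥s5H => ((z : ↥M24) : Equiv.Perm GolayPt)) hu
    have h2 : F u ^ 1 = 1 := by rw [pow_one, h1]
    have h3 := (pow_iff_tbl (F u) _ 1 (hFT u)).1 h2
    have h4 := en5_all _ s5_inj u
    rw [h3] at h4
    have h5 : tb5 u = 2930 := Nat.eq_of_beq_eq_true (by simpa using h4)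
    apply tb5_inj
    rw [h5, tb5_one]
  have hbij : Function.Bijective f := by
    rw [Nat.bijective_iff_injective_and_card]
    refine ⟨hinj, ?_⟩
    rw [card_s5H, Nat.card_eq_fintype_card, Fintype.card_perm, Fintype.card_fin]
    rfl
  exact ⟨(MulEquiv.ofBijective f hbij).symm⟩

theorem s1602 (d : Finset GolayPt) (hd : d ∈ dodecads) (p q q' : GolayPt) (hp : p ∈ d)
    (hq : q ∉ d) (hq' : q' ∉ d) (hqq' : q ≠ q') :
    Nonempty (↥(MulAction.stabilizer ↥M24 d ⊓ MulAction.stabilizer ↥M24 p ⊓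
      MulAction.stabilizer ↥M24 ({q, q'} : Finset GolayPt)) ≃* Equiv.Perm (Fin 5)) := by
  obtain ⟨τ, hτ, rfl, rfl⟩ := dod_flag d hd p hp
  have h23 : ptOf 23 ∉ bitsOf dM := by
    rw [mem_bits_tb dM 23 (by norm_num)]
    decide
  have h5 : ptOf 5 ∉ bitsOf dM := by
    rw [mem_bits_tb dM 5 (by norm_num)]
    decide
  obtain ⟨h, hh, hxy⟩ := m11_compl_trans [ptOf 23, ptOf 5] [τ⁻¹ q, τ⁻¹ q'] (by
      simp only [List.nodup_cons, List.mem_singleton, List.not_mem_nil, not_false_eq_true,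
        List.nodup_nil, and_true]
      intro h
      exact absurd (ptOf_inj 23 5 (by norm_num) (by norm_num) h) (by norm_num)) (by
      simp only [List.nodup_cons, List.mem_singleton, List.not_mem_nil, not_false_eq_true,
        List.nodup_nil, and_true]
      intro h
      exact hqq' (τ⁻¹.injective h)) (by
      intro z hz
      simp only [List.mem_cons, List.not_mem_nil, or_false] at hz
      rcases hz with rfl | rfl
      · exact h23
      · exact h5) (by
      intro z hz
      simp only [List.mem_cons, List.not_mem_nil, or_false] at hz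
      rcases hz with rfl | rfl
      · rw [smul_inv_mem]
        exact hq
      · rw [smul_inv_mem]
        exact hq') rfl (by simp)
  have e23 : h (ptOf 23) = τ⁻¹ q := hxy 0 (by simp)
  have e5 : h (ptOf 5) = τ⁻¹ q' := hxy 1 (by simp)
  have hσ : τ * h ∈ M24 := mul_mem hτ hh.1
  have hσd : (τ * h) • bitsOf dM = τ • bitsOf dM := by
    rw [mul_smul, hh.2.1 dM (List.mem_singleton_self _)]
  have hσp : (τ * h) (ptOf 0) = τ (ptOf 0) := by
    rw [Equiv.Perm.mul_apply, hh.2.2 0 (List.mem_singleton_self _)]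
  have hσq : (τ * h) (ptOf 23) = q := by
    rw [Equiv.Perm.mul_apply, e23]
    exact τ.apply_symm_apply q
  have hσq' : (τ * h) (ptOf 5) = q' := by
    rw [Equiv.Perm.mul_apply, e5]
    exact τ.apply_symm_apply q'
  have hinj : Function.Injective (MulAut.conj (⟨τ * h, hσ⟩ : ↥M24)).toMonoidHom :=
    (MulAut.conj (⟨τ * h, hσ⟩ : ↥M24)).injective
  have e : MulAction.stabilizer ↥M24 (τ • bitsOf dM) ⊓ MulAction.stabilizer ↥M24 (τ (ptOf 0)) ⊓
      MulAction.stabilizer ↥M24 ({q, q'} : Finset GolayPt) =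
      s5H.map (MulAut.conj (⟨τ * h, hσ⟩ : ↥M24)).toMonoidHom := by
    unfold s5H
    rw [Subgroup.map_inf _ _ _ hinj, Subgroup.map_inf _ _ _ hinj,
      ← MulAction.stabilizer_smul_eq_stabilizer_map_conj,
      ← MulAction.stabilizer_smul_eq_stabilizer_map_conj,
      ← MulAction.stabilizer_smul_eq_stabilizer_map_conj]
    have e1 : (⟨τ * h, hσ⟩ : ↥M24) • bitsOf dM = τ • bitsOf dM := hσd
    have e2 : (⟨τ * h, hσ⟩ : ↥M24) • ptOf 0 = τ (ptOf 0) := hσp
    have e3 : (⟨τ * h, hσ⟩ : ↥M24) • ({ptOf 23, ptOf 5} : Finset GolayPt) = {q, q'} := by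
      change (τ * h) • ({ptOf 23, ptOf 5} : Finset GolayPt) = {q, q'}
      rw [Finset.smul_finset_insert, Finset.smul_finset_singleton, Equiv.Perm.smul_def,
        Equiv.Perm.smul_def, hσq, hσq']
    rw [e1, e2, e3]
  rw [e]
  obtain ⟨φ⟩ := s5H_iso
  exact ⟨(s5H.equivMapOfInjective _ hinj).symm.trans φ⟩

end Cfsg.Agent.Lib.Helper9.Leech
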