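import Cfsg.Agent.Lib.Helper9.Nrm
import Cfsg.Agent.Lib.Helper9.Syl7Data

set_option autoImplicit false
open Cfsg

namespace Cfsg.Agent.Lib.Helper9.Leech

open scoped Pointwise
open Cfsg.Agent.S5393 Cfsg.Agent.S5548

set_option maxRecDepth 100000 in
theorem s7S_ok : slpChk s7S s7N = true := by decide +kernel

theorem s7_nodes : (Nat.blt s7KX s7N && Nat.beq (nodeTbl s7S s7KX) s7X) = true ∧
    (Nat.blt s7KA s7N && Nat.beq (nodeTbl s7S s7KA) s7A) = true ∧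
    (Nat.blt s7KB s7N && Nat.beq (nodeTbl s7S s7KB) s7B) = true := by
  decide +kernel

theorem s7_ex (k T : ℕ) (h : (Nat.blt k s7N && Nat.beq (nodeTbl s7S k) T) = true) :
    ∃ τ ∈ M24, TblP τ (tblOf T) := by
  rw [Bool.and_eq_true] at h
  rw [← Nat.eq_of_beq_eq_true h.2]
  exact slpChk_spec M24 (shift_mem 1) projInv_mem cubeTwist_mem s7S s7N s7S_ok _
    (Nat.le_of_ble_eq_true h.1)

theorem s7_rel : relOK s7X s7Rel = true := by decide +kernel

set_option maxRecDepth 100000 in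
theorem srchN7 : srch (locN s7X s7Rel (List.range 7)) (passN s7X (List.range 7)) srLv 0 idN
    = 126 := by decide +kernel

set_option maxRecDepth 100000 in
theorem srchC7 : srch (locN s7X s7Rel [1]) (passN s7X [1]) srLv 0 idN = 42 := by
  decide +kernel

/-! ### the trio of the three fixed octads -/

theorem s7Tr_lt : s7Tr < 3795 := by decide

theorem tr0_fix : allBelow (fun j => forceN (ent (codeAt 3 trioLE s7Tr) 24 j)
    (fun m => Nat.beq (pullN s7X m) m)) 3 = true := by decide +kernel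

set_option maxRecDepth 100000 in
theorem tr_uniq : allBelow (fun i => Nat.beq i s7Tr ||
    !(allBelow (fun j => forceN (ent (codeAt 3 trioLE i) 24 j)
      (fun m => Nat.beq (pullN s7X m) m)) 3)) 3795 = true := by decide +kernel

theorem s7_trio_uniq (x : Equiv.Perm GolayPt) (hx : TblP x (tblOf s7X))
    (T : Finset (Finset GolayPt)) (hT : T ∈ trios) (hfix : ∀ o ∈ T, x • o = o) :
    T = semK 3 (codeAt 3 trioLE s7Tr) := by
  obtain ⟨i, hi, rfl⟩ := (mem_trios T).1 hT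
  have h1 := allBelow_spec _ 3795 tr_uniq i hi
  rw [Bool.or_eq_true] at h1
  rcases h1 with h1 | h1
  · rw [Nat.eq_of_beq_eq_true h1]
  · exfalso
    have h2 : allBelow (fun j => forceN (ent (codeAt 3 trioLE i) 24 j)
        (fun m => Nat.beq (pullN s7X m) m)) 3 = true := by
      apply allBelow_of
      intro j hj
      rw [forceN_eq, ← fix_mask_iff x s7X hx _ (ent_lt _ 24 j)]
      exact hfix _ ((mem_semK 3 _ _).2 ⟨j, hj, rfl⟩)
    rw [h2] at h1
    exact absurd h1 (by decide)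

theorem s7_trio (x : Equiv.Perm GolayPt) (hx : TblP x (tblOf s7X)) :
    ∀ n ∈ M24, (∃ i ∈ List.range 7, n * x = x ^ i * n) →
      n • semK 3 (codeAt 3 trioLE s7Tr) = semK 3 (codeAt 3 trioLE s7Tr) := by
  rintro n hn ⟨i, _, hc⟩
  have key : n⁻¹ • semK 3 (codeAt 3 trioLE s7Tr) = semK 3 (codeAt 3 trioLE s7Tr) := by
    apply s7_trio_uniq x hx _ (trios_smul n⁻¹ (inv_mem hn) _
      ((mem_trios _).2 ⟨s7Tr, s7Tr_lt, rfl⟩))
    intro O' hO'
    obtain ⟨O, hO, rfl⟩ := Finset.mem_smul_finset.1 hO'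
    obtain ⟨j, hj, rfl⟩ := (mem_semK 3 _ O).1 hO
    have h1 := allBelow_spec _ 3 tr0_fix j hj
    rw [forceN_eq, ← fix_mask_iff x s7X hx _ (ent_lt _ 24 j)] at h1
    have h2 : x ^ i • bitsOf (ent (codeAt 3 trioLE s7Tr) 24 j) =
        bitsOf (ent (codeAt 3 trioLE s7Tr) 24 j) :=
      MulAction.mem_stabilizer_iff.1 (pow_mem (MulAction.mem_stabilizer_iff.2 h1) i)
    have e : x * n⁻¹ = n⁻¹ * x ^ i := by
      have e1 : x * n⁻¹ = n⁻¹ * (n * x) * n⁻¹ := by group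
      rw [e1, hc]
      group
    change x • n⁻¹ • bitsOf (ent (codeAt 3 trioLE s7Tr) 24 j) = n⁻¹ • bitsOf _
    rw [← mul_smul, e, mul_smul, h2]
  exact (inv_smul_eq_iff.1 key).symm

/-! ### the statement for one element, its invariance, and the subgroup form -/

def SylP (x : Equiv.Perm GolayPt) : Prop :=
  {n | n ∈ M24 ∧ ∃ i ∈ List.range 7, n * x = x ^ i * n}.ncard = 126 ∧
  {n | n ∈ M24 ∧ ∃ i ∈ [1], n * x = x ^ i * n}.ncard = 42 ∧
  (∃ a ∈ M24, ∃ b ∈ M24, a * x = x * a ∧ b * x = x * b ∧ a * b ≠ b * a) ∧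
  ∃ T ∈ trios, ∀ n ∈ M24, (∃ i ∈ List.range 7, n * x = x ^ i * n) → n • T = T

theorem sylP_base (x : Equiv.Perm GolayPt) (hx : TblP x (tblOf s7X)) : SylP x := by
  refine ⟨?_, ?_, ?_, semK 3 (codeAt 3 trioLE s7Tr), (mem_trios _).2 ⟨s7Tr, s7Tr_lt, rfl⟩,
    s7_trio x hx⟩
  · rw [nrm_count x s7X hx s7Rel s7_rel]
    exact srchN7
  · rw [nrm_count x s7X hx s7Rel s7_rel]
    exact srchC7
  · obtain ⟨a, haM, ha⟩ := s7_ex s7KA s7A s7_nodes.2.1
    obtain ⟨b, hbM, hb⟩ := s7_ex s7KB s7B s7_nodes.2.2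
    refine ⟨a, haM, b, hbM, ?_, ?_, ?_⟩
    · rw [comm_iff_tbl a x s7A s7X ha hx]
      decide +kernel
    · rw [comm_iff_tbl b x s7B s7X hb hx]
      decide +kernel
    · rw [Ne, comm_iff_tbl a b s7A s7B ha hb]
      decide +kernel

theorem sylP_conj (k x : Equiv.Perm GolayPt) (hk : k ∈ M24) (h : SylP x) :
    SylP (k * x * k⁻¹) := by
  obtain ⟨h1, h2, ⟨a, ha, b, hb, hax, hbx, hab⟩, T, hT, hTn⟩ := h
  refine ⟨?_, ?_, ⟨k * a * k⁻¹, conj_mem k a hk ha, k * b * k⁻¹, conj_mem k b hk hb, ?_, ?_, ?_⟩,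
    k • T, trios_smul k hk T hT, ?_⟩
  · rw [nrm_ncard_conj k x hk]
    exact h1
  · rw [nrm_ncard_conj k x hk]
    exact h2
  · have e1 : k * a * k⁻¹ * (k * x * k⁻¹) = k * (a * x) * k⁻¹ := by group
    have e2 : k * x * k⁻¹ * (k * a * k⁻¹) = k * (x * a) * k⁻¹ := by group
    rw [e1, e2, hax]
  · have e1 : k * b * k⁻¹ * (k * x * k⁻¹) = k * (b * x) * k⁻¹ := by group
    have e2 : k * x * k⁻¹ * (k * b * k⁻¹) = k * (x * b) * k⁻¹ := by group
    rw [e1, e2, hbx]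
  · intro h
    apply hab
    have e1 : a * b = k⁻¹ * (k * a * k⁻¹ * (k * b * k⁻¹)) * k := by group
    rw [e1, h]
    group
  · rintro n hn ⟨i, hi, hc⟩
    have h3 := hTn (k⁻¹ * n * k) (mul_mem (mul_mem (inv_mem hk) hn) hk)
      ⟨i, hi, (pw_conj k x n i).1 hc⟩
    rw [mul_smul, mul_smul] at h3
    exact (inv_smul_eq_iff.1 h3)

theorem sub_of_sylP (X : ↥M24) (hX : orderOf X = 7) (h : SylP (X : Equiv.Perm GolayPt)) :
    Nat.card ↥(Subgroup.normalizer ((Subgroup.zpowers X : Subgroup ↥M24) : Set ↥M24)) = 126 ∧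
    Nat.card ↥(Subgroup.centralizer ((Subgroup.zpowers X : Subgroup ↥M24) : Set ↥M24)) = 42 ∧
    (∃ x ∈ Subgroup.centralizer ((Subgroup.zpowers X : Subgroup ↥M24) : Set ↥M24),
      ∃ y ∈ Subgroup.centralizer ((Subgroup.zpowers X : Subgroup ↥M24) : Set ↥M24),
        x * y ≠ y * x) ∧
    ∃ T ∈ trios, ∀ n ∈ Subgroup.normalizer ((Subgroup.zpowers X : Subgroup ↥M24) : Set ↥M24),
      ((n : ↥M24) : Equiv.Perm GolayPt) • T = T := by
  obtain ⟨h1, h2, ⟨a, ha, b, hb, hax, hbx, hab⟩, T, hT, hTn⟩ := h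
  refine ⟨?_, ?_, ⟨⟨a, ha⟩, (mem_cent_zpowers X _).2 hax, ⟨b, hb⟩, (mem_cent_zpowers X _).2 hbx,
    ?_⟩, T, hT, ?_⟩
  · rw [card_sub_eq _ (fun n => ∃ i ∈ List.range 7, n * (X : Equiv.Perm GolayPt) =
      (X : Equiv.Perm GolayPt) ^ i * n) (fun n => mem_norm_zpowers X n 7 hX)]
    exact h1
  · rw [card_sub_eq _ (fun n => ∃ i ∈ [1], n * (X : Equiv.Perm GolayPt) =
      (X : Equiv.Perm GolayPt) ^ i * n) (fun n => (mem_cent_zpowers X n).trans (by simp))]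
    exact h2
  · intro h
    apply hab
    exact congrArg Subtype.val h
  · intro n hn
    exact hTn n.1 n.2 ((mem_norm_zpowers X n 7 hX).1 hn)

theorem s5604 (S : Subgroup ↥M24) (hS : Nat.card S = 7) :
    Nat.card ↥(Subgroup.normalizer (S : Set ↥M24)) = 126 ∧
    Nat.card ↥(Subgroup.centralizer (S : Set ↥M24)) = 42 ∧
    (∃ x ∈ Subgroup.centralizer (S : Set ↥M24), ∃ y ∈ Subgroup.centralizer (S : Set ↥M24),
      x * y ≠ y * x) ∧
    ∃ T ∈ trios, ∀ n ∈ Subgroup.normalizer (S : Set ↥M24),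
      ((n : ↥M24) : Equiv.Perm GolayPt) • T = T := by
  obtain ⟨x0, hx0M, hx0⟩ := s7_ex s7KX s7X s7_nodes.1
  have h7 : x0 ^ 7 = 1 := by
    rw [pow_iff_tbl x0 s7X 7 hx0]
    decide +kernel
  have hne : x0 ≠ 1 := ne_one_of_tbl x0 s7X 23 hx0 (by norm_num) (by decide +kernel)
  have hp7 : Fact (Nat.Prime 7) := ⟨by norm_num⟩
  have hord0 : orderOf (⟨x0, hx0M⟩ : ↥M24) = 7 := by
    apply orderOf_eq_prime
    · exact Subtype.ext h7
    · intro h
      exact hne (congrArg Subtype.val h)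
  have hc0 : Nat.card (Subgroup.zpowers (⟨x0, hx0M⟩ : ↥M24)) = 7 := by
    rw [Nat.card_zpowers, hord0]
  obtain ⟨g, hg⟩ := syl_conj 7 34974720 (by norm_num) (by rw [card_M24]) (by norm_num) S _ hS hc0
  rw [conj_zpowers_sub] at hg
  subst hg
  have hord : orderOf (g * ⟨x0, hx0M⟩ * g⁻¹) = 7 := by
    rw [← Nat.card_zpowers]
    exact hS
  exact sub_of_sylP _ hord (sylP_conj g.1 x0 g.2 (sylP_base x0 hx0))

end Cfsg.Agent.Lib.Helper9.Leech
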