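import Cfsg.Agent.Lib.Helper9.S5B
import Cfsg.Agent.Lib.Helper9.Orb5612
import Cfsg.Agent.Lib.Helper9.TrioData

set_option autoImplicit false
open Cfsg

namespace Cfsg.Agent.Lib.Helper9.Leech

open scoped Pointwise
open Cfsg.Agent.S5393 Cfsg.Agent.S5548

/-! ### codes for the stabiliser of the standard trio -/

def g3C (a b c d e f g h i : ZMod 2) : ℕ :=
  a.val + 2 * b.val + 4 * c.val + 8 * d.val + 16 * e.val + 32 * f.val + 64 * g.val +
    128 * h.val + 256 * i.val

def g3det (a b c d e f g h i : ZMod 2) : ZMod 2 :=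
  a * e * i - a * f * h - b * d * i + b * f * g + c * d * h - c * e * g

def t1 (a b c d e f g h i : ZMod 2) : ℕ := ent tr1T 120 (g3C a b c d e f g h i)

def k1 (a b c d e f g h i : ZMod 2) : ℕ := ent tr1K 16 (g3C a b c d e f g h i)

def pc (σ : Equiv.Perm (Fin 3)) : ℕ := (σ 0).val + 3 * (σ 1).val + 9 * (σ 2).val

def t2 (σ : Equiv.Perm (Fin 3)) : ℕ := ent tr2T 120 (pc σ)

def trM : List ℕ := [4038912, 4346506, 8391797]

def eT (i : ℕ) : ℕ := ent trET 120 i

def lT (i : ℕ) : ℕ := ent trL 120 i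

def inL (t : ℕ) : Bool := anyBelow (fun i => Nat.beq (lT i) t) 64

def inLf (t : ℕ) : Bool :=
  anyBelow (fun i => all24 (fun p => Nat.beq (fld (lT i) p) (fld t p))) 64

def tSw : ℕ := ent tr2T 120 5

end Cfsg.Agent.Lib.Helper9.Leech
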