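import Cfsg.Agent.Lib.Helper9.S5B
import Cfsg.Agent.Lib.Helper9.Orb5612
import Cfsg.Agent.Lib.Helper9.TrioD

set_option autoImplicit false
open Cfsg

namespace Cfsg.Agent.Lib.Helper9.Leech

open scoped Pointwise
open Cfsg.Agent.S5393 Cfsg.Agent.S5548

/-! ### multiplicativity check for the `GL(3,2)` table -/

set_option maxRecDepth 100000 in
theorem tr1_mul : ∀ a b c d e f g h i : ZMod 2, g3det a b c d e f g h i ≠ 0 →
    ∀ a' b' c' d' e' f' g' h' i' : ZMod 2, g3det a' b' c' d' e' f' g' h' i' ≠ 0 →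
    t1 (a * a' + b * d' + c * g') (a * b' + b * e' + c * h') (a * c' + b * f' + c * i')
      (d * a' + e * d' + f * g') (d * b' + e * e' + f * h') (d * c' + e * f' + f * i')
      (g * a' + h * d' + i * g') (g * b' + h * e' + i * h') (g * c' + h * f' + i * i') =
      mulN (t1 a b c d e f g h i) (t1 a' b' c' d' e' f' g' h' i') := by decide +kernel

end Cfsg.Agent.Lib.Helper9.Leech
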