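import Cfsg.Agent.Lib.Helper9.TrioA
import Cfsg.Agent.Lib.Helper9.TrioM

set_option autoImplicit false
open Cfsg

namespace Cfsg.Agent.Lib.Helper9.Leech

open scoped Pointwise
open Cfsg.Agent.S5393 Cfsg.Agent.S5548

/-! ### structure of a trio stabiliser -/

theorem mem_of_ncard {α : Type*} (X : Set α) (hfin : X.Finite) (n : ℕ) (hX : X.ncard = n)
    (f : ℕ → α) (hf : ∀ i < n, f i ∈ X) (hinj : ∀ i < n, ∀ j < n, f i = f j → i = j) :
    ∀ x ∈ X, ∃ i < n, x = f i := by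
  have himg : f '' (Finset.range n : Set ℕ) ⊆ X := by
    rintro _ ⟨i, hi, rfl⟩
    exact hf i (Finset.mem_range.1 (Finset.mem_coe.1 hi))
  have hcard : (f '' (Finset.range n : Set ℕ)).ncard = n := by
    rw [Set.ncard_image_of_injOn, Set.ncard_coe_finset, Finset.card_range]
    intro i hi j hj h
    exact hinj i (Finset.mem_range.1 (Finset.mem_coe.1 hi)) j
      (Finset.mem_range.1 (Finset.mem_coe.1 hj)) h
  have heq : f '' (Finset.range n : Set ℕ) = X :=
    Set.eq_of_subset_of_ncard_le himg (by rw [hX, hcard]) hfin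
  intro x hx
  rw [← heq] at hx
  obtain ⟨i, hi, rfl⟩ := hx
  exact ⟨i, Finset.mem_range.1 (Finset.mem_coe.1 hi), rfl⟩

theorem closure_normal {G : Type*} [Group G] (S : Set G)
    (hS : ∀ c : G, ∀ s ∈ S, c * s * c⁻¹ ∈ S) : (Subgroup.closure S).Normal := by
  have h : Subgroup.closure S = Subgroup.normalClosure S := by
    apply le_antisymm Subgroup.closure_le_normalClosure
    unfold Subgroup.normalClosure
    apply Subgroup.closure_mono
    intro a ha
    rw [Group.mem_conjugatesOfSet_iff] at ha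
    obtain ⟨b, hb, hconj⟩ := ha
    rw [isConj_iff] at hconj
    obtain ⟨c, rfl⟩ := hconj
    exact hS c b hb
  rw [h]
  exact Subgroup.normalClosure_normal

theorem quot_iso_of_equiv2 {H H' : Type*} [Group H] [Group H'] (e : H ≃* H') (c : ℕ)
    {K : Type*} [Group K]
    (h : ∃ (N : Subgroup H) (_ : N.Normal), Nat.card N = c ∧ (∀ x ∈ N, x * x = 1) ∧
      Nonempty (H ⧸ N ≃* K)) :
    ∃ (N : Subgroup H') (_ : N.Normal), Nat.card N = c ∧ (∀ x ∈ N, x * x = 1) ∧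
      Nonempty (H' ⧸ N ≃* K) := by
  obtain ⟨N, hN, hc, hsq, ⟨φ⟩⟩ := h
  have hN' : (N.map e.toMonoidHom).Normal := Subgroup.Normal.map hN _ e.surjective
  refine ⟨N.map e.toMonoidHom, hN', ?_, ?_, ?_⟩
  · rw [← hc]
    exact Nat.card_congr (N.equivMapOfInjective _ e.injective).toEquiv.symm
  · rintro _ ⟨n, hn, rfl⟩
    rw [← map_mul, hsq n hn, map_one]
  · exact ⟨(QuotientGroup.congr N (N.map e.toMonoidHom) e rfl).symm.trans φ⟩

theorem tbl_fld_eq (g : Equiv.Perm GolayPt) (s t : ℕ) (hs : TblP g (tblOf s))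
    (ht : TblP g (tblOf t)) (p : ℕ) (hp : p < 24) : fld s p = fld t p := by
  have e1 := TblP_idx g _ hs (ptOf p)
  have e2 := TblP_idx g _ ht (ptOf p)
  rw [idx_ptOf p hp] at e1 e2
  rw [← e1, ← e2]

/-! #### the standard trio -/

def trG : Subgroup ↥M24 := MulAction.stabilizer ↥M24 (semK 3 cfTrioA)

theorem tr_has (i : ℕ) (hi : i < 3) : bitsOf (ent cfTrioA 24 i) ∈ semK 3 cfTrioA :=
  (mem_semK 3 cfTrioA _).2 ⟨i, hi, rfl⟩

theorem trM_lt : ∀ m ∈ trM, m < 2 ^ 24 := by decide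

theorem trM_get (k : ℕ) (hk : k < 3) : trM.getD k 0 = ent cfTrioA 24 k := by
  rw [trM_eq]
  interval_cases k <;> rfl

theorem trM_iff (g : Equiv.Perm GolayPt) :
    (∀ m ∈ trM, g • bitsOf m = bitsOf m) ↔ ∀ s ∈ semK 3 cfTrioA, g • s = s := by
  rw [trM_eq]
  constructor
  · intro h s hs
    obtain ⟨i, hi, rfl⟩ := (mem_semK 3 cfTrioA s).1 hs
    interval_cases i
    · exact h _ (by simp)
    · exact h _ (by simp)
    · exact h _ (by simp)
  · intro h m hm
    simp only [List.mem_cons, List.not_mem_nil, or_false] at hm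
    rcases hm with rfl | rfl | rfl
    · exact h _ (tr_has 0 (by norm_num))
    · exact h _ (tr_has 1 (by norm_num))
    · exact h _ (tr_has 2 (by norm_num))

theorem tr_fix_set (g : Equiv.Perm GolayPt) (h : ∀ s ∈ semK 3 cfTrioA, g • s = s) :
    g • semK 3 cfTrioA = semK 3 cfTrioA := by
  ext s
  constructor
  · intro hs
    obtain ⟨s', hs', rfl⟩ := Finset.mem_smul_finset.1 hs
    rw [h s' hs']
    exact hs'
  · intro hs
    rw [← h s hs]
    exact Finset.smul_mem_smul_finset hs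

theorem mem_trG (x : ↥M24) :
    x ∈ trG ↔ (x : Equiv.Perm GolayPt) • semK 3 cfTrioA = semK 3 cfTrioA := by
  unfold trG
  rw [MulAction.mem_stabilizer_iff]
  rfl

theorem trG_card : Nat.card ↥trG = 64512 := by
  have horb : MulAction.orbit ↥M24 (semK 3 cfTrioA) = trios := by
    ext T
    constructor
    · rintro ⟨g, rfl⟩
      exact trios_cl g.1 g.2 _ (by
        rw [cfTrioA_eq]
        exact trio0_mem)
    · intro hT
      obtain ⟨σ, hσ, rfl⟩ := trio_to_base T hT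
      exact ⟨⟨σ, hσ⟩, rfl⟩
  have h := Subgroup.card_mul_index (MulAction.stabilizer ↥M24 (semK 3 cfTrioA))
  rw [MulAction.index_stabilizer, horb, s1557.2, card_M24] at h
  have h2 : Nat.card ↥(MulAction.stabilizer ↥M24 (semK 3 cfTrioA)) * 3795 = 64512 * 3795 := by
    rw [h]
  exact Nat.eq_of_mul_eq_mul_right (by norm_num) h2

/-! #### the normal subgroup of order 64 -/

def TrS (g : Equiv.Perm GolayPt) : Prop :=
  (∀ s ∈ semK 3 cfTrioA, g • s = s) ∧ ∃ s ∈ semK 3 cfTrioA, ∀ p ∈ s, g p = p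

def trSset : Set ↥trG := {x | TrS ((x : ↥M24) : Equiv.Perm GolayPt)}

def trNsub : Subgroup ↥trG := Subgroup.closure trSset

theorem TrS_conj (c g : Equiv.Perm GolayPt) (hc : c • semK 3 cfTrioA = semK 3 cfTrioA)
    (hg : TrS g) : TrS (c * g * c⁻¹) := by
  have hc' : c⁻¹ • semK 3 cfTrioA = semK 3 cfTrioA := by rw [inv_smul_eq_iff, hc]
  have hmem : ∀ s ∈ semK 3 cfTrioA, c⁻¹ • s ∈ semK 3 cfTrioA := fun s hs => by
    have h2 := Finset.smul_mem_smul_finset (a := c⁻¹) hs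
    rw [hc'] at h2
    exact h2
  have hmem' : ∀ s ∈ semK 3 cfTrioA, c • s ∈ semK 3 cfTrioA := fun s hs => by
    have h2 := Finset.smul_mem_smul_finset (a := c) hs
    rw [hc] at h2
    exact h2
  refine ⟨?_, ?_⟩
  · intro s hs
    rw [mul_smul, mul_smul, hg.1 _ (hmem s hs), smul_inv_smul]
  · obtain ⟨s, hs, hfix⟩ := hg.2
    refine ⟨c • s, hmem' s hs, ?_⟩
    intro p hp
    have hp' : c⁻¹ p ∈ s := (smul_inv_mem c s p).2 hp
    rw [Equiv.Perm.mul_apply, Equiv.Perm.mul_apply, hfix _ hp']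
    exact c.apply_symm_apply p

theorem trN_normal : trNsub.Normal := by
  apply closure_normal
  intro c s hs
  exact TrS_conj _ _ ((mem_trG (c : ↥M24)).1 c.2) hs

theorem trE_ex (i : ℕ) (hi : i < 24) : ∃ g : Equiv.Perm GolayPt, g ∈ M24 ∧
    TblP g (tblOf (eT i)) ∧ (∀ m ∈ trM, g • bitsOf m = bitsOf m) ∧
    ∀ p ∈ bitsOf (trM.getD (i / 8) 0), g p = p := by
  have h := allBelow_spec _ 24 trE_ok i hi
  simp only [Bool.and_eq_true] at h
  obtain ⟨g, hg, ht⟩ := slpChk_spec M24 (shift_mem 1) projInv_mem cubeTwist_mem trS trN trS_ok _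
    (Nat.le_of_ble_eq_true h.1.1)
  rw [Nat.eq_of_beq_eq_true h.1.2] at ht
  exact ⟨g, hg, ht, (passM_iff trM trM_lt g _ ht).2 h.2.1, (ptfix_iff g _ ht _).2 h.2.2⟩

theorem trX_card (k : ℕ) (hk : k < 2) : {g | g ∈ M24 ∧ ((∀ m ∈ trM, g • bitsOf m = bitsOf m) ∧
    ∀ p ∈ bitsOf (trM.getD (k + 1) 0), g p = p)}.ncard = 8 := by
  rw [← trCnt k hk]
  exact masks_count' trM trM_lt (fun g => ∀ p ∈ bitsOf (trM.getD (k + 1) 0), g p = p)
    (psPt (trM.getD (k + 1) 0)) (fun g t hg => ptfix_iff g t hg _) (locPt (trM.getD (k + 1) 0))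
    (fun g h d hd a => locPt_sound _ g h d hd a)

theorem trX_mem (k : ℕ) (hk : k < 2) (g : Equiv.Perm GolayPt) (hg : g ∈ M24)
    (h1 : ∀ m ∈ trM, g • bitsOf m = bitsOf m)
    (h2 : ∀ p ∈ bitsOf (trM.getD (k + 1) 0), g p = p) :
    ∃ j < 8, TblP g (tblOf (eT (8 * (k + 1) + j))) := by
  have ex : ∀ j : ℕ, ∃ e : Equiv.Perm GolayPt, j < 8 → (e ∈ M24 ∧
      TblP e (tblOf (eT (8 * (k + 1) + j))) ∧ (∀ m ∈ trM, e • bitsOf m = bitsOf m) ∧
      ∀ p ∈ bitsOf (trM.getD (k + 1) 0), e p = p) := by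
    intro j
    by_cases hj : j < 8
    · obtain ⟨e, h⟩ := trE_ex (8 * (k + 1) + j) (by omega)
      refine ⟨e, fun _ => ?_⟩
      have hdiv : (8 * (k + 1) + j) / 8 = k + 1 := by omega
      rw [hdiv] at h
      exact h
    · exact ⟨1, fun h => absurd h hj⟩
  choose f hf using ex
  have key := mem_of_ncard _ (Set.toFinite _) 8 (trX_card k hk) f
    (fun j hj => ⟨(hf j hj).1, (hf j hj).2.2.1, (hf j hj).2.2.2⟩) (by
      intro i hi j hj hij
      by_contra hne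
      have hd := allBelow_spec _ 8 (allBelow_spec _ 8 (allBelow_spec _ 3 trE_dist (k + 1)
        (by omega)) i hi) j hj
      rw [Bool.or_eq_true] at hd
      rcases hd with hd | hd
      · exact hne (Nat.eq_of_beq_eq_true hd)
      · rw [anyBelow_iff] at hd
        obtain ⟨p, hp, hpd⟩ := hd
        have e3 := tbl_fld_eq (f i) _ _ (hf i hi).2.1 (by
          rw [hij]
          exact (hf j hj).2.1) p hp
        rw [e3, (beq_iff _ _).2 rfl] at hpd
        exact absurd hpd (by decide))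
  obtain ⟨j, hj, rfl⟩ := key g ⟨hg, h1, h2⟩
  exact ⟨j, hj, (hf j hj).2.1⟩

theorem inL_of (t : ℕ) (h : inL t = true) : ∃ i < 64, lT i = t := by
  unfold inL at h
  rw [anyBelow_iff] at h
  obtain ⟨i, hi, hie⟩ := h
  exact ⟨i, hi, Nat.eq_of_beq_eq_true hie⟩

/-- an element of order two swapping the first and the third octad -/
theorem tr_sw : ∃ s : Equiv.Perm GolayPt, s ∈ M24 ∧ TblP s (tblOf tSw) ∧
    s • semK 3 cfTrioA = semK 3 cfTrioA ∧
    s • bitsOf (ent cfTrioA 24 0) = bitsOf (ent cfTrioA 24 2) ∧ s * s = 1 := by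
  have h := tr2_in (Equiv.swap 0 2)
  simp only [Bool.and_eq_true] at h
  obtain ⟨s, hs, ht⟩ := slpChk_spec M24 (shift_mem 1) projInv_mem cubeTwist_mem trS trN trS_ok _
    (Nat.le_of_ble_eq_true h.1.1)
  rw [Nat.eq_of_beq_eq_true h.1.2] at ht
  have h0 : pullN (t2 (Equiv.swap 0 2)) (ent cfTrioA 24 2) = ent cfTrioA 24 0 :=
    Nat.eq_of_beq_eq_true h.2.2.1
  have h1 : s⁻¹ • bitsOf (ent cfTrioA 24 2) = bitsOf (ent cfTrioA 24 0) := by
    rw [pullN_spec s _ ht, h0]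
  refine ⟨s, hs, ?_, (fixK_iff s _ ht 3 cfTrioA).2 h.2.1, ?_, ?_⟩
  · rw [← tSw_eq]
    exact ht
  · rw [← h1, smul_inv_smul]
  · rw [tSw_eq] at ht
    apply tbl_unique _ _ _ (mulN_spec s s _ _ ht ht)
    rw [tSw_sq]
    exact idN_tbl

theorem trS_tbl (g : Equiv.Perm GolayPt) (hg : g ∈ M24) (h : TrS g) :
    ∃ i < 64, TblP g (tblOf (lT i)) := by
  obtain ⟨h1, s, hs, hfix⟩ := h
  obtain ⟨k, hk, rfl⟩ := (mem_semK 3 cfTrioA s).1 hs
  have key : ∀ k' < 2, ∀ g' : Equiv.Perm GolayPt, g' ∈ M24 → (∀ s ∈ semK 3 cfTrioA, g' • s = s) →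
      (∀ p ∈ bitsOf (ent cfTrioA 24 (k' + 1)), g' p = p) →
      ∃ j < 8, TblP g' (tblOf (eT (8 * (k' + 1) + j))) := by
    intro k' hk' g' hg' h1' hfix'
    exact trX_mem k' hk' g' hg' ((trM_iff g').2 h1') (by
      rw [trM_get (k' + 1) (by omega)]
      exact hfix')
  rcases Nat.eq_zero_or_pos k with hk0 | hkpos
  · subst hk0
    obtain ⟨s, hsM, hst, hsT, hs02, hss⟩ := tr_sw
    have hsinv : s⁻¹ = s := inv_eq_of_mul_eq_one_left hss
    have hconj := TrS_conj s g hsT ⟨h1, _, tr_has 0 (by norm_num), hfix⟩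
    have hfix2 : ∀ p ∈ bitsOf (ent cfTrioA 24 2), (s * g * s⁻¹) p = p := by
      intro p hp
      rw [← hs02] at hp
      have hp' : s⁻¹ p ∈ bitsOf (ent cfTrioA 24 0) := (smul_inv_mem s _ p).2 hp
      rw [Equiv.Perm.mul_apply, Equiv.Perm.mul_apply, hfix _ hp']
      exact s.apply_symm_apply p
    obtain ⟨j, hj, hjt⟩ := key 1 (by norm_num) (s * g * s⁻¹)
      (mul_mem (mul_mem hsM hg) (inv_mem hsM)) hconj.1 hfix2
    have hg2 : g = s * (s * g * s⁻¹) * s := by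
      rw [hsinv]
      calc g = (s * s) * g * (s * s) := by rw [hss, one_mul, mul_one]
        _ = s * (s * g * s) * s := by simp only [mul_assoc]
    have ht2 : TblP g (tblOf (mulN (mulN tSw (eT (16 + j))) tSw)) := by
      rw [hg2]
      exact mulN_spec _ _ _ _ (mulN_spec _ _ _ _ hst hjt) hst
    obtain ⟨i, hi, hie⟩ := inL_of _ (allBelow_spec _ 8 trE_conj j hj)
    exact ⟨i, hi, by
      rw [hie]
      exact ht2⟩
  · obtain ⟨k', rfl⟩ : ∃ k', k = k' + 1 := ⟨k - 1, by omega⟩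
    obtain ⟨j, hj, hjt⟩ := key k' (by omega) g hg h1 hfix
    obtain ⟨i, hi, hie⟩ := inL_of _ (allBelow_spec _ 24 trE_inL (8 * (k' + 1) + j) (by omega))
    exact ⟨i, hi, by
      rw [hie]
      exact hjt⟩

theorem trN_sub (x : ↥trG) (hx : x ∈ trNsub) :
    ∃ i < 64, TblP ((x : ↥M24) : Equiv.Perm GolayPt) (tblOf (lT i)) := by
  unfold trNsub at hx
  induction hx using Subgroup.closure_induction with
  | mem x hx => exact trS_tbl _ (x : ↥M24).2 hx
  | one =>
    exact ⟨0, by norm_num, by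
      rw [trL_zero]
      exact idN_tbl⟩
  | mul x y _ _ ihx ihy =>
    obtain ⟨i, hi, hx⟩ := ihx
    obtain ⟨j, hj, hy⟩ := ihy
    obtain ⟨k, hk, hke⟩ := inL_of _ (allBelow_spec _ 64 (allBelow_spec _ 64 trL_mul i hi) j hj)
    exact ⟨k, hk, by
      rw [hke]
      exact mulN_spec _ _ _ _ hx hy⟩
  | inv x _ ih =>
    obtain ⟨i, hi, hx⟩ := ih
    have hsq : ((x : ↥M24) : Equiv.Perm GolayPt) * ((x : ↥M24) : Equiv.Perm GolayPt) = 1 := by
      apply tbl_unique _ _ _ (mulN_spec _ _ _ _ hx hx)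
      rw [Nat.eq_of_beq_eq_true (allBelow_spec _ 64 trL_sq i hi)]
      exact idN_tbl
    have hinv : (((x : ↥M24) : Equiv.Perm GolayPt))⁻¹ = ((x : ↥M24) : Equiv.Perm GolayPt) :=
      inv_eq_of_mul_eq_one_left hsq
    exact ⟨i, hi, by
      change TblP (((x : ↥M24) : Equiv.Perm GolayPt))⁻¹ _
      rw [hinv]
      exact hx⟩

theorem trL_ex (i : ℕ) (hi : i < 64) : ∃ x : ↥trG, x ∈ trNsub ∧
    TblP ((x : ↥M24) : Equiv.Perm GolayPt) (tblOf (lT i)) := by
  obtain ⟨g, hg, hgt, hg1, hg2⟩ := trE_ex (8 + i / 8) (by omega)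
  obtain ⟨h, hh, hht, hh1, hh2⟩ := trE_ex (16 + i % 8) (by omega)
  have hd1 : (8 + i / 8) / 8 = 1 := by omega
  have hd2 : (16 + i % 8) / 8 = 2 := by omega
  rw [hd1, trM_get 1 (by norm_num)] at hg2
  rw [hd2, trM_get 2 (by norm_num)] at hh2
  have hgS : TrS g := ⟨(trM_iff g).1 hg1, _, tr_has 1 (by norm_num), hg2⟩
  have hhS : TrS h := ⟨(trM_iff h).1 hh1, _, tr_has 2 (by norm_num), hh2⟩
  have hgG : (⟨g, hg⟩ : ↥M24) ∈ trG := (mem_trG _).2 (tr_fix_set g hgS.1)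
  have hhG : (⟨h, hh⟩ : ↥M24) ∈ trG := (mem_trG _).2 (tr_fix_set h hhS.1)
  refine ⟨(⟨⟨g, hg⟩, hgG⟩ : ↥trG) * ⟨⟨h, hh⟩, hhG⟩, ?_, ?_⟩
  · exact mul_mem (Subgroup.subset_closure hgS) (Subgroup.subset_closure hhS)
  · have hl := allBelow_spec _ 8 (allBelow_spec _ 8 trL_def (i / 8) (by omega)) (i % 8)
      (Nat.mod_lt _ (by norm_num))
    have hidx : 8 * (i / 8) + i % 8 = i := Nat.div_add_mod i 8
    rw [hidx] at hl
    rw [Nat.eq_of_beq_eq_true hl]
    exact mulN_spec _ _ _ _ hgt hht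

theorem trN_card : Nat.card ↥trNsub = 64 := by
  choose f hfN hfT using (fun i : Fin 64 => trL_ex i i.2)
  have hbij : Function.Bijective (fun i : Fin 64 => (⟨f i, hfN i⟩ : ↥trNsub)) := by
    constructor
    · intro i j hij
      have h1 : f i = f j := congrArg Subtype.val hij
      by_contra hne
      have hd := allBelow_spec _ 64 (allBelow_spec _ 64 trL_dist i i.2) j j.2
      rw [Bool.or_eq_true] at hd
      rcases hd with hd | hd
      · exact hne (Fin.ext (Nat.eq_of_beq_eq_true hd))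
      · rw [anyBelow_iff] at hd
        obtain ⟨p, hp, hpd⟩ := hd
        have e3 := tbl_fld_eq _ _ _ (hfT i) (by
          rw [h1]
          exact hfT j) p hp
        rw [e3, (beq_iff _ _).2 rfl] at hpd
        exact absurd hpd (by decide)
    · intro y
      obtain ⟨i, hi, ht⟩ := trN_sub y.1 y.2
      refine ⟨⟨i, hi⟩, ?_⟩
      apply Subtype.ext
      apply Subtype.ext
      apply Subtype.ext
      exact tbl_unique _ _ _ (hfT ⟨i, hi⟩) ht
  rw [← Nat.card_congr (Equiv.ofBijective _ hbij), Nat.card_eq_fintype_card, Fintype.card_fin]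

theorem trN_sq (x : ↥trG) (hx : x ∈ trNsub) : x * x = 1 := by
  obtain ⟨i, hi, ht⟩ := trN_sub x hx
  apply Subtype.ext
  apply Subtype.ext
  change ((x : ↥M24) : Equiv.Perm GolayPt) * ((x : ↥M24) : Equiv.Perm GolayPt) = 1
  apply tbl_unique _ _ _ (mulN_spec _ _ _ _ ht ht)
  rw [Nat.eq_of_beq_eq_true (allBelow_spec _ 64 trL_sq i hi)]
  exact idN_tbl

end Cfsg.Agent.Lib.Helper9.Leech
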