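import Cfsg.Agent.Lib.Helper9.Trio2

set_option autoImplicit false
open Cfsg

namespace Cfsg.Agent.Lib.Helper9.Leech

open scoped Pointwise
open Cfsg.Agent.S5393 Cfsg.Agent.S5548

/-! ### the complement `GL(3,2) × S3` in the stabiliser of the standard trio -/

theorem g3_det (u : GL (Fin 3) (ZMod 2)) :
    g3det ((u : Matrix (Fin 3) (Fin 3) (ZMod 2)) 0 0) ((u : Matrix (Fin 3) (Fin 3) (ZMod 2)) 0 1)
      ((u : Matrix (Fin 3) (Fin 3) (ZMod 2)) 0 2) ((u : Matrix (Fin 3) (Fin 3) (ZMod 2)) 1 0)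
      ((u : Matrix (Fin 3) (Fin 3) (ZMod 2)) 1 1) ((u : Matrix (Fin 3) (Fin 3) (ZMod 2)) 1 2)
      ((u : Matrix (Fin 3) (Fin 3) (ZMod 2)) 2 0) ((u : Matrix (Fin 3) (Fin 3) (ZMod 2)) 2 1)
      ((u : Matrix (Fin 3) (Fin 3) (ZMod 2)) 2 2) ≠ 0 := by
  unfold g3det
  rw [← Matrix.det_fin_three]
  exact (Matrix.isUnits_det_units u).ne_zero

def T1 (u : GL (Fin 3) (ZMod 2)) : ℕ :=
  t1 ((u : Matrix (Fin 3) (Fin 3) (ZMod 2)) 0 0) ((u : Matrix (Fin 3) (Fin 3) (ZMod 2)) 0 1)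
    ((u : Matrix (Fin 3) (Fin 3) (ZMod 2)) 0 2) ((u : Matrix (Fin 3) (Fin 3) (ZMod 2)) 1 0)
    ((u : Matrix (Fin 3) (Fin 3) (ZMod 2)) 1 1) ((u : Matrix (Fin 3) (Fin 3) (ZMod 2)) 1 2)
    ((u : Matrix (Fin 3) (Fin 3) (ZMod 2)) 2 0) ((u : Matrix (Fin 3) (Fin 3) (ZMod 2)) 2 1)
    ((u : Matrix (Fin 3) (Fin 3) (ZMod 2)) 2 2)

theorem T1_mul (u v : GL (Fin 3) (ZMod 2)) : T1 (u * v) = mulN (T1 u) (T1 v) := by
  have e := tr1_mul _ _ _ _ _ _ _ _ _ (g3_det u) _ _ _ _ _ _ _ _ _ (g3_det v)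
  unfold T1
  rw [← e, Units.val_mul]
  simp only [Matrix.mul_apply, Fin.sum_univ_three]

theorem gl3_card : Nat.card (GL (Fin 3) (ZMod 2)) = 168 := by
  have h := Matrix.card_GL_field (𝔽 := ZMod 2) 3
  rw [h]
  simp [Fin.prod_univ_three, ZMod.card]

theorem perm3_card : Nat.card (Equiv.Perm (Fin 3)) = 6 := by
  rw [Nat.card_eq_fintype_card, Fintype.card_perm, Fintype.card_fin]
  rfl

theorem trG_struct : ∃ (N : Subgroup ↥trG) (_ : N.Normal), Nat.card N = 64 ∧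
    (∀ x ∈ N, x * x = 1) ∧
    Nonempty (↥trG ⧸ N ≃* GL (Fin 3) (ZMod 2) × Equiv.Perm (Fin 3)) := by
  refine ⟨trNsub, trN_normal, trN_card, trN_sq, ?_⟩
  haveI : trNsub.Normal := trN_normal
  have ex1 : ∀ u : GL (Fin 3) (ZMod 2), ∃ g : Equiv.Perm GolayPt,
      g ∈ M24 ∧ TblP g (tblOf (T1 u)) ∧ g • semK 3 cfTrioA = semK 3 cfTrioA := fun u => by
    have h := tr1_in _ _ _ _ _ _ _ _ _ (g3_det u)
    simp only [Bool.and_eq_true] at h
    obtain ⟨g, hg, ht⟩ := slpChk_spec M24 (shift_mem 1) projInv_mem cubeTwist_mem trS trN trS_ok _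
      (Nat.le_of_ble_eq_true h.1.1)
    rw [Nat.eq_of_beq_eq_true h.1.2] at ht
    exact ⟨g, hg, ht, (fixK_iff g _ ht 3 cfTrioA).2 h.2⟩
  choose F1 hF1M hF1T hF1G using ex1
  have ex2 : ∀ σ : Equiv.Perm (Fin 3), ∃ g : Equiv.Perm GolayPt,
      g ∈ M24 ∧ TblP g (tblOf (t2 σ)) ∧ g • semK 3 cfTrioA = semK 3 cfTrioA := fun σ => by
    have h := tr2_in σ
    simp only [Bool.and_eq_true] at h
    obtain ⟨g, hg, ht⟩ := slpChk_spec M24 (shift_mem 1) projInv_mem cubeTwist_mem trS trN trS_ok _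
      (Nat.le_of_ble_eq_true h.1.1)
    rw [Nat.eq_of_beq_eq_true h.1.2] at ht
    exact ⟨g, hg, ht, (fixK_iff g _ ht 3 cfTrioA).2 h.2.1⟩
  choose F2 hF2M hF2T hF2G using ex2
  have hmul1 : ∀ u v, F1 (u * v) = F1 u * F1 v := by
    intro u v
    apply tbl_unique _ _ _ (hF1T (u * v))
    rw [T1_mul u v]
    exact mulN_spec _ _ _ _ (hF1T u) (hF1T v)
  have hmul2 : ∀ σ τ, F2 (σ * τ) = F2 σ * F2 τ := by
    intro σ τ
    apply tbl_unique _ _ _ (hF2T (σ * τ))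
    rw [tr2_mul σ τ]
    exact mulN_spec _ _ _ _ (hF2T σ) (hF2T τ)
  let f1 : GL (Fin 3) (ZMod 2) →* ↥trG := MonoidHom.mk'
    (fun u => ⟨⟨F1 u, hF1M u⟩, (mem_trG _).2 (hF1G u)⟩)
    (fun u v => Subtype.ext (Subtype.ext (hmul1 u v)))
  let f2 : Equiv.Perm (Fin 3) →* ↥trG := MonoidHom.mk'
    (fun σ => ⟨⟨F2 σ, hF2M σ⟩, (mem_trG _).2 (hF2G σ)⟩)
    (fun σ τ => Subtype.ext (Subtype.ext (hmul2 σ τ)))
  have hcomm : ∀ u σ, Commute (f1 u) (f2 σ) := by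
    intro u σ
    apply Subtype.ext
    apply Subtype.ext
    change F1 u * F2 σ = F2 σ * F1 u
    apply tbl_unique _ _ _ (mulN_spec _ _ _ _ (hF1T u) (hF2T σ))
    have h := tr_comm _ _ _ _ _ _ _ _ _ (g3_det u) σ
    have h' : mulN (T1 u) (t2 σ) = mulN (t2 σ) (T1 u) := h
    rw [h']
    exact mulN_spec _ _ _ _ (hF2T σ) (hF1T u)
  let f : GL (Fin 3) (ZMod 2) × Equiv.Perm (Fin 3) →* ↥trG := MonoidHom.noncommCoprod f1 f2 hcomm
  let ψ : GL (Fin 3) (ZMod 2) × Equiv.Perm (Fin 3) →* ↥trG ⧸ trNsub :=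
    (QuotientGroup.mk' trNsub).comp f
  have hinj : Function.Injective ψ := by
    rw [injective_iff_map_eq_one]
    rintro ⟨u, σ⟩ hu
    have h1 : f (u, σ) ∈ trNsub := (QuotientGroup.eq_one_iff _).1 hu
    obtain ⟨i, hi, ht⟩ := trN_sub _ h1
    have ht' : TblP (F1 u * F2 σ) (tblOf (lT i)) := ht
    have hin : inLf (mulN (T1 u) (t2 σ)) = true := by
      unfold inLf
      rw [anyBelow_iff]
      refine ⟨i, hi, ?_⟩
      apply all24_of
      intro p hp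
      rw [beq_iff]
      exact tbl_fld_eq _ _ _ ht' (mulN_spec _ _ _ _ (hF1T u) (hF2T σ)) p hp
    obtain ⟨e1, e2⟩ := tr_inj _ _ _ _ _ _ _ _ _ (g3_det u) σ hin
    obtain ⟨a1, a2, a3, a4, a5, a6, a7, a8, a9⟩ := g3C_one _ _ _ _ _ _ _ _ _ e1
    have hσ : σ = 1 := pc_one σ e2
    have hu1 : u = 1 := by
      apply Units.ext
      ext i j
      fin_cases i <;> fin_cases j
      · exact a1
      · exact a2
      · exact a3
      · exact a4
      · exact a5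
      · exact a6
      · exact a7
      · exact a8
      · exact a9
    rw [hu1, hσ]
    rfl
  have hbij : Function.Bijective ψ := by
    rw [Nat.bijective_iff_injective_and_card]
    refine ⟨hinj, ?_⟩
    have h1 := Subgroup.card_eq_card_quotient_mul_card_subgroup trNsub
    rw [trG_card, trN_card] at h1
    rw [Nat.card_prod, gl3_card, perm3_card]
    have h2 : Nat.card (↥trG ⧸ trNsub) * 64 = 1008 * 64 := by rw [← h1]
    exact (Nat.eq_of_mul_eq_mul_right (by norm_num) h2).symm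
  exact ⟨(MulEquiv.ofBijective ψ hbij).symm⟩

/-! ### every permutation of the three octads is induced -/

theorem tr_mask_inj : ∀ i < 3, ∀ j < 3, ent cfTrioA 24 i = ent cfTrioA 24 j → i = j := by
  decide +kernel

theorem tr_perm (σ : Equiv.Perm (Fin 3)) : ∃ g : Equiv.Perm GolayPt, g ∈ M24 ∧
    g • semK 3 cfTrioA = semK 3 cfTrioA ∧
    ∀ k : Fin 3, g • bitsOf (ent cfTrioA 24 k.val) = bitsOf (ent cfTrioA 24 (σ k).val) := by
  have h := tr2_in σ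
  simp only [Bool.and_eq_true] at h
  obtain ⟨g, hg, ht⟩ := slpChk_spec M24 (shift_mem 1) projInv_mem cubeTwist_mem trS trN trS_ok _
    (Nat.le_of_ble_eq_true h.1.1)
  rw [Nat.eq_of_beq_eq_true h.1.2] at ht
  refine ⟨g, hg, (fixK_iff g _ ht 3 cfTrioA).2 h.2.1, ?_⟩
  have key : ∀ a b : ℕ, pullN (t2 σ) (ent cfTrioA 24 b) = ent cfTrioA 24 a →
      g • bitsOf (ent cfTrioA 24 a) = bitsOf (ent cfTrioA 24 b) := by
    intro a b hab
    have h1 : g⁻¹ • bitsOf (ent cfTrioA 24 b) = bitsOf (ent cfTrioA 24 a) := by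
      rw [pullN_spec g _ ht, hab]
    rw [← h1, smul_inv_smul]
  intro k
  fin_cases k
  · exact key 0 _ (Nat.eq_of_beq_eq_true h.2.2.1)
  · exact key 1 _ (Nat.eq_of_beq_eq_true h.2.2.2.1)
  · exact key 2 _ (Nat.eq_of_beq_eq_true h.2.2.2.2)

theorem s1558 (T : Finset (Finset GolayPt)) (hT : T ∈ trios) :
    (∀ e : Equiv.Perm ↥T, ∃ g ∈ MulAction.stabilizer ↥M24 T, ∀ o : ↥T,
      (g : Equiv.Perm GolayPt) • (o : Finset GolayPt) = ((e o : ↥T) : Finset GolayPt)) ∧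
    ∃ (N : Subgroup ↥(MulAction.stabilizer ↥M24 T)) (_ : N.Normal), Nat.card N = 64 ∧
      (∀ x ∈ N, x * x = 1) ∧
      Nonempty (↥(MulAction.stabilizer ↥M24 T) ⧸ N ≃*
        GL (Fin 3) (ZMod 2) × Equiv.Perm (Fin 3)) := by
  obtain ⟨τ, hτ, rfl⟩ := trio_to_base T hT
  constructor
  · intro e
    have hbij : Function.Bijective (fun k : Fin 3 =>
        (⟨τ • bitsOf (ent cfTrioA 24 k.val), Finset.smul_mem_smul_finset (tr_has k.val k.2)⟩ :
          ↥(τ • semK 3 cfTrioA))) := by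
      constructor
      · intro i j hij
        have h1 : τ • bitsOf (ent cfTrioA 24 i.val) = τ • bitsOf (ent cfTrioA 24 j.val) :=
          congrArg Subtype.val hij
        have h2 := MulAction.injective τ h1
        exact Fin.ext (tr_mask_inj _ i.2 _ j.2 (bitsOf_inj _ _ (ent_lt _ _ _) (ent_lt _ _ _) h2))
      · intro o
        obtain ⟨s, hs, hso⟩ := Finset.mem_smul_finset.1 o.2
        obtain ⟨k, hk, rfl⟩ := (mem_semK 3 cfTrioA s).1 hs
        exact ⟨⟨k, hk⟩, Subtype.ext hso⟩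
    let ε : Fin 3 ≃ ↥(τ • semK 3 cfTrioA) := Equiv.ofBijective _ hbij
    have hε : ∀ k : Fin 3, ((ε k : ↥(τ • semK 3 cfTrioA)) : Finset GolayPt) =
        τ • bitsOf (ent cfTrioA 24 k.val) := fun k => rfl
    obtain ⟨g, hg, hgT, hgk⟩ := tr_perm (ε.trans (e.trans ε.symm))
    refine ⟨⟨τ * g * τ⁻¹, mul_mem (mul_mem hτ hg) (inv_mem hτ)⟩, ?_, ?_⟩
    · rw [MulAction.mem_stabilizer_iff]
      change (τ * g * τ⁻¹) • τ • semK 3 cfTrioA = τ • semK 3 cfTrioA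
      rw [mul_smul, mul_smul, inv_smul_smul, hgT]
    · intro o
      obtain ⟨k, rfl⟩ := ε.surjective o
      change (τ * g * τ⁻¹) • ((ε k : ↥(τ • semK 3 cfTrioA)) : Finset GolayPt) = _
      rw [hε k, mul_smul, mul_smul, inv_smul_smul, hgk k]
      have h3 : (ε.trans (e.trans ε.symm)) k = ε.symm (e (ε k)) := rfl
      rw [h3, ← hε (ε.symm (e (ε k))), Equiv.apply_symm_apply]
  · have hinj : Function.Injective (MulAut.conj (⟨τ, hτ⟩ : ↥M24)).toMonoidHom :=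
      (MulAut.conj (⟨τ, hτ⟩ : ↥M24)).injective
    have e : MulAction.stabilizer ↥M24 (τ • semK 3 cfTrioA) =
        trG.map (MulAut.conj (⟨τ, hτ⟩ : ↥M24)).toMonoidHom := by
      unfold trG
      rw [← MulAction.stabilizer_smul_eq_stabilizer_map_conj]
      rfl
    rw [e]
    exact quot_iso_of_equiv2 (trG.equivMapOfInjective _ hinj) 64 trG_struct

end Cfsg.Agent.Lib.Helper9.Leech
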