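import Cfsg.Agent.Lib.Helper9.S5B
import Cfsg.Agent.Lib.Helper9.Orb5612
import Cfsg.Agent.Lib.Helper9.TrioD

set_option autoImplicit false
open Cfsg

namespace Cfsg.Agent.Lib.Helper9.Leech

open scoped Pointwise
open Cfsg.Agent.S5393 Cfsg.Agent.S5548

/-! ### data checks for the stabiliser of the standard trio -/

theorem trM_eq : trM = [ent cfTrioA 24 0, ent cfTrioA 24 1, ent cfTrioA 24 2] := by decide +kernel

set_option maxRecDepth 100000 in
theorem trS_ok : slpChk trS trN = true := by decide +kernel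

set_option maxRecDepth 100000 in
theorem tr1_in : ∀ a b c d e f g h i : ZMod 2, g3det a b c d e f g h i ≠ 0 →
    ((Nat.blt (k1 a b c d e f g h i) trN &&
      Nat.beq (nodeTbl trS (k1 a b c d e f g h i)) (t1 a b c d e f g h i)) &&
      fixK 3 (t1 a b c d e f g h i) cfTrioA) = true := by decide +kernel

set_option maxRecDepth 100000 in
theorem tr2_mul : ∀ σ τ : Equiv.Perm (Fin 3), t2 (σ * τ) = mulN (t2 σ) (t2 τ) := by
  decide +kernel

set_option maxRecDepth 100000 in
theorem tr2_in : ∀ σ : Equiv.Perm (Fin 3),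
    ((Nat.blt (ent tr2K 16 (pc σ)) trN && Nat.beq (nodeTbl trS (ent tr2K 16 (pc σ))) (t2 σ)) &&
      (fixK 3 (t2 σ) cfTrioA &&
        (Nat.beq (pullN (t2 σ) (ent cfTrioA 24 (σ 0).val)) (ent cfTrioA 24 0) &&
          (Nat.beq (pullN (t2 σ) (ent cfTrioA 24 (σ 1).val)) (ent cfTrioA 24 1) &&
            Nat.beq (pullN (t2 σ) (ent cfTrioA 24 (σ 2).val)) (ent cfTrioA 24 2))))) = true := by
  decide +kernel

set_option maxRecDepth 100000 in
theorem tr_comm : ∀ a b c d e f g h i : ZMod 2, g3det a b c d e f g h i ≠ 0 →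
    ∀ σ : Equiv.Perm (Fin 3),
      mulN (t1 a b c d e f g h i) (t2 σ) = mulN (t2 σ) (t1 a b c d e f g h i) := by
  decide +kernel

set_option maxRecDepth 100000 in
theorem tr_inj : ∀ a b c d e f g h i : ZMod 2, g3det a b c d e f g h i ≠ 0 →
    ∀ σ : Equiv.Perm (Fin 3), inLf (mulN (t1 a b c d e f g h i) (t2 σ)) = true →
      (g3C a b c d e f g h i = 273 ∧ pc σ = 21) := by
  decide +kernel

set_option synthInstance.maxSize 4096 in
set_option synthInstance.maxHeartbeats 0 in
theorem g3C_one : ∀ a b c d e f g h i : ZMod 2, g3C a b c d e f g h i = 273 →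
    (a = 1 ∧ b = 0 ∧ c = 0 ∧ d = 0 ∧ e = 1 ∧ f = 0 ∧ g = 0 ∧ h = 0 ∧ i = 1) := by decide

theorem pc_one : ∀ σ : Equiv.Perm (Fin 3), pc σ = 21 → σ = 1 := by decide

set_option maxRecDepth 100000 in
theorem tSw_eq : t2 (Equiv.swap 0 2) = tSw := by decide +kernel

set_option maxRecDepth 100000 in
theorem tSw_sq : mulN tSw tSw = idN := by decide +kernel

set_option maxRecDepth 100000 in
theorem trE_conj : allBelow (fun j => inL (mulN (mulN tSw (eT (16 + j))) tSw)) 8 = true := by
  decide +kernel

set_option maxRecDepth 100000 in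
theorem trE_ok : allBelow (fun i =>
    (Nat.blt (ent trEK 16 i) trN && Nat.beq (nodeTbl trS (ent trEK 16 i)) (eT i)) &&
      (passM trM (eT i) && psPt (trM.getD (i / 8) 0) (eT i))) 24 = true := by decide +kernel

set_option maxRecDepth 100000 in
theorem trE_dist : allBelow (fun k => allBelow (fun i => allBelow (fun j => Nat.beq i j ||
    anyBelow (fun p => !(Nat.beq (fld (eT (8 * k + i)) p) (fld (eT (8 * k + j)) p))) 24) 8) 8) 3 =
      true := by decide +kernel

set_option maxRecDepth 100000 in
theorem trL_def : allBelow (fun i => allBelow (fun j =>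
    Nat.beq (lT (8 * i + j)) (mulN (eT (8 + i)) (eT (16 + j)))) 8) 8 = true := by decide +kernel

set_option maxRecDepth 100000 in
theorem trE_inL : allBelow (fun i => inL (eT i)) 24 = true := by decide +kernel

set_option maxRecDepth 100000 in
theorem trL_mul : allBelow (fun i => allBelow (fun j => inL (mulN (lT i) (lT j))) 64) 64 = true := by
  decide +kernel

set_option maxRecDepth 100000 in
theorem trL_sq : allBelow (fun i => Nat.beq (mulN (lT i) (lT i)) idN) 64 = true := by
  decide +kernel

set_option maxRecDepth 100000 in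
theorem trL_dist : allBelow (fun i => allBelow (fun j => Nat.beq i j ||
    anyBelow (fun p => !(Nat.beq (fld (lT i) p) (fld (lT j) p))) 24) 64) 64 = true := by
  decide +kernel

set_option maxRecDepth 100000 in
theorem trL_zero : lT 0 = idN := by decide +kernel

set_option maxRecDepth 100000 in
theorem trCnt : ∀ k < 2, srch (fun d a y => locM trM d a y && locPt (trM.getD (k + 1) 0) d a y)
    (fun t => passM trM t && psPt (trM.getD (k + 1) 0) t) srLv 0 idN = 8 := by decide +kernel

end Cfsg.Agent.Lib.Helper9.Leech
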